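import Mathlib
import Cfsg.Agent.Chev.AltSec
import Cfsg.Agent.Chev.SsTor
import Cfsg.Agent.S2376

/-!
# Semisimple elements of ³D₄ conjugate to their powers
-/

set_option autoImplicit false
set_option backward.isDefEq.respectTransparency false

namespace Cfsg.Agent.Chev.AS

open Cfsg.Lie Cfsg.Lie.ChevalleyDatum

/-- sums over a list of weights invariant under the fundamental reflections -/
theorem sum_wl {D : ChevalleyDatum} [D.Good] {Λ : List (List ℤ)}
    (h : ∀ i < D.rank, (Λ.map (D.reflL i)).Perm Λ) {w : Equiv.Perm D.Rt} (hw : w ∈ D.stRoot.weyl)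
    (G : D.Lat → ℕ) :
    (Λ.map fun v => G (D.wl w (toLat D.rank v))).sum = (Λ.map fun v => G (toLat D.rank v)).sum := by
  obtain ⟨L, rfl⟩ := D.stRoot.mem_weyl_iff.1 hw
  rw [← lw_eq_wl]
  clear hw
  induction L generalizing G with
  | nil => rfl
  | cons i L ih =>
    refine (ih fun v => G (D.stRoot.lw [i] v)).trans ?_
    rw [← (((h i i.2).map fun v => G (toLat D.rank v))).sum_eq, List.map_map]
    simp only [D.lw_toLat]
    rfl

/-- a linear form on lists -/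
def ev (a b c d : ℕ) (v : List ℤ) : ℤ := a * v.getD 0 0 + b * v.getD 1 0 + c * v.getD 2 0 + d * v.getD 3 0

theorem exists_log {K : Type*} [Field K] [IsAlgClosed K] {m : ℕ} (hm : (m : K) ≠ 0)
    {χ : Multiplicative (Fin 4 → ℤ) →* Kˣ} (h : χ ^ m = 1) : ∃ a < m, ∃ b < m, ∃ c < m, ∃ d < m,
      ∃ lg : Kˣ → ℕ, (∀ (k : ℕ) v, lg (cv χ (toLat 4 v) ^ k) = ((k * ev a b c d v) % m).toNat) ∧
        (∀ v, cv χ (toLat 4 v) = 1 ↔ ev a b c d v % m = 0) ∧
        (a = 0 → b = 0 → c = 0 → d = 0 → χ = 1) := by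
  classical
  have : NeZero (m : K) := ⟨hm⟩
  have : NeZero m := ⟨by rintro rfl; exact hm Nat.cast_zero⟩
  obtain ⟨ζ', hζ'⟩ := HasEnoughRootsOfUnity.exists_primitiveRoot K m
  obtain ⟨ζ, rfl⟩ := hζ'.isUnit (NeZero.ne m)
  have hζ := IsPrimitiveRoot.coe_units_iff.1 hζ'
  have h1 : ∀ i, ∃ a < m, ζ ^ a = cv χ (Pi.single i 1) := fun i => by
    obtain ⟨a, ha, e⟩ := hζ'.eq_pow_of_pow_eq_one (ξ := (cv χ (Pi.single i 1) : K))
      (by rw [← Units.val_pow_eq_pow_val, ← cv_pow, h]; rfl)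
    exact ⟨a, ha, Units.ext (by simpa using e)⟩
  choose a ha e using h1
  have h2 : ∀ v, cv χ (toLat 4 v) = ζ ^ ev (a 0) (a 1) (a 2) (a 3) v := fun v => by
    rw [cv_pi, Fin.prod_univ_four]
    simp only [← e, ← zpow_natCast, ← zpow_mul, ← zpow_add]
    rfl
  refine ⟨_, ha 0, _, ha 1, _, ha 2, _, ha 3, fun u => if h : ∃ z : ℤ, ζ ^ z = u then
    (h.choose % m).toNat else 0, fun k v => ?_, fun v => ?_, fun h0 h1 h2 h3 => chr_ext_pi fun i => ?_⟩
  · rw [h2, ← zpow_natCast, ← zpow_mul, mul_comm]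
    have h3 : ∃ z : ℤ, ζ ^ z = ζ ^ (k * ev (a 0) (a 1) (a 2) (a 3) v) := ⟨_, rfl⟩
    simp only [dif_pos h3]
    have h4 := h3.choose_spec
    rw [zpow_eq_zpow_iff_modEq, ← hζ.eq_orderOf] at h4
    rw [h4]
  · rw [h2, hζ.zpow_eq_one_iff_dvd, Int.dvd_iff_emod_eq_zero]
  · rw [← e, show a i = 0 by fin_cases i <;> assumption, pow_zero, cv_one]

/-- the weights of the three 8-dimensional modules and the roots -/
def wt8 : List (List ℤ) := [[1, 0, 0, 0], [-1, 0, 0, 0], [-1, 1, 0, 0], [1, -1, 0, 0], [0, -1, 1, 1],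
  [0, 1, -1, -1], [0, 0, -1, 1], [0, 0, 1, -1]]

/-- triality on lists -/
def triL (v : List ℤ) : List ℤ := [v.getD 3 0, v.getD 1 0, v.getD 0 0, v.getD 2 0]

/-- the roots -/
def rtL : List (List ℤ) := (List.range 24).map chevD4.wtL

theorem lat_toLat (v : List ℤ) : d4Sym.lat (toLat 4 v) = toLat 4 (triL v) := by
  funext i
  revert i
  change ∀ i : Fin 4, _
  intro i
  fin_cases i <;> rfl

theorem perm_wt8 : ∀ i < chevD4.rank, (wt8.map (chevD4.reflL i)).Perm wt8 := by decide +kernel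
theorem perm_wt8' : ∀ i < chevD4.rank, ((wt8.map triL).map (chevD4.reflL i)).Perm (wt8.map triL) := by
  decide +kernel
theorem perm_wt8'' : ∀ i < chevD4.rank,
    (((wt8.map triL).map triL).map (chevD4.reflL i)).Perm ((wt8.map triL).map triL) := by
  decide +kernel
theorem perm_rtL : ∀ i < chevD4.rank, (rtL.map (chevD4.reflL i)).Perm rtL := by decide +kernel

/-- code of a list of values -/
def code (m k : ℕ) (a b c d : ℕ) (Λ : List (List ℤ)) : ℕ :=
  (Λ.map fun v => 32 ^ ((k * ev a b c d v) % m).toNat).sum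

/-- number of zeros -/
def zc (m : ℕ) (a b c d : ℕ) (Λ : List (List ℤ)) : ℕ :=
  (Λ.map fun v => if ev a b c d v % m = 0 then 1 else 0).sum

set_option synthInstance.maxSize 4096 in
set_option synthInstance.maxHeartbeats 200000 in
theorem chk5 : ∀ a < 5, ∀ b < 5, ∀ c < 5, ∀ d < 5, code 5 1 a b c d wt8 = code 5 2 a b c d wt8 →
    zc 5 a b c d (wt8.map triL) = zc 5 a b c d wt8 →
    zc 5 a b c d ((wt8.map triL).map triL) = zc 5 a b c d (wt8.map triL) →
    a = 0 ∧ b = 0 ∧ c = 0 ∧ d = 0 := by decide +kernel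

set_option synthInstance.maxSize 4096 in
set_option synthInstance.maxHeartbeats 200000 in
theorem chk2 : ∀ a < 2, ∀ b < 2, ∀ c < 2, ∀ d < 2,
    zc 2 a b c d (wt8.map triL) = zc 2 a b c d wt8 →
    zc 2 a b c d ((wt8.map triL).map triL) = zc 2 a b c d (wt8.map triL) →
    (a = 0 ∧ b = 0 ∧ c = 0 ∧ d = 0) ∨ zc 2 a b c d rtL = 8 := by decide +kernel

/-- code of the values on the roots where the second form is odd -/
def code2 (k : ℕ) (a b c d a' b' c' d' : ℕ) : ℕ :=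
  (rtL.map fun v => if ev a' b' c' d' v % 2 = 0 then 0 else 32 ^ ((k * ev a b c d v) % 7).toNat).sum

/-- no non-central involution is compatible -/
def In14 (a b c d : ℕ) : Prop := ∀ a' < 2, ∀ b' < 2, ∀ c' < 2, ∀ d' < 2, zc 2 a' b' c' d' rtL = 8 →
    code2 1 a b c d a' b' c' d' ≠ code2 2 a b c d a' b' c' d'

set_option synthInstance.maxSize 4096 in
instance (a b c d : ℕ) : Decidable (In14 a b c d) := by unfold In14; infer_instance

set_option synthInstance.maxSize 4096 in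
theorem chk14 : ∀ a < 7, ∀ b < 7, ∀ c < 7, ∀ d < 7, code 7 1 a b c d wt8 = code 7 2 a b c d wt8 →
    (a = 0 ∧ b = 0 ∧ c = 0 ∧ d = 0) ∨ In14 a b c d := by decide +kernel

universe u

variable {K : Type u} [Field K] [Fintype K] {q : ℕ}

theorem fix_unique {L : Type*} [Field L] (φ : L →+* L) {g g' : chevD4.SteinbergGroup L}
    (h : S2376.grData.σ φ g = g) (h' : S2376.grData.σ φ g' = g')
    (e : chevD4.stProj L g = chevD4.stProj L g') : g = g' := by
  obtain ⟨c, hc⟩ := chevD4.exists_stTor (chevD4.ker_stProj_le L (x := g⁻¹ * g')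
    (by rw [MonoidHom.mem_ker, map_mul, map_inv, e, inv_mul_cancel]))
  have h1 : S2376.grData.σ φ (chevD4.stTor L c) = chevD4.stTor L c := by
    rw [hc, map_mul, map_inv, h, h']
  have h2 : c ∈ (chevD4.torusHom L).ker := by
    rw [MonoidHom.mem_ker, ← coe_stProj_stTor, hc, map_mul, map_inv, e, inv_mul_cancel]; rfl
  rw [GrData.σ_stTor, (stTor_injective_D4 L).eq_iff] at h1
  obtain ⟨h3, h4, h5, h6⟩ := twD4_ker.1 h2
  have h7 : ∀ u : Lˣ, u ^ 2 = 1 → Units.map (φ : L →* L) u = u := fun u hu => by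
    rcases sq_eq_one_iff.1 (show (u : L) ^ 2 = 1 by
      rw [← Units.val_pow_eq_pow_val, hu, Units.val_one]) with h | h <;> exact Units.ext (by simp [h])
  have e2 : c (d4n 0) = c (d4n 2) := (h7 _ h3).symm.trans (congrFun h1 (d4n 2))
  have e3 : c (d4n 2) = c (d4n 3) := (h7 _ h5).symm.trans (congrFun h1 (d4n 3))
  have e0 : c (d4n 0) = 1 := by rwa [← e3, right_eq_mul] at h6
  have : c = 1 := funext (twD4_forall.2 ⟨e0, h4, e2 ▸ e0, e3 ▸ e2 ▸ e0⟩)
  rw [this, map_one, eq_comm, inv_mul_eq_one] at hc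
  exact hc

theorem exists_chr (p : ℕ) [Fact p.Prime] [CharP K p] (hq : IsPrimePow q)
    (hK : Fintype.card K = q ^ 3) (y : twistedD4 K q) (hy : (orderOf y).Coprime p) :
    ∃ χ : Multiplicative chevD4.Lat →* (AlgebraicClosure K)ˣ,
      (∃ w ∈ chevD4.stRoot.weyl, ∀ v, cv χ (chevD4.wl w (d4Sym.lat v)) = cv χ v ^ q) ∧
      orderOf χ = orderOf y ∧
      (∀ t a, t * y * t⁻¹ = y ^ a → ∃ w ∈ chevD4.stRoot.weyl, ∀ v, cv χ (chevD4.wl w v) = cv χ v ^ a) ∧
      ((y : GL chevD4.Idx K) : Matrix chevD4.Idx chevD4.Idx K).charpoly.aroots (AlgebraicClosure K) =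
        Finset.univ.val.map (Sum.elim (fun _ : chevD4.Nd => 1) fun r : chevD4.Rt =>
          (cv χ (chevD4.wt r) : AlgebraicClosure K)) := by
  obtain ⟨f, hf⟩ := tw_exists_frob (K := K) hq (by decide) hK
  revert y
  rw [← twD4_G1 hK hf]
  intro y hy
  have hinj := stTor_injective_D4 (AlgebraicClosure K)
  obtain ⟨φ, hφ, -, hS⟩ := S2376.grData.exists_frob_data hinj (twD4 f) rfl hq hK hf
  set j := (fieldHom chevD4 (algebraMap K (AlgebraicClosure K))).comp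
    (Subgroup.inclusion (twD4 f).G1_le_group) with hj
  have hji : Function.Injective j := (fieldHom_injective _ _).comp (Subgroup.inclusion_injective _)
  choose l hl1 hl2 using fun y => (hS (j y)).1 ⟨y, rfl⟩
  let ℓ : (twD4 f).G1 →* chevD4.SteinbergGroup (AlgebraicClosure K) := MonoidHom.mk' l fun a b =>
    fix_unique φ (hl1 _) (by rw [map_mul, hl1, hl1]) (by rw [map_mul, hl2, hl2, hl2, map_mul])
  have hℓ : ∀ y, ℓ y = l y := fun _ => rfl
  have hℓi : Function.Injective ℓ := fun a b e => hji (by rw [← hl2, ← hl2, ← hℓ, e, hℓ])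
  obtain ⟨-, -, χ₀, -, h1⟩ := chevD4.exists_isConj_torC_group K hinj p
    (Subgroup.inclusion (twD4 f).G1_le_group y)
    (by rwa [orderOf_injective _ (Subgroup.inclusion_injective _)])
  obtain ⟨s, hs⟩ := isConj_iff.1 h1
  obtain ⟨s, rfl⟩ := chevD4.stProj_surjective _ s
  obtain ⟨χ, hχ⟩ := chevD4.exists_torC (chevD4.mem_HH_of_stProj (g := s * ℓ y * s⁻¹) (by
    rw [map_mul, map_mul, map_inv, hℓ, hl2]
    exact (show _ = _ from hs) ▸ chevD4.stProj_torC_mem χ₀))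
  have h2 : IsConj (ℓ y) (chevD4.torC _ χ) := isConj_iff.2 ⟨s, hχ.symm⟩
  refine ⟨χ, ?_, ?_, fun t a e => ?_, ?_⟩
  · obtain ⟨ψ, hψ⟩ := chevD4.exists_torC (a := S2376.grData.σ φ (chevD4.torC _ χ)) (by
      rw [torC_apply, GrData.σ_stTor]; exact chevD4.stTor_mem_HH _)
    have h3 : IsConj (S2376.grData.σ φ (l y)) (S2376.grData.σ φ (chevD4.torC _ χ)) :=
      MonoidHom.map_isConj (S2376.grData.σ φ) h2
    rw [hl1] at h3
    obtain ⟨w, hw, e⟩ := chevD4.exists_lw_of_isConj hinj (χ := χ) (χ' := ψ)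
      (hψ ▸ h2.symm.trans h3)
    exact ⟨w, hw, (S2376.grData.mem_twT_iff hinj hφ (chevD4.wl w) χ).2 (by rw [← hψ, e])⟩
  · rw [← orderOf_injective _ hℓi, ← orderOf_injective _ (chevD4.torC_injective hinj)]
    obtain ⟨c, hc⟩ := h2
    exact hc.orderOf_eq.symm
  · obtain ⟨w, hw, e'⟩ := chevD4.exists_lw_of_isConj hinj (χ := χ) (χ' := χ ^ a) (by
      rw [show chevD4.torC _ (χ ^ a) = chevD4.torC _ χ ^ a from map_pow (chevD4.torC _) χ a]
      exact h2.symm.trans ((isConj_iff.2 ⟨ℓ t, by rw [← map_pow, ← e, map_mul, map_mul, map_inv]⟩ :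
        IsConj (ℓ y) (ℓ y ^ a)).trans (h2.pow a)))
    exact ⟨w, hw, fun v => by rw [← cv_chrComp, ← e', cv_pow]⟩
  · have h3 := congrArg (fun g => (chevD4.stProj _ g : GL chevD4.Idx (AlgebraicClosure K))) hχ
    simp only [torC_apply, coe_stProj_stTor, map_mul, map_inv, hℓ, hl2, Subgroup.coe_mul,
      Subgroup.coe_inv] at h3
    have h4 := aroots_charpoly_of_diag (AlgebraicClosure K)
      (M := ((j y : GL chevD4.Idx (AlgebraicClosure K)) : Matrix _ _ _))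
      (g := (chevD4.stProj _ s : GL chevD4.Idx (AlgebraicClosure K))⁻¹)
      (d := Sum.elim (fun _ => 1) fun r : chevD4.Rt => (cv χ (chevD4.wt r) : AlgebraicClosure K)) (by
        rw [inv_inv, ← Units.val_mul, ← Units.val_mul, ← h3, torusHom_apply, coe_charG, charDiag]
        congr 2
        funext r
        rw [cv_pi χ (chevD4.wt r)]
        rfl)
    rw [Polynomial.aroots_def, ← Matrix.charpoly_map]
    rw [Polynomial.aroots_def, Algebra.algebraMap_self, Polynomial.map_id] at h4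
    exact h4

variable {L : Type*} [Field L] {χ : Multiplicative chevD4.Lat →* Lˣ}

theorem sum_eq_of_wl {Λ : List (List ℤ)} (h : ∀ i < chevD4.rank, (Λ.map (chevD4.reflL i)).Perm Λ)
    {a : ℕ} (hw : ∃ w ∈ chevD4.stRoot.weyl, ∀ v, cv χ (chevD4.wl w v) = cv χ v ^ a) (G : Lˣ → ℕ) :
    (Λ.map fun v => G (cv χ (toLat 4 v))).sum = (Λ.map fun v => G (cv χ (toLat 4 v) ^ a)).sum := by
  obtain ⟨w, hw, e⟩ := hw
  refine (sum_wl h hw fun v => G (cv χ v)).symm.trans ?_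
  simp only [e]
  rfl

theorem zc_eq {m a b c d : ℕ} (hχ : χ ^ m = 1) (hq : q.Coprime m)
    (hw : ∃ w ∈ chevD4.stRoot.weyl, ∀ v, cv χ (chevD4.wl w (d4Sym.lat v)) = cv χ v ^ q)
    (h0 : ∀ v, cv χ (toLat 4 v) = 1 ↔ ev a b c d v % m = 0) {Λ : List (List ℤ)}
    (h : ∀ i < chevD4.rank, ((Λ.map triL).map (chevD4.reflL i)).Perm (Λ.map triL)) :
    zc m a b c d (Λ.map triL) = zc m a b c d Λ := by
  classical
  obtain ⟨w, hw, e⟩ := hw
  have h1 := sum_wl h hw fun v => if cv χ v = 1 then 1 else 0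
  have h2 : ∀ v, cv χ (chevD4.wl w (toLat chevD4.rank (triL v))) = 1 ↔ cv χ (toLat 4 v) = 1 :=
    fun v => by
      rw [show toLat chevD4.rank (triL v) = _ from (lat_toLat v).symm, e]
      exact ⟨fun h3 => (pow_eq_one_iff_of_coprime hq).1 ⟨h3, by rw [← cv_pow, hχ, cv_one]⟩,
        fun h3 => by rw [h3, one_pow]⟩
  simp only [List.map_map, Function.comp_def, h2] at h1
  simp only [zc, ← h0, List.map_map, Function.comp_def]
  exact h1.symm

theorem wl_pow {W : chevD4.Lat → chevD4.Lat} {a : ℕ} (n : ℕ)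
    (hw : ∃ w ∈ chevD4.stRoot.weyl, ∀ v, cv χ (chevD4.wl w (W v)) = cv χ v ^ a) :
    ∃ w ∈ chevD4.stRoot.weyl, ∀ v, cv (χ ^ n) (chevD4.wl w (W v)) = cv (χ ^ n) v ^ a := by
  obtain ⟨w, hw, e⟩ := hw
  exact ⟨w, hw, fun v => by rw [cv_pow, cv_pow, e, ← pow_mul, ← pow_mul, mul_comm]⟩

variable (p : ℕ) [hp : Fact p.Prime] [CharP K p] {a : ℕ} (ha : 1 ≤ a)
  (hK : Fintype.card K = (p ^ a) ^ 3)

omit [Fintype K] in
theorem cast_ne_zero_ac {m : ℕ} (h : p.Coprime m) : (m : AlgebraicClosure K) ≠ 0 := by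
  rw [Ne, CharP.cast_eq_zero_iff _ p]
  exact hp.out.coprime_iff_not_dvd.1 h

include ha hK

theorem not_ratEl_five (h5 : p.Coprime 5) : ¬ RatEl 5 2 (twistedD4 K (p ^ a)) := by
  rintro ⟨x, t, hx, ht⟩
  obtain ⟨χ, h1, h2, h3, -⟩ := exists_chr p (hp.out.isPrimePow.pow (by omega)) hK x
    (hx ▸ h5.symm)
  have h4 : χ ^ 5 = 1 := by rw [← hx, ← h2, pow_orderOf_eq_one]
  obtain ⟨a, ha, b, hb, c, hc, d, hd, lg, e1, e2, e3⟩ := exists_log (cast_ne_zero_ac p h5) h4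
  have h6 := sum_eq_of_wl perm_wt8 (h3 t 2 ht) fun u => 32 ^ lg u
  have e4 := e1 1
  simp only [pow_one] at e4
  simp only [e1, e4] at h6
  obtain ⟨rfl, rfl, rfl, rfl⟩ := chk5 a ha b hb c hc d hd h6
    (zc_eq h4 (h5.pow_left _) h1 e2 perm_wt8') (zc_eq h4 (h5.pow_left _) h1 e2 perm_wt8'')
  rw [e3 rfl rfl rfl rfl, orderOf_one, hx] at h2
  omega

theorem not_ratEl_fourteen (h14 : p.Coprime 14) : ¬ RatEl 14 9 (twistedD4 K (p ^ a)) := by
  classical
  rintro ⟨x, t, hx, ht⟩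
  obtain ⟨χ, h1, h2, h3, -⟩ := exists_chr p (hp.out.isPrimePow.pow (by omega)) hK x
    (hx ▸ h14.symm)
  have h4 : χ ^ 14 = 1 := by rw [← hx, ← h2, pow_orderOf_eq_one]
  have h7 : (χ ^ 2) ^ 7 = 1 := by rw [← pow_mul, h4]
  have h2' : (χ ^ 7) ^ 2 = 1 := by rw [← pow_mul, h4]
  have hp2 : p.Coprime 2 := h14.coprime_dvd_right (by norm_num)
  obtain ⟨a, ha, b, hb, c, hc, d, hd, lg, e1, -, e3⟩ := exists_log (cast_ne_zero_ac p
    (h14.coprime_dvd_right (by norm_num))) h7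
  obtain ⟨a', ha', b', hb', c', hc', d', hd', -, -, e2, e3'⟩ := exists_log (cast_ne_zero_ac p hp2) h2'
  have h8 : ∀ v, (cv χ v ^ 9) ^ 2 = cv (χ ^ 2) v ^ 2 ∧ (cv χ v ^ 9) ^ 7 = cv (χ ^ 7) v := fun v => by
    have h9 : cv χ v ^ 14 = 1 := by rw [← cv_pow, h4, cv_one]
    rw [cv_pow, cv_pow, ← pow_mul, ← pow_mul, ← pow_mul]
    exact ⟨by rw [show 9 * 2 = 14 + 2 * 2 by rfl, pow_add, h9, one_mul],
      by rw [show 9 * 7 = 14 * 4 + 7 by rfl, pow_add, pow_mul, h9, one_pow, one_mul]⟩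
  have e4 := e1 1
  simp only [pow_one] at e4
  have h6 := sum_eq_of_wl perm_wt8 (h3 t 9 ht) fun u => 32 ^ lg (u ^ 2)
  have h9 := sum_eq_of_wl perm_rtL (h3 t 9 ht) fun u => if u ^ 7 = 1 then 0 else 32 ^ lg (u ^ 2)
  simp only [h8] at h6 h9
  simp only [← cv_pow χ, e1, e4, e2] at h6 h9
  rcases chk2 a' ha' b' hb' c' hc' d' hd' (zc_eq h2' (hp2.pow_left _) (wl_pow 7 h1) e2 perm_wt8')
    (zc_eq h2' (hp2.pow_left _) (wl_pow 7 h1) e2 perm_wt8'') with ⟨rfl, rfl, rfl, rfl⟩ | h10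
  · have := orderOf_dvd_of_pow_eq_one (e3' rfl rfl rfl rfl)
    rw [h2, hx] at this
    omega
  rcases chk14 a ha b hb c hc d hd h6 with ⟨rfl, rfl, rfl, rfl⟩ | h11
  · have := orderOf_dvd_of_pow_eq_one (e3 rfl rfl rfl rfl)
    rw [h2, hx] at this
    omega
  · exact h11 a' ha' b' hb' c' hc' d' hd' h10 h9

theorem count_invol [DecidableEq (AlgebraicClosure K)] (hp2 : p.Coprime 2) {x : twistedD4 K (p ^ a)}
    (hx : x * x = 1) (hx1 : x ≠ 1) :
    (((x : GL chevD4.Idx K) : Matrix chevD4.Idx chevD4.Idx K).charpoly.aroots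
      (AlgebraicClosure K)).count 1 ≤ 12 := by
  classical
  have hx2 : orderOf x = 2 := orderOf_eq_prime (by rw [pow_two, hx]) hx1
  obtain ⟨χ, h1, h2, -, h3⟩ := exists_chr p (hp.out.isPrimePow.pow (by omega)) hK x
    (hx2 ▸ hp2.symm)
  have h4 : χ ^ 2 = 1 := by rw [← hx2, ← h2, pow_orderOf_eq_one]
  obtain ⟨a', ha', b', hb', c', hc', d', hd', -, -, e2, e3⟩ := exists_log (cast_ne_zero_ac p hp2) h4
  rcases chk2 a' ha' b' hb' c' hc' d' hd' (zc_eq h4 (hp2.pow_left _) h1 e2 perm_wt8')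
    (zc_eq h4 (hp2.pow_left _) h1 e2 perm_wt8'') with ⟨rfl, rfl, rfl, rfl⟩ | h5
  · rw [e3 rfl rfl rfl rfl, orderOf_one, hx2] at h2
    omega
  rw [h3, Multiset.count_map, ← Finset.filter_val, ← Finset.card_def, Finset.card_filter,
    Fintype.sum_sum_type]
  simp only [zc, rtL, List.map_map, Function.comp_def, ← e2] at h5
  have h6 : ∑ r : chevD4.Rt, (if (1 : AlgebraicClosure K) = cv χ (chevD4.wt r) then 1 else 0) = 8 := by
    refine (Finset.sum_range (n := 24) fun r => if (1 : AlgebraicClosure K) = cv χ (chevD4.wt r) then 1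
      else 0).symm.trans (Eq.trans ?_ h5)
    have h7 : ∀ (f : ℕ → ℕ) n, ∑ i ∈ Finset.range n, f i = ((List.range n).map f).sum := fun _ _ => rfl
    have h8 : ∀ r, (1 : AlgebraicClosure K) = cv χ (chevD4.wt r) ↔
        cv χ (toLat 4 (chevD4.wtL r)) = 1 := fun r => by
      rw [show toLat 4 (chevD4.wtL r) = _ from chevD4.toLat_wtL r, eq_comm, Units.val_eq_one]
    simp only [h7, h8]
  simp only [Sum.elim_inl, Sum.elim_inr, h6, if_true]
  decide

end Cfsg.Agent.Chev.AS
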