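import Mathlib
import Cfsg.Agent.Sym.Cover
import Cfsg.Agent.Sym.Index
import Cfsg.Agent.Sym.Orbits
import Cfsg.Agent.Cl.FormWeights
import Cfsg.Agent.Chev.AltSec

/-!
# Representations of groups mapping onto an alternating group: tools, and the natural module
-/

set_option autoImplicit false
set_option linter.unusedSectionVars false

namespace Cfsg.Agent.Chev.AL

open Equiv Equiv.Perm Module Cfsg.Agent.Sym

variable {k V G α : Type*} [Field k] [AddCommGroup V] [Module k V] [Group G] [DecidableEq α]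
  [Fintype α]

theorem card_le_of_weights [FiniteDimensional k V] {ι J : Type*} [Fintype J] (x : ι → End k V)
    (μ : J → ι → k) (hμ : Function.Injective μ) (v : J → V) (hv : ∀ j, v j ≠ 0)
    (h : ∀ j i, x i (v j) = μ j i • v j) : Fintype.card J ≤ finrank k V := by
  have h1 : Function.Injective fun j => (FreeMonoid.lift (μ j) : FreeMonoid ι →* k) :=
    fun a b e => hμ (FreeMonoid.lift.injective e)
  have h2 := Cl.weight_linearIndependent (FreeMonoid.lift x) (Set.range _)
    (fun χ => v ((Equiv.ofInjective _ h1).symm χ)) (fun _ => hv _) (fun χ a => by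
      obtain ⟨j, rfl⟩ := (Equiv.ofInjective _ h1).surjective χ
      rw [Equiv.symm_apply_apply]
      change _ = FreeMonoid.lift (μ j) a • _
      induction a using FreeMonoid.inductionOn' with
      | one => simp
      | of_mul i a ih => simp [ih, h, mul_smul, smul_comm (μ j i)])
  exact ((linearIndependent_equiv (Equiv.ofInjective _ h1).symm).1 h2).fintype_card_le_finrank

variable {τ : G →* Perm α}

theorem normal_cases (hr : τ.range = alternatingGroup α) (h5 : 5 ≤ Fintype.card α) (K : Subgroup G)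
    [hK : K.Normal] : K ≤ τ.ker ∨ K.map τ = alternatingGroup α := by
  have := alternatingGroup.isSimpleGroup (α := α) (by rwa [Nat.card_eq_fintype_card])
  have h1 : K.map τ ≤ alternatingGroup α := hr ▸ Subgroup.map_le_range τ K
  have h2 : ((K.map τ).subgroupOf (alternatingGroup α)).Normal := ⟨fun x hx g => by
    obtain ⟨y, hy, e⟩ := hx
    obtain ⟨z, hz⟩ : (g : Perm α) ∈ τ.range := hr.ge g.2
    exact ⟨z * y * z⁻¹, hK.conj_mem y hy z, by simp [hz, e]⟩⟩
  rcases h2.eq_bot_or_eq_top with h | h
  · refine .inl fun x hx => ?_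
    have h3 : (⟨τ x, h1 ⟨x, hx, rfl⟩⟩ : alternatingGroup α) ∈
      (K.map τ).subgroupOf (alternatingGroup α) := ⟨x, hx, rfl⟩
    rw [h, Subgroup.mem_bot] at h3
    exact congrArg Subtype.val h3
  · exact .inr (le_antisymm h1 (Subgroup.subgroupOf_eq_top.1 h))

theorem map_eq_of_index_lt (hr : τ.range = alternatingGroup α) (h5 : 5 ≤ Fintype.card α)
    [Finite G] {S : Subgroup G} (h : S.index < Fintype.card α) : S.map τ = alternatingGroup α := by
  let τ' : G →* alternatingGroup α := τ.codRestrict _ fun g => hr ▸ ⟨g, rfl⟩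
  have hs : Function.Surjective τ' := fun y => by
    obtain ⟨z, hz⟩ : (y : Perm α) ∈ τ.range := hr.ge y.2
    exact ⟨z, Subtype.ext hz⟩
  have h1 : S.map τ' = ⊤ := by
    by_contra h2
    have h3 := card_le_index_alternating h5 h2
    have h4 := Nat.le_of_dvd (Nat.pos_of_ne_zero Subgroup.index_ne_zero_of_finite)
      (S.index_map_dvd hs)
    omega
  rw [show τ = (alternatingGroup α).subtype.comp τ' from rfl, ← Subgroup.map_map, h1,
    ← MonoidHom.range_eq_map, Subgroup.range_subtype]

theorem exists_lift_map (hr : τ.range = alternatingGroup α) {l l' : List α} (hl : l.Nodup)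
    (hl' : l'.Nodup) (h : l.length = l'.length) (hc : l.length + 2 ≤ Fintype.card α) :
    ∃ g, l.map (τ g) = l' := by
  obtain ⟨σ, hσ⟩ := Perm.exists_extending_pair l.get (l'.get ∘ Fin.cast h)
    (List.nodup_iff_injective_get.1 hl)
    ((List.nodup_iff_injective_get.1 hl').comp (Fin.cast_injective h))
  have h1 : l.map σ = l' := List.ext_get (by simp [h]) fun i h1 h2 => by
    simpa using hσ ⟨i, by simpa using h1⟩
  rcases Int.units_eq_one_or (sign σ) with h2 | h2
  · obtain ⟨g, rfl⟩ := exists_lift hr h2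
    exact ⟨g, h1⟩
  obtain ⟨d, hd⟩ := exists_not_mem_of_card_lt (s := l.toFinset)
    (by rw [List.toFinset_card_of_nodup hl]; omega)
  obtain ⟨e, he⟩ := exists_not_mem_of_card_lt (s := insert d l.toFinset)
    (by rw [Finset.card_insert_of_notMem hd, List.toFinset_card_of_nodup hl]; omega)
  simp only [Finset.mem_insert, not_or, List.mem_toFinset] at hd he
  obtain ⟨g, hg⟩ := exists_lift hr (g := σ * swap d e) (by simp [h2, Ne.symm he.1])
  refine ⟨g, h1 ▸ List.map_congr_left fun x hx => ?_⟩
  rw [hg, mul_apply, swap_apply_of_ne_of_ne (by rintro rfl; exact hd hx) (by rintro rfl; exact he.2 hx)]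

/-- the elements fixing the points moved by `c` -/
def disj (τ : G →* Perm α) (c : Perm α) : Subgroup G where
  carrier := {g | Perm.Disjoint (τ g) c}
  one_mem' := by simp
  mul_mem' := fun {a b} ha hb => by
    rw [Set.mem_ofPred_eq, map_mul]
    exact ha.mul_left hb
  inv_mem' := fun {a} ha => by
    rw [Set.mem_ofPred_eq, map_inv]
    exact ha.inv_left

theorem mem_disj {c : Perm α} {g : G} : g ∈ disj τ c ↔ Perm.Disjoint (τ g) c := Iff.rfl

theorem disj_aux {c g : Perm α} (h : Perm.Disjoint g c) (x : α) : c (g x) = g x ↔ c x = x := by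
  rw [← mul_apply, ← h.commute.eq, mul_apply, g.injective.eq_iff]

/-- the action on the fixed points of `c` -/
def res (τ : G →* Perm α) (c : Perm α) : disj τ c →* Perm {x // c x = x} :=
  MonoidHom.mk' (fun g => (τ g).subtypePerm (disj_aux g.2)) fun a b => by
    ext x
    change τ (a * b : G) x = τ a (τ b x)
    rw [map_mul, mul_apply]

theorem ofSubtype_res {c : Perm α} (g : disj τ c) : ofSubtype (res τ c g) = τ g :=
  ofSubtype_subtypePerm (disj_aux g.2) fun x hx => (g.2 x).resolve_left hx

theorem range_res (hr : τ.range = alternatingGroup α) (c : Perm α) :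
    (res τ c).range = alternatingGroup {x // c x = x} := by
  refine le_antisymm ?_ fun σ hσ => ?_
  · rintro _ ⟨g, rfl⟩
    rw [mem_alternatingGroup, ← sign_ofSubtype, ofSubtype_res, sign_lift hr]
  · obtain ⟨g, hg⟩ := exists_lift hr (g := ofSubtype σ) (by rw [sign_ofSubtype]; exact hσ)
    refine ⟨⟨g, fun x => ?_⟩, ofSubtype_injective (by rw [ofSubtype_res]; exact hg)⟩
    by_cases hx : c x = x
    · exact .inr hx
    · exact .inl (by rw [hg, ofSubtype_apply_of_not_mem σ hx])

theorem card_fix (c : Perm α) :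
    Fintype.card {x // c x = x} = Fintype.card α - c.support.card := by
  rw [Fintype.card_subtype, ← Finset.card_compl]
  congr 1
  ext x
  simp

/-- a subgroup normalised by `disj τ c` and meeting it non-trivially covers it -/
theorem exists_mem_of_disj (hr : τ.range = alternatingGroup α) {c : Perm α}
    (h5 : c.support.card + 5 ≤ Fintype.card α) {K : Subgroup G}
    (hK : ∀ g ∈ disj τ c, ∀ x ∈ K, g * x * g⁻¹ ∈ K) {x : G} (hx : x ∈ K) (hx' : x ∈ disj τ c)
    (h1 : τ x ≠ 1) {l : G} (hl : l ∈ disj τ c) : ∃ y ∈ K, τ y = τ l := by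
  have : (K.subgroupOf (disj τ c)).Normal := ⟨fun y hy g => hK g g.2 y hy⟩
  rcases normal_cases (range_res hr c) (by rw [card_fix]; omega) (K.subgroupOf (disj τ c)) with h | h
  · refine absurd ?_ h1
    rw [← ofSubtype_res ⟨x, hx'⟩, show res τ c ⟨x, hx'⟩ = 1 from h hx, map_one]
  · obtain ⟨y, hy, e⟩ : res τ c ⟨l, hl⟩ ∈ (K.subgroupOf (disj τ c)).map (res τ c) := by
      rw [h, ← range_res hr c]
      exact ⟨_, rfl⟩
    exact ⟨y, hy, by rw [← ofSubtype_res y, e, ofSubtype_res]⟩

variable (ρ : Representation k G V)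

/-- `l` fixes the commutator space of `y` -/
def Fx (l y : G) : Prop := ∀ v, ρ l (ρ y v - v) = ρ y v - v

/-- the elements fixing the commutator space of `y` -/
def fxL (y : G) : Subgroup G where
  carrier := {l | Fx ρ l y}
  one_mem' := fun v => by simp
  mul_mem' := fun {a b} ha hb v => by rw [map_mul, End.mul_apply, hb, ha]
  inv_mem' := fun {a} ha v => by
    conv_lhs => rw [← ha v]
    exact ρ.inv_self_apply a _

/-- the elements whose commutator space is fixed by `l` -/
def fxR (l : G) : Subgroup G where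
  carrier := {y | Fx ρ l y}
  one_mem' := fun v => by simp
  mul_mem' := fun {a b} ha hb v => by
    rw [map_mul, End.mul_apply, ← sub_add_sub_cancel _ (ρ b v), map_add, hb, ha]
  inv_mem' := fun {a} ha v => by
    have := ha (ρ a⁻¹ v)
    rw [ρ.self_inv_apply] at this
    rw [← neg_sub, map_neg, this]

variable {ρ}

theorem Fx.conj {l y : G} (h : Fx ρ l y) (g : G) : Fx ρ (g * l * g⁻¹) (g * y * g⁻¹) := fun v => by
  have := congrArg (ρ g) (h (ρ g⁻¹ v))
  simpa [map_sub] using this

theorem mem_disj_emb {β : Type*} (ε : β ↪ α) {σ : Perm β} {l : G}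
    (h : ∀ x, σ x ≠ x → τ l (ε x) = ε x) : l ∈ disj τ (σ.viaEmbedding ε) := fun x => by
  by_cases hx : x ∈ Set.range ε
  · obtain ⟨x, rfl⟩ := hx
    by_cases h1 : σ x = x
    · exact .inr (by rw [viaEmbedding_apply, h1])
    · exact .inl (h x h1)
  · exact .inr (viaEmbedding_apply_of_notMem _ _ _ hx)

theorem ring_aux {R : Type*} [Ring R] {x y : R} (h3 : (3 : R) = 0) (hx : x * x = 0)
    (h : (1 + x) * (1 + y) = (1 - y) * (1 - x)) : (1 + x) * (1 + y) = 1 := by
  have e1 : x + y = x * y - y * x := by linear_combination (norm := noncomm_ring) h3 * (x + y) - h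
  have e2 : x * y = -(x * y * x) := by
    linear_combination (norm := noncomm_ring) x * e1 - hx + hx * y
  have e3 : y * x = x * y * x := by
    linear_combination (norm := noncomm_ring) e1 * x - hx - y * hx
  linear_combination (norm := noncomm_ring) e1 - e3 - e2 + h3 * (x * y)

theorem not_fx_self (hρ : Function.Injective ρ) {y z : G} (hy : y ^ 3 = 1) (h1 : y ≠ 1)
    (hz : (y * z) * (y * z) = 1) (h2 : y * z ≠ 1) (h3 : Fx ρ y y) (h4 : Fx ρ z z) : False := by
  have key : ∀ y, Fx ρ y y → (ρ y - 1) * (ρ y - 1) = 0 := fun y h => LinearMap.ext fun v => by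
    simpa [sub_eq_zero] using h v
  have inv : ∀ y, Fx ρ y y → ρ y⁻¹ = 1 - (ρ y - 1) := fun y h => by
    have e : ρ y⁻¹ * ρ y = 1 := by rw [← map_mul, inv_mul_cancel, map_one]
    linear_combination (norm := noncomm_ring) ρ y⁻¹ * key y h - e * (ρ y - 2)
  by_cases h : (3 : k) = 0
  · have e : (3 : End k V) = 0 := by
      rw [show (3 : End k V) = algebraMap k _ 3 from (map_ofNat _ 3).symm, h, map_zero]
    have e1 := ring_aux (y := ρ z - 1) e (key y h3) (by
      rw [← inv y h3, ← inv z h4, ← map_mul, ← mul_inv_rev, inv_eq_of_mul_eq_one_left hz]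
      simp)
    exact h2 (hρ (by simpa using e1))
  · have e : ρ y * ρ y * ρ y = 1 := by rw [← map_mul, ← map_mul, ← pow_three', hy, map_one]
    have e1 : (3 : k) • (ρ y - 1) = 0 := by
      rw [Algebra.smul_def, map_ofNat]
      linear_combination (norm := noncomm_ring) e - key y h3 * (ρ y + 2)
    exact h1 (hρ (by rw [map_one, ← sub_eq_zero]; exact (smul_eq_zero.1 e1).resolve_left h))

theorem le_of_cocycle [FiniteDimensional k V] (p : ℕ) [CharP k p]
    (hr : τ.range = alternatingGroup α) (h5 : 5 ≤ Fintype.card α) (U : α → α → V)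
    (h0 : ∀ i j, i ≠ j → U i j ≠ 0) (h1 : ∀ i j l, U i j + U j l + U l i = 0)
    (h2 : ∀ i j, U j i = -U i j) (h3 : ∀ g i j, ρ g (U i j) = U (τ g i) (τ g j)) :
    Fintype.card α - 1 - (if p ∣ Fintype.card α then 1 else 0) ≤ finrank k V := by
  obtain ⟨a⟩ : Nonempty α := Fintype.card_pos_iff.1 (by omega)
  have h4 : ∀ i j, U i j = U i a - U j a := fun i j => by
    rw [← sub_eq_zero, ← h1 i j a, h2 i a]; abel
  let ψ := (Fintype.linearCombination k fun i => U i a).prod (Fintype.linearCombination k fun _ : α => (1 : k))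
  have key : ∀ f ∈ LinearMap.ker ψ, ∀ i j, f i = f j := fun f hf i j => by
    obtain ⟨e1, e2⟩ : ∑ x, f x • U x a = 0 ∧ ∑ x, f x = 0 := by
      simpa [ψ, Fintype.linearCombination_apply] using hf
    by_contra hij
    have hne : i ≠ j := fun e => hij (e ▸ rfl)
    obtain ⟨l, m, hli, hlj, hmi, hmj, hlm⟩ := exists_two_ne (by omega) i j
    obtain ⟨g, hg⟩ := exists_lift hr (sign_cyc3 hli.symm hlj)
    have e3 : ∑ x, f x • U (τ g x) x = 0 := by
      have e4 := congrArg (ρ g) e1
      simp only [map_sum, map_smul, h3, map_zero, h4 _ (τ g a), smul_sub, Finset.sum_sub_distrib,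
        ← Finset.sum_smul, e2, zero_smul, sub_zero] at e4
      simp only [fun x => h4 (τ g x) x, smul_sub, Finset.sum_sub_distrib, e1, e4, sub_zero]
    rw [← Finset.sum_subset (Finset.subset_univ {i, l, j}) (fun x _ hx => by
      simp only [Finset.mem_insert, Finset.mem_singleton, not_or] at hx
      rw [hg, cyc3_apply_of_ne hx.1 hx.2.1 hx.2.2, h4, sub_self, smul_zero]),
      Finset.sum_insert (by simp [hli.symm, hne]), Finset.sum_pair hlj, hg,
      cyc3_apply_fst hli.symm hne, cyc3_apply_snd hne hlj, cyc3_apply_thd] at e3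
    obtain ⟨h, hh⟩ := exists_lift_map hr (l := [i, j, l]) (l' := [m, j, l]) (by simp [hne, hli.symm, hlj.symm])
      (by simp [hmj, hlm.symm, hlj.symm]) rfl (by simpa using h5)
    simp only [List.map_cons, List.cons.injEq] at hh
    have e4 := congrArg (ρ h) e3
    simp only [map_add, map_smul, h3, hh.1, hh.2.1, hh.2.2.1, map_zero] at e4
    have e5 : (f i - f j) • U m i = 0 := by
      rw [h4 l, h4 j, h4 _ j] at e3 e4
      rw [h4]
      linear_combination (norm := module) e3 - e4
    exact h0 m i hmi ((smul_eq_zero.1 e5).resolve_left (sub_ne_zero.2 hij))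
  have h6 := ψ.finrank_range_add_finrank_ker
  have h7 := (LinearMap.range ψ).finrank_le
  rw [finrank_fintype_fun_eq_card] at h6
  rw [finrank_prod, finrank_self] at h7
  split_ifs with hp
  · have h8 := Submodule.finrank_mono (show LinearMap.ker ψ ≤ k ∙ (fun _ => 1) from fun f hf =>
      Submodule.mem_span_singleton.2 ⟨f a, funext fun i => by simpa using key f hf a i⟩)
    rw [finrank_span_singleton fun e => one_ne_zero (congrFun e a)] at h8
    omega
  · have h8 : LinearMap.ker ψ = ⊥ := eq_bot_iff.2 fun f hf => funext fun i => by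
      have e2 : ∑ x, f x = 0 := by
        simpa [ψ, Fintype.linearCombination_apply] using congrArg Prod.snd (LinearMap.mem_ker.1 hf)
      rw [Finset.sum_congr rfl fun x _ => key f hf x i, Finset.sum_const, Finset.card_univ,
        nsmul_eq_mul, mul_eq_zero, CharP.cast_eq_zero_iff k p] at e2
      exact e2.resolve_left hp
    rw [h8, finrank_bot] at h6
    omega

theorem exists_psi (hr : τ.range = alternatingGroup α) (hτ : Function.Injective τ) {m : ℕ}
    (ε : Fin m ↪ α) : ∃ ψ : alternatingGroup (Fin m) →* G,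
      (∀ σ, τ (ψ σ) = (σ : Perm (Fin m)).viaEmbedding ε) ∧ Function.Injective ψ := by
  let e : G ≃* alternatingGroup α := (MonoidHom.ofInjective hτ).trans (MulEquiv.subgroupCongr hr)
  exact ⟨e.symm.toMonoidHom.comp (altEmb ε), fun σ =>
    congrArg Subtype.val (e.apply_symm_apply (altEmb ε σ)), e.symm.injective.comp (altEmb_injective ε)⟩

open AS in
/-- The natural module. -/
theorem main_case [FiniteDimensional k V] (p : ℕ) [CharP k p]
    (hr : τ.range = alternatingGroup α) (hτ : Function.Injective τ) (hρ : Function.Injective ρ)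
    (h7 : 7 ≤ Fintype.card α)
    (hQ : ∀ y l, (τ y).IsThreeCycle → l ∈ disj τ (τ y) → Fx ρ l y) :
    Fintype.card α - 1 - (if p ∣ Fintype.card α then 1 else 0) ≤ finrank k V := by
  obtain ⟨ε⟩ : Nonempty (Fin 6 ↪ α) := Function.Embedding.nonempty_of_card_le (by simp; omega)
  obtain ⟨ψ, hψ, hψi⟩ := exists_psi hr hτ ε
  have hQ' : ∀ σ : alternatingGroup (Fin 6), (σ : Perm (Fin 6)).cycleType = {3} → ∀ l,
      (∀ x, (σ : Perm (Fin 6)) x ≠ x → τ l (ε x) = ε x) → Fx ρ l (ψ σ) := fun σ hσ l hl =>
    hQ _ _ (by rw [hψ, IsThreeCycle, cycleType_viaEmbedding, hσ]) (hψ σ ▸ mem_disj_emb ε hl)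
  obtain ⟨y, hy⟩ : ∃ y, y = ψ (sw 0 1 1 2) := ⟨_, rfl⟩
  obtain ⟨t, ht⟩ : ∃ t, t = ψ (sw 0 1 3 4) := ⟨_, rfl⟩
  have hy3 : y ^ 3 = 1 := by rw [hy, ← map_pow, ← map_one ψ]; exact congrArg ψ (by decide +kernel)
  have h1 : ¬ Fx ρ t y := fun h => by
    have h2 := h.conj y
    rw [mul_inv_cancel_right] at h2
    have h3 : Fx ρ y y := by
      have := (fxL ρ y).mul_mem h h2
      rwa [show t * (y * t * y⁻¹) = y by
        simp only [hy, ht, ← map_inv, ← map_mul]; exact congrArg ψ (by decide +kernel)] at this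
    refine not_fx_self hρ hy3 (fun e => ?_) ?_ (fun e => ?_) h3 (h3.conj (ψ (sw 2 3 4 5)))
    · exact absurd (hψi ((hy.symm.trans e).trans (map_one ψ).symm)) (by decide +kernel)
    · simp only [hy, ← map_inv, ← map_mul]
      rw [← map_one ψ]; exact congrArg ψ (by decide +kernel)
    · simp only [hy, ← map_inv, ← map_mul] at e
      exact absurd (hψi (e.trans (map_one ψ).symm)) (by decide +kernel)
  obtain ⟨v, hv⟩ := not_forall.1 h1
  set u := ρ t (ρ y v - v) - (ρ y v - v) with hu
  obtain ⟨w, hw⟩ : ∃ w, u = ρ y w - w := ⟨-ρ y⁻¹ (ρ t v) - v, by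
    have : ρ t (ρ y v) = ρ y⁻¹ (ρ t v) := by
      rw [← End.mul_apply, ← End.mul_apply, ← map_mul, ← map_mul]
      simp only [hy, ht, ← map_inv, ← map_mul]
      exact congrArg (fun x => ρ (ψ x) v) (by decide +kernel)
    simp only [hu, map_sub, map_neg, this, ρ.self_inv_apply]
    abel⟩
  have h2 : ρ t u = -u := by
    rw [hu, map_sub, ← End.mul_apply, ← map_mul, show t * t = 1 by
      rw [ht, ← map_mul, ← map_one ψ]; exact congrArg ψ (by decide +kernel), map_one, End.one_apply, neg_sub]
  have h3 : u + ρ y u + ρ (y * y) u = 0 := by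
    have : ρ (y * y) (ρ y w) = w := by
      rw [← End.mul_apply, ← map_mul, ← pow_three', hy3, map_one, End.one_apply]
    simp only [hw, map_sub, this]
    simp
  have h4 : ∀ l, τ l (ε 0) = ε 0 → τ l (ε 1) = ε 1 → τ l (ε 2) = ε 2 → ρ l u = u :=
    fun l a b c => hw ▸ hy ▸ hQ' _ (by decide +kernel) l (fun x hx => by
      fin_cases x <;> first | assumption | exact absurd (by decide +kernel) hx) w
  have h5 : ∀ l, τ l (ε 0) = ε 0 → τ l (ε 1) = ε 1 → τ l (ε 3) = ε 3 → τ l (ε 4) = ε 4 → ρ l u = u :=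
    fun l a b c d => by
      have := (fxR ρ l).mul_mem (hQ' (sw 0 3 3 1) (by decide +kernel) l fun x hx => by
        fin_cases x <;> first | assumption | exact absurd (by decide +kernel) hx)
        (hQ' (sw 0 3 3 4) (by decide +kernel) l fun x hx => by
          fin_cases x <;> first | assumption | exact absurd (by decide +kernel) hx)
      rw [← map_mul, show sw 0 3 3 1 * sw 0 3 3 4 = sw 0 1 3 4 by decide +kernel, ← ht] at this
      exact this _
  have h6 : ∀ l, τ l (ε 0) = ε 0 → τ l (ε 1) = ε 1 → ρ l u = u := fun l a b => by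
    by_cases c : τ l (ε 2) = ε 2
    · exact h4 l a b c
    obtain ⟨g, hg⟩ := exists_lift_map hr (l := [ε 0, ε 1, ε 2, τ l (ε 2)]) (l' := [ε 0, ε 1, ε 2, ε 5])
      (by
        have a' : ε 0 ≠ τ l (ε 2) := by rw [← a]; simp
        have b' : ε 1 ≠ τ l (ε 2) := by rw [← b]; simp
        simp [a', b', Ne.symm c]) (by simp) rfl (by simp; omega)
    obtain ⟨g', hg'⟩ := exists_lift_map hr (l := [ε 0, ε 1, ε 3, ε 4, ε 5])
      (l' := [ε 0, ε 1, ε 3, ε 4, ε 2]) (by simp) (by simp) rfl (by simpa using h7)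
    simp only [List.map_cons, List.cons.injEq] at hg hg'
    have e1 := h4 (g' * g * l) (by simp [a, hg, hg']) (by simp [b, hg, hg']) (by simp [hg, hg'])
    have e2 := h4 g hg.1 hg.2.1 hg.2.2.1
    have e3 := h5 g' hg'.1 hg'.2.1 hg'.2.2.1 hg'.2.2.2.1
    apply (ρ.apply_bijective (g' * g)).1
    rw [← End.mul_apply, ← map_mul, e1, map_mul, End.mul_apply, e2, e3]
  have h8 : ∀ i j, i ≠ j → ∃ g, τ g (ε 0) = i ∧ τ g (ε 1) = j := fun i j hij => by
    simpa using exists_lift_map hr (l := [ε 0, ε 1]) (l' := [i, j]) (by simp) (by simpa) rfl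
      (by simp; omega)
  choose γ hγ1 hγ2 using h8
  let U : α → α → V := fun i j => if h : i = j then 0 else ρ (γ i j h) u
  have h9 : ∀ g, ρ g u = U (τ g (ε 0)) (τ g (ε 1)) := fun g => by
    have hne : τ g (ε 0) ≠ τ g (ε 1) := by simp
    simp only [U, dif_neg hne]
    rw [← h6 (g⁻¹ * γ _ _ hne) (by simp [hγ1]) (by simp [hγ2]), ← End.mul_apply, ← map_mul,
      mul_inv_cancel_left, h6 (g⁻¹ * γ _ _ hne) (by simp [hγ1]) (by simp [hγ2])]
  have h10 : ∀ i j, U j i = -U i j := fun i j => by
    by_cases hij : i = j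
    · simp [U, hij]
    have := h9 (γ i j hij * t)
    rw [map_mul, End.mul_apply, h2, map_neg, h9] at this
    simp only [map_mul, mul_apply, ht, hψ, viaEmbedding_apply] at this
    rw [show (sw 0 1 3 4 : alternatingGroup (Fin 6)).1 0 = 1 by decide +kernel,
      show (sw 0 1 3 4 : alternatingGroup (Fin 6)).1 1 = 0 by decide +kernel, hγ1, hγ2] at this
    exact this.symm
  refine le_of_cocycle (ρ := ρ) p hr (by omega) U (fun i j hij e => hv ?_) (fun i j l => ?_) h10
    fun g i j => ?_
  · simp only [U, dif_neg hij] at e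
    exact sub_eq_zero.1 ((ρ.apply_bijective _).1 (e.trans (map_zero _).symm))
  · by_cases hij : i = j
    · rw [hij, h10 j l]; simp [U]
    by_cases hjl : j = l
    · rw [hjl, h10 i l]; simp [U]
    by_cases hil : i = l
    · rw [hil, h10 l j]; simp [U]
    obtain ⟨g, hg⟩ := exists_lift_map hr (l := [ε 0, ε 1, ε 2]) (l' := [i, j, l]) (by simp)
      (by simp [hij, hjl, hil]) rfl (by simp; omega)
    simp only [List.map_cons, List.cons.injEq] at hg
    have := congrArg (ρ g) h3
    rw [map_add, map_add, ← End.mul_apply _ (ρ y), ← End.mul_apply _ (ρ (y * y)), ← map_mul, ← map_mul,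
      h9, h9, h9, map_zero (ρ g)] at this
    simp only [map_mul, mul_apply, hy, hψ, viaEmbedding_apply] at this
    rwa [show (sw 0 1 1 2 : alternatingGroup (Fin 6)).1 0 = 1 by decide +kernel,
      show (sw 0 1 1 2 : alternatingGroup (Fin 6)).1 1 = 2 by decide +kernel,
      show (sw 0 1 1 2 : alternatingGroup (Fin 6)).1 2 = 0 by decide +kernel, hg.1, hg.2.1,
      hg.2.2.1] at this
  · by_cases hij : i = j
    · simp [U, hij]
    have := h9 (g * γ i j hij)
    simp only [map_mul, mul_apply, hγ1, hγ2, End.mul_apply] at this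
    rw [← this]
    simp only [U, dif_neg hij]

end Cfsg.Agent.Chev.AL
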