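import Mathlib
import Cfsg.Agent.Chev.AltLinA
import Cfsg.Agent.Cl.ClassDiag

/-!
# Degrees of representations of the alternating groups and their double covers
-/

set_option autoImplicit false
set_option linter.unusedSectionVars false

namespace Cfsg.Agent.Chev.AL

open Equiv Equiv.Perm Module Cfsg.Agent.Sym Cfsg.Agent.Chev.AS
open scoped commutatorElement

variable {k V G α : Type*} [Field k] [AddCommGroup V] [Module k V] [Group G] [DecidableEq α]
  [Fintype α] {τ : G →* Perm α} {ρ : Representation k G V}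

/-- a central extension of the alternating group by an elementary abelian `2`-group -/
structure Ctr (τ : G →* Perm α) : Prop where
  rng : τ.range = alternatingGroup α
  cen : τ.ker ≤ Subgroup.center G
  sq : ∀ z ∈ τ.ker, z * z = 1

theorem Ctr.exists_odd (h : Ctr τ) {g : Perm α} (hg : sign g = 1) {s : ℕ} (hs : Odd s)
    (h1 : g ^ s = 1) : ∃ y, τ y = g ∧ y ^ s = 1 := by
  obtain ⟨y, rfl⟩ := exists_lift h.rng hg
  obtain ⟨m, hm⟩ := hs.add_one
  refine ⟨y ^ (s + 1), by rw [map_pow, pow_succ, h1, one_mul], ?_⟩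
  rw [← pow_mul, mul_comm, pow_mul, hm, ← two_mul, pow_mul, pow_two,
    h.sq _ (by rw [MonoidHom.mem_ker, map_pow, h1]), one_pow]

theorem Ctr.eq_of_odd (h : Ctr τ) {y z : G} (e : τ y = τ z) {s : ℕ} (hs : Odd s) (hy : y ^ s = 1)
    (hz : z ^ s = 1) : y = z := by
  obtain ⟨c, h1, h2, rfl⟩ := exists_central_of_map_eq h.cen e
  obtain ⟨m, rfl⟩ := hs
  rw [Commute.mul_pow (Subgroup.mem_center_iff.1 h2 y), hy, one_mul, pow_succ, pow_mul, pow_two,
    h.sq c h1, one_pow, one_mul] at hz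
  rw [hz, mul_one]

theorem Ctr.conj_eq (h : Ctr τ) {y g : G} (hg : g ∈ disj τ (τ y)) {s : ℕ} (hs : Odd s)
    (hy : y ^ s = 1) : g * y * g⁻¹ = y :=
  h.eq_of_odd (by rw [map_mul, map_mul, map_inv, (mem_disj.1 hg).commute.eq, mul_inv_cancel_right])
    hs (by rw [conj_pow, hy, mul_one, mul_inv_cancel]) hy

theorem Ctr.res (h : Ctr τ) (c : Perm α) : Ctr (res τ c) := by
  have h1 : ∀ z ∈ (AL.res τ c).ker, (z : G) ∈ τ.ker := fun z hz => by
    rw [MonoidHom.mem_ker, ← ofSubtype_res, show AL.res τ c z = 1 from hz, map_one]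
  exact ⟨range_res h.rng c, fun z hz => Subgroup.mem_center_iff.2 fun g =>
    Subtype.ext (Subgroup.mem_center_iff.1 (h.cen (h1 z hz)) g), fun z hz =>
    Subtype.ext (h.sq _ (h1 z hz))⟩

theorem Ctr.exists_emb (h : Ctr τ) {m : ℕ} (ε : Fin m ↪ α) (σ : alternatingGroup (Fin m)) :
    ∃ y, τ y = viaEmbeddingHom ε σ :=
  exists_lift h.rng ((sign_viaEmbedding _ ε).trans σ.2)

theorem Ctr.exists_emb_odd (h : Ctr τ) {m : ℕ} (ε : Fin m ↪ α) (σ : alternatingGroup (Fin m)) {s : ℕ}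
    (hs : Odd s) (h1 : σ ^ s = 1) : ∃ y, τ y = viaEmbeddingHom ε σ ∧ y ^ s = 1 :=
  h.exists_odd ((sign_viaEmbedding _ ε).trans σ.2) hs (by
    change viaEmbeddingHom ε σ ^ s = 1
    rw [← map_pow, ← Subgroup.coe_pow, h1]; exact map_one _)

variable [FiniteDimensional k V]

theorem exists_eigenbasis [IsAlgClosed k] {m : ℕ} (hm : (m : k) ≠ 0) {ι : Type*} (x : ι → G)
    (hc : ∀ i j, Commute (x i) (x j)) (hx : ∀ i, x i ^ m = 1) :
    ∃ (η : k) (b : Basis (Fin (finrank k V)) k V) (e : Fin (finrank k V) → ι → Fin m),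
      IsPrimitiveRoot η m ∧ ∀ j i, ρ (x i) (b j) = η ^ (e j i : ℕ) • b j := by
  have : NeZero (m : k) := ⟨hm⟩
  have : NeZero m := ⟨by rintro rfl; exact hm Nat.cast_zero⟩
  obtain ⟨η, hη⟩ := HasEnoughRootsOfUnity.exists_primitiveRoot k m
  obtain ⟨b, hb⟩ := Cl.Cls.exists_basis_eigenvectors (Fintype.card_fin _) (fun i => ρ (x i))
    (fun i j => (hc i j).map ρ) fun i => Cl.Cls.exists_aeval_prod_eq_zero_of_pow (NeZero.pos m) hη
      (by rw [← map_pow, hx, map_one])
  have key : ∀ j i, ∃ e : Fin m, ρ (x i) (b j) = η ^ (e : ℕ) • b j := fun j i => by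
    obtain ⟨μ, hμ⟩ := hb i j
    have h1 := End.HasEigenvector.pow_apply (f := ρ (x i)) (μ := μ)
      ⟨End.mem_eigenspace_iff.2 hμ, b.ne_zero j⟩ m
    rw [← map_pow, hx, map_one, End.one_apply] at h1
    obtain ⟨e, he, rfl⟩ := hη.eq_pow_of_pow_eq_one (ξ := μ)
      (smul_left_injective k (b.ne_zero j) (h1.symm.trans (one_smul k _).symm))
    exact ⟨⟨e, he⟩, hμ⟩
  choose e he using key
  exact ⟨η, b, e, hη, he⟩

theorem seven_le [IsAlgClosed k] (h2 : (2 : k) ≠ 0) (h : Ctr τ) (hρ : ρ.ker ≤ τ.ker)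
    (h8 : 8 ≤ Fintype.card α) : 7 ≤ finrank k V := by
  obtain ⟨ε⟩ : Nonempty (Fin 8 ↪ α) := Function.Embedding.nonempty_of_card_le (by simpa)
  have hj := viaEmbeddingHom_injective ε
  generalize hjj : viaEmbeddingHom ε = j at hj
  have hl : ∀ σ : alternatingGroup (Fin 8), ∃ y, τ y = j σ := fun σ => hjj ▸ h.exists_emb ε σ
  obtain ⟨x, hx⟩ := hl (sw 0 1 2 3 * sw 4 5 6 7)
  obtain ⟨g, hg, hg7⟩ := h.exists_emb_odd ε (sw 1 2 2 4 * sw 4 3 3 6 * sw 6 7 7 5) (s := 7)
    (by decide) (by decide +kernel)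
  rw [hjj] at hg
  obtain ⟨t, ht⟩ := hl (sw 2 4 4 6 * sw 3 5 5 7)
  let X : ℕ → G := fun i => g ^ i * x * (g ^ i)⁻¹
  have hX : ∀ i, τ (X i) = j ((sw 1 2 2 4 * sw 4 3 3 6 * sw 6 7 7 5) ^ i * (sw 0 1 2 3 * sw 4 5 6 7) *
      ((sw 1 2 2 4 * sw 4 3 3 6 * sw 6 7 7 5) ^ i)⁻¹ : alternatingGroup (Fin 8)) := fun i => by
    simp only [X, map_mul, map_inv, map_pow, hx, hg, Subgroup.coe_mul, Subgroup.coe_inv,
      Subgroup.coe_pow]
  have hX7 : ∀ i, X (i + 7) = X i := fun i => by simp only [X, pow_add, hg7, mul_one]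
  have hz : ∀ i < 7, ⁅X i, x⁆ ∈ Subgroup.center G := fun i hi =>
    h.cen (commutatorElement_mem_ker_of_commute (by
      rw [hX, hx]
      refine Commute.map ?_ j
      revert i
      unfold Commute SemiconjBy
      decide +kernel))
  have hcj : ∀ a b, a < 7 → τ (t * X a * t⁻¹) = τ b → ⁅X a, x⁆ = ⁅b, x⁆ := fun a b ha e => by
    rw [← conj_eq_of_mem_center (hz a ha) t, conjugate_commutatorElement]
    refine commutatorElement_eq_of_map_eq h.cen e ?_
    simp only [map_mul, map_inv, hx, ht]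
    simp only [← map_mul, ← map_inv]
    exact congrArg j (by decide +kernel)
  have e1 := hcj 1 (X 2) (by omega) (by
    simp only [map_mul, map_inv, hX, ht]
    simp only [← map_mul, ← map_inv]
    exact congrArg j (by decide +kernel))
  have e2 := hcj 2 (X 1 * X 2) (by omega) (by
    simp only [map_mul, map_inv, hX, ht]
    simp only [← map_mul, ← map_inv]
    exact congrArg j (by decide +kernel))
  rw [commutatorElement_mul_left_of_central (hz 2 (by omega)), right_eq_mul] at e2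
  rw [e2] at e1
  have c1 := commutatorElement_eq_one_iff_commute.1 e2
  have c2 := commutatorElement_eq_one_iff_commute.1 e1.symm
  have c0 : ∀ i, Commute (X i) x := fun i => by
    induction i using Nat.strong_induction_on with
    | _ i ih =>
    rcases lt_or_ge i 7 with hi | hi
    · obtain ⟨a, -, b, -, c, -, e⟩ : ∃ a < 2, ∃ b < 2, ∃ c < 2, τ (x ^ a * X 1 ^ b * X 2 ^ c) = τ (X i) := by
        simp only [map_mul, map_pow, hX, hx]
        simp only [← map_mul, ← map_pow, hj.eq_iff]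
        clear ih
        revert i
        decide +kernel
      obtain ⟨z, -, h1, e⟩ := exists_central_of_map_eq h.cen e
      rw [e]
      exact ((((Commute.refl x).pow_left a).mul_left (c1.pow_left b)).mul_left (c2.pow_left c)).mul_left
        (Subgroup.mem_center_iff.1 h1 x).symm
    · obtain ⟨i, rfl⟩ := Nat.exists_eq_add_of_le' hi
      exact hX7 i ▸ ih i (by omega)
  have hs : ∀ a b, X (a + b) = g ^ a * X b * (g ^ a)⁻¹ := fun a b => by
    simp only [X, pow_add, mul_inv_rev, mul_assoc]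
  have cc : ∀ a b, Commute (X a) (X b) := fun a b => by
    wlog hab : b ≤ a generalizing a b
    · exact (this b a (by omega)).symm
    obtain ⟨a, rfl⟩ := Nat.exists_eq_add_of_le hab
    rw [hs]
    exact (c0 a).map (MulAut.conj (g ^ b))
  obtain ⟨η, b, e, hη, he⟩ := exists_eigenbasis (ρ := ρ) (m := 4) (by
    exact_mod_cast (by norm_num : (2 : k) * 2 = 4) ▸ mul_ne_zero h2 h2) X cc fun i => by
      rw [conj_pow, show x ^ 4 = x * x * (x * x) by simp only [pow_succ, pow_zero, one_mul, mul_assoc],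
        h.sq _ (by rw [MonoidHom.mem_ker, map_mul, hx, ← map_mul, ← map_one j]
                   exact congrArg j (by decide +kernel)), mul_one, mul_inv_cancel]
  obtain ⟨l, hl⟩ : ∃ l, η ^ (e l 0 : ℕ) ≠ η ^ (e l 1 : ℕ) := by
    by_contra hn
    push Not at hn
    have h1 : ρ (X 0) = ρ (X 1) := b.ext fun l => by rw [he, he, hn]
    have h3 : τ (X 0) = τ (X 1) := (MonoidHom.eq_iff τ).2 (hρ (by
      rw [MonoidHom.mem_ker, map_mul, h1, ← map_mul, inv_mul_cancel, map_one]))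
    rw [hX, hX, hj.eq_iff] at h3
    exact absurd h3 (by decide +kernel)
  have h7 : Function.Periodic (fun i => η ^ (e l i : ℕ)) 7 := fun i =>
    smul_left_injective k (b.ne_zero l) (by simp only [← he, hX7])
  refine le_of_eq_of_le (Fintype.card_fin 7).symm (card_le_of_weights (fun i => ρ (X i))
    (fun (a : Fin 7) i => η ^ (e l (a + i) : ℕ)) (fun a a' haa => ?_) (fun a => ρ (g ^ (a : ℕ))⁻¹ (b l))
    (fun a e => b.ne_zero l ((ρ.apply_bijective _).1 (e.trans (map_zero _).symm))) fun a i => ?_)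
  · wlog h1 : a < a' generalizing a a'
    · rcases (not_lt.1 h1).eq_or_lt with h3 | h3
      exacts [h3.symm, (this _ _ haa.symm h3).symm]
    obtain ⟨d, hd⟩ := Nat.exists_eq_add_of_lt h1
    have h3 : Function.Periodic (fun i => η ^ (e l i : ℕ)) (d + 1) := fun i => by
      have := congrFun haa (i + 7 - a)
      simp only at this
      rw [show a + (i + 7 - a) = i + 7 by omega, show a' + (i + 7 - a) = i + (d + 1) + 7 by omega] at this
      exact ((h7 _).symm.trans this.symm).trans (h7 _)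
    obtain ⟨m, n, hm⟩ : ∃ m n, m * (d + 1) = n * 7 + 1 := by
      have : d < 6 := by omega
      interval_cases d
      exacts [⟨1, 0, rfl⟩, ⟨4, 1, rfl⟩, ⟨5, 2, rfl⟩, ⟨2, 1, rfl⟩, ⟨3, 2, rfl⟩, ⟨6, 5, rfl⟩]
    have h4 := h3.nat_mul m 0
    have h5 := h7.nat_mul n 1
    simp only [Nat.cast_id, zero_add, hm, add_comm 1] at h4 h5
    exact absurd (h4.symm.trans h5) hl
  · rw [← map_smul, ← he, hs, ← End.mul_apply, ← End.mul_apply, ← map_mul, ← map_mul]
    simp only [mul_assoc, inv_mul_cancel_left]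

theorem le_of_moves {ι κ : Type*} [Fintype ι] {s : ℕ} [NeZero s] {η : k} (hη : IsPrimitiveRoot η s)
    (x : ι → G) (t : κ → G) (π : κ → ι → ι) (a : κ → ι → Fin s)
    (h : ∀ j i, x i * t j = t j * x (π j i) ^ (a j i : ℕ)) (e : ι → Fin s) {v : V} (hv : v ≠ 0)
    (he : ∀ i, ρ (x i) v = η ^ (e i : ℕ) • v) (W : List (List κ)) :
    (W.map fun w => w.foldr (fun j e i => a j i * e (π j i)) e).toFinset.card ≤ finrank k V := by
  have key : ∀ w : List κ, ∃ v : V, v ≠ 0 ∧ ∀ i, ρ (x i) v =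
      η ^ ((w.foldr (fun j e i => a j i * e (π j i)) e i : Fin s) : ℕ) • v := fun w => by
    induction w with
    | nil => exact ⟨v, hv, he⟩
    | cons j w ih =>
      obtain ⟨v, hv, he⟩ := ih
      refine ⟨ρ (t j) v, fun e => hv ((ρ.apply_bijective _).1 (e.trans (map_zero _).symm)), fun i => ?_⟩
      rw [← End.mul_apply, ← map_mul, h, map_mul, End.mul_apply, map_pow,
        End.HasEigenvector.pow_apply ⟨End.mem_eigenspace_iff.2 (he _), hv⟩, map_smul, List.foldr_cons,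
        Fin.val_mul, ← pow_eq_pow_mod _ hη.pow_eq_one, mul_comm, pow_mul]
  have key2 : ∀ f ∈ (W.map fun w => w.foldr (fun j e i => a j i * e (π j i)) e).toFinset,
      ∃ v : V, v ≠ 0 ∧ ∀ i, ρ (x i) v = η ^ (f i : ℕ) • v := fun f hf => by
    obtain ⟨w, -, hw⟩ := List.mem_map.1 (List.mem_toFinset.1 hf)
    exact hw ▸ key w
  choose v' h1 h2 using key2
  rw [← Fintype.card_coe]
  exact card_le_of_weights (fun i => ρ (x i)) (fun f i => η ^ (f.1 i : ℕ)) (fun f f' e =>
    Subtype.ext (funext fun i => Fin.ext (hη.pow_inj (f.1 i).2 (f'.1 i).2 (congrFun e i))))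
    (fun f => v' f.1 f.2) (fun f => h1 f.1 f.2) fun f => h2 f.1 f.2

theorem exists_of_not_fx {y l : G} (h : ¬ Fx ρ l y) {J : Type*} (b : Basis J k V) {μ : J → k}
    (hb : ∀ j, ρ y (b j) = μ j • b j) : ∃ j, μ j ≠ 1 ∧ ρ l (b j) ≠ b j := by
  by_contra hn
  refine h fun v => ?_
  have : ρ l * (ρ y - 1) = ρ y - 1 := b.ext fun j => by
    by_cases h1 : μ j = 1
    · simp [hb, h1]
    · simp [hb, not_not.1 fun h2 => hn ⟨j, h1, h2⟩]
  exact DFunLike.congr_fun this v

/-- words of bounded length in two letters -/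
def wds : ℕ → List (List (Fin 2))
  | 0 => [[]]
  | n + 1 => [] :: (wds n).map (0 :: ·) ++ (wds n).map (1 :: ·)

theorem le_of_std [IsAlgClosed k] (h : Ctr τ) {m r s N : ℕ} [NeZero s] (hs : Odd s) (hk : (s : k) ≠ 0)
    (ε : Fin m ↪ α) (c : Fin (r + 2) → alternatingGroup (Fin m)) (t : Fin 2 → alternatingGroup (Fin m))
    (π : Fin 2 → Fin (r + 2) → Fin (r + 2)) (a : Fin 2 → Fin (r + 2) → Fin s)
    (hc : ∀ i j, c i * c j * (c i)⁻¹ = c j) (hcs : ∀ i, c i ^ s = 1)
    (ht : ∀ j i, (t j)⁻¹ * c i * t j = c (π j i) ^ (a j i : ℕ))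
    (hN : ∀ e : Fin (r + 2) → Fin s, e 0 ≠ 0 → e 1 ≠ 0 →
      N ≤ ((wds 6).map fun w => w.foldr (fun j e i => a j i * e (π j i)) e).toFinset.card)
    {y y' : G} (hy : τ y = viaEmbeddingHom ε (c 0)) (hy' : τ y' = viaEmbeddingHom ε (c 1))
    (h1 : y ^ s = 1) (h1' : y' ^ s = 1) (hf : ¬ Fx ρ y' y) : N ≤ finrank k V := by
  choose x hx hxs using fun i => h.exists_emb_odd ε (c i) hs (hcs i)
  choose t' ht' using fun j => h.exists_emb ε (t j)
  obtain rfl := h.eq_of_odd (hy.trans (hx 0).symm) hs h1 (hxs 0)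
  obtain rfl := h.eq_of_odd (hy'.trans (hx 1).symm) hs h1' (hxs 1)
  obtain ⟨η, b, e, hη, he⟩ := exists_eigenbasis (ρ := ρ) hk x (fun i j =>
    mul_inv_eq_iff_eq_mul.1 (h.eq_of_odd (by
      simp only [map_mul, map_inv, hx]
      rw [← map_inv, ← map_mul, ← map_mul]
      exact congrArg _ (congrArg Subtype.val (hc i j))) hs
      (by rw [conj_pow, hxs, mul_one, mul_inv_cancel]) (hxs j))) hxs
  obtain ⟨j, h2, h3⟩ := exists_of_not_fx hf b fun j => he j 0
  refine (hN (e j) (fun e => h2 (by rw [e]; simp)) fun e => h3 (by rw [he, e]; simp)).trans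
    (le_of_moves hη x t' π a (fun j i => ?_) (e j) (b.ne_zero j) (he j) _)
  rw [← inv_mul_eq_iff_eq_mul, ← mul_assoc]
  refine h.eq_of_odd ?_ hs (by
    rw [← inv_inv (t' j), inv_inv (t' j)⁻¹, conj_pow, hxs, mul_one, mul_inv_cancel])
    (by rw [← pow_mul, mul_comm, pow_mul, hxs, one_pow])
  simp only [map_mul, map_inv, map_pow, hx, ht']
  rw [← map_inv, ← map_mul, ← map_mul, ← map_pow]
  exact congrArg _ (congrArg Subtype.val (ht j i))

theorem exists_half [IsAlgClosed k] (h : Ctr τ) {s : ℕ} (hs : Odd s) (hk : (s : k) ≠ 0) {y l t : G}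
    (h1 : y ^ s = 1) (h1' : l ^ s = 1) (hl : l ∈ disj τ (τ y)) (ht : τ (t * y * t⁻¹) = τ y⁻¹)
    (h5 : (τ y).support.card + 5 ≤ Fintype.card α) (hf : ¬ Fx ρ l y) :
    ∃ (U : Submodule k V) (σ : Representation k (disj τ (τ y)) U), σ.ker ≤ (res τ (τ y)).ker ∧
      2 * finrank k U ≤ finrank k V ∧ finrank k U < finrank k V := by
  obtain ⟨η, b, e, hη, he⟩ := exists_eigenbasis (ρ := ρ) hk (fun _ : Unit => y)
    (fun _ _ => Commute.refl y) fun _ => h1
  obtain ⟨j, h2, h3⟩ := exists_of_not_fx hf b fun j => he j ()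
  have h4 : (η ^ (e j () : ℕ)) ^ s = 1 := by rw [← pow_mul, mul_comm, pow_mul, hη.pow_eq_one, one_pow]
  have h6 := End.mem_eigenspace_iff.2 (he j ())
  generalize η ^ (e j () : ℕ) = μ at h2 h4 h6
  have h0 : μ ≠ 0 := by
    rintro rfl
    simp [hs.pos.ne'] at h4
  have h7 : μ ≠ μ⁻¹ := fun e' => h2 (by
    obtain ⟨m, rfl⟩ := hs
    rwa [pow_succ, pow_mul, pow_two, (eq_inv_mul_iff_mul_eq₀ h0).1 (e'.trans (mul_one _).symm), one_pow,
      one_mul] at h4)
  have h8 := h.eq_of_odd ht hs (by rw [conj_pow, h1, mul_one, mul_inv_cancel]) (by rw [inv_pow, h1, inv_one])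
  let σ := Representation.subrepresentation (ρ.comp (disj τ (τ y)).subtype) (End.eigenspace (ρ y) μ)
    fun g v hv => End.mem_eigenspace_iff.2 (by
      change ρ y (ρ g v) = μ • ρ g v
      rw [← End.mul_apply, ← map_mul, ← mul_inv_eq_iff_eq_mul.1 (h.conj_eq g.2 hs h1), map_mul,
        End.mul_apply, End.mem_eigenspace_iff.1 hv, map_smul])
  have h9 : 2 * finrank k (End.eigenspace (ρ y) μ) ≤ finrank k V := by
    have e1 := Submodule.finrank_add_finrank_le_of_disjoint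
      ((End.eigenspaces_iSupIndep (ρ y)).pairwiseDisjoint h7)
    have e2 := LinearMap.finrank_le_finrank_of_injective (f := (ρ t⁻¹).restrict
      (p := End.eigenspace (ρ y) μ) (q := End.eigenspace (ρ y) μ⁻¹) fun v hv =>
        End.mem_eigenspace_iff.2 (by
          have e3 : ρ y⁻¹ v = μ⁻¹ • v := by
            rw [eq_inv_smul_iff₀ h0, ← map_smul, ← End.mem_eigenspace_iff.1 hv, ρ.inv_self_apply]
          rw [← map_smul, ← e3, ← h8, ← End.mul_apply, ← End.mul_apply, ← map_mul, ← map_mul]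
          simp only [mul_assoc, inv_mul_cancel_left]))
      fun v w e => Subtype.ext ((ρ.apply_bijective _).1 (congrArg Subtype.val e))
    omega
  have h10 : 0 < finrank k (End.eigenspace (ρ y) μ) :=
    finrank_pos_iff_exists_ne_zero.2 ⟨⟨_, h6⟩, fun e => b.ne_zero j (congrArg Subtype.val e)⟩
  refine ⟨_, σ, (normal_cases (range_res h.rng _) (by rw [card_fix]; omega) _).resolve_right fun e => ?_,
    h9, by omega⟩
  obtain ⟨x, hx, e1⟩ : res τ (τ y) ⟨l, hl⟩ ∈ σ.ker.map (res τ (τ y)) := by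
    rw [e, ← range_res h.rng]
    exact ⟨_, rfl⟩
  obtain ⟨z, hz, hz', e2⟩ := exists_central_of_map_eq (h.res _).cen e1
  obtain ⟨m, hm⟩ := hs.add_one
  have e3 : (⟨l, hl⟩ : disj τ (τ y)) = (x * x) ^ m := by
    have e4 : (⟨l, hl⟩ : disj τ (τ y)) * ⟨l, hl⟩ = x * x := by
      rw [e2, (Commute.mul_mul_mul_comm (Subgroup.mem_center_iff.1 hz' x).symm _ _),
        (h.res _).sq z hz, mul_one]
    rw [← e4, ← pow_two, ← pow_mul, two_mul, ← hm, pow_succ]
    exact Subtype.ext (by simp [h1'])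
  have e4 : σ ⟨l, hl⟩ = 1 := e3 ▸ pow_mem (mul_mem hx hx) m
  exact h3 (congrArg Subtype.val (LinearMap.congr_fun e4 ⟨b j, h6⟩))

theorem bound_of_fx (p : ℕ) [CharP k p] (h : Ctr τ) (hρ : Function.Injective ρ)
    (h8 : 8 ≤ Fintype.card α) {ζ : G} (hζ : IsZeta τ ζ) (hk : τ.ker ≤ Subgroup.zpowers ζ) {c : k}
    (hc : ∀ v, ρ ζ v = c • v) {s : ℕ} (hs : Odd s) {y y' : G} (h1 : y ^ s = 1) (hy : τ y ≠ 1)
    (hy' : τ y' ≠ 1) (hd : y' ∈ disj τ (τ y)) (h5 : (τ y).support.card + 5 ≤ Fintype.card α)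
    (h5' : (τ y').support.card + 5 ≤ Fintype.card α) (hf : Fx ρ y' y) :
    Fintype.card α - 1 - (if p ∣ Fintype.card α then 1 else 0) ≤ finrank k V := by
  have h2 : ∀ l ∈ disj τ (τ y), ∃ x ∈ fxL ρ y, τ x = τ l := fun l hl =>
    exists_mem_of_disj h.rng h5 (fun g hg x hx => h.conj_eq hg hs h1 ▸ Fx.conj hx g) hf hd hy' hl
  have h3 : ζ = 1 := by
    obtain ⟨a, b, c', d, hab, hac, had, hbc, hbd, hcd⟩ :=
      exists_four_ne (α := {x // τ y x = x}) (by rw [card_fix]; omega)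
    obtain ⟨u, hu⟩ := exists_lift (range_res h.rng (τ y)) (sign_swap_mul_swap hab hcd)
    obtain ⟨v, hv⟩ := exists_lift (range_res h.rng (τ y)) (sign_swap_mul_swap hac hbd)
    obtain ⟨u', hu1, hu2⟩ := h2 u u.2
    obtain ⟨v', hv1, hv2⟩ := h2 v v.2
    rw [← ofSubtype_res, hu, map_mul, ofSubtype_swap_eq, ofSubtype_swap_eq] at hu2
    rw [← ofSubtype_res, hv, map_mul, ofSubtype_swap_eq, ofSubtype_swap_eq] at hv2
    have h4 : ζ ∈ fxL ρ y := by
      rw [← hζ.2.2 a b c' d (by simpa [Subtype.ext_iff] using hab) (by simpa [Subtype.ext_iff] using hac)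
        (by simpa [Subtype.ext_iff] using had) (by simpa [Subtype.ext_iff] using hbc)
        (by simpa [Subtype.ext_iff] using hbd) (by simpa [Subtype.ext_iff] using hcd) u' v' hu2 hv2]
      exact mul_mem (mul_mem (mul_mem hu1 hv1) (inv_mem hu1)) (inv_mem hv1)
    obtain ⟨w, hw⟩ : ∃ w, ρ y w - w ≠ 0 := by
      by_contra hn
      push Not at hn
      exact hy (by rw [hρ (a₁ := y) (a₂ := 1) (LinearMap.ext fun w => by
        simpa [sub_eq_zero] using hn w), map_one])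
    have h6 : c = 1 := smul_left_injective k hw ((hc _).symm.trans ((h4 w).trans (one_smul k _).symm))
    exact hρ (LinearMap.ext fun w => by simp [hc, h6])
  rw [h3, Subgroup.zpowers_one_eq_bot, le_bot_iff, MonoidHom.ker_eq_bot_iff] at hk
  have h4 : ∀ {g x}, g ∈ disj τ (τ x) → g * x * g⁻¹ = x := fun hg => hk (by
    rw [map_mul, map_mul, map_inv, (mem_disj.1 hg).commute.eq, mul_inv_cancel_right])
  obtain ⟨a, b, c', -, hab, hac, -, hbc, -⟩ :=
    exists_four_ne (α := {x // τ y' x = x}) (by rw [card_fix]; omega)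
  obtain ⟨x, hx⟩ := exists_lift (range_res h.rng (τ y')) (sign_cyc3 (c := c') hab hbc)
  have hx3 : (τ x).IsThreeCycle := by
    rw [← ofSubtype_res, hx, IsThreeCycle, cycleType_ofSubtype]
    exact isThreeCycle_cyc3 hab hac hbc
  obtain ⟨x', hx1, hx2⟩ := exists_mem_of_disj h.rng h5' (K := fxR ρ y')
    (fun g hg x hx => h4 hg ▸ Fx.conj hx g) hf (Perm.Disjoint.symm hd) hy x.2
  obtain rfl := hk hx2
  refine main_case p h.rng hk hρ (by omega) fun z l hz hl => ?_
  obtain ⟨g, hg⟩ := isConj_iff.1 (alternatingGroup.isThreeCycle_isConj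
    (by rw [Nat.card_eq_fintype_card]; omega) (σ := ⟨τ x, h.rng.le ⟨_, rfl⟩⟩)
    (τ := ⟨τ z, h.rng.le ⟨_, rfl⟩⟩) hx3 hz)
  obtain ⟨g, hg'⟩ := h.rng.ge g.2
  obtain rfl : g * x * g⁻¹ = z := hk (by
    rw [map_mul, map_mul, map_inv, hg']; exact congrArg Subtype.val hg)
  obtain ⟨l', hl1, hl2⟩ := exists_mem_of_disj h.rng (by rw [hx3.card_support]; omega) (K := fxL ρ x)
    (fun g hg z hz => by have := Fx.conj hz g; rwa [h4 hg] at this) hx1 (Perm.Disjoint.symm x.2) hy' (l := g⁻¹ * l * g) (by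
      simpa [mem_disj, mul_assoc] using (mem_disj.1 hl).conj (τ g)⁻¹)
  obtain rfl := hk hl2
  simpa [mul_assoc] using Fx.conj hl1 g

theorem emb_facts {m : ℕ} (ε : Fin m ↪ α) {σ σ' : alternatingGroup (Fin m)} {y y' : G}
    (hy : τ y = viaEmbeddingHom ε σ) (hy' : τ y' = viaEmbeddingHom ε σ') (h1 : σ ≠ 1)
    (h2 : ∀ x, σ.1 x ≠ x → σ'.1 x = x) :
    τ y ≠ 1 ∧ y' ∈ disj τ (τ y) ∧ (τ y).support.card = σ.1.support.card := by
  refine ⟨fun e => h1 (Subtype.ext (viaEmbeddingHom_injective ε (hy.symm.trans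
    (e.trans (map_one _).symm)))), hy ▸ mem_disj_emb ε fun x hx => ?_, ?_⟩
  · rw [hy', viaEmbeddingHom_apply, viaEmbedding_apply, h2 x hx]
  · rw [hy, ← sum_cycleType, ← sum_cycleType, viaEmbeddingHom_apply, cycleType_viaEmbedding]

theorem central_case [IsAlgClosed k] (p : ℕ) [hp : Fact p.Prime] [CharP k p] (h : Ctr τ)
    (hρ : Function.Injective ρ) (h9 : 9 ≤ Fintype.card α) {ζ : G} (hζ : IsZeta τ ζ)
    (hk : τ.ker ≤ Subgroup.zpowers ζ) {c : k} (hc : ∀ v, ρ ζ v = c • v)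
    (ih : ∀ (c : Perm α) (U : Submodule k V) (σ : Representation k (disj τ c) U),
      σ.ker ≤ (res τ c).ker → 9 ≤ Fintype.card {x // c x = x} → finrank k U < finrank k V →
        Fintype.card {x // c x = x} - 2 ≤ finrank k U) :
    Fintype.card α - 1 - (if p ∣ Fintype.card α then 1 else 0) ≤ finrank k V := by
  have hne : ∀ n : ℕ, n.Prime → p ≠ n → (n : k) ≠ 0 := fun n hn e => by
    rw [Ne, CharP.cast_eq_zero_iff k p, Nat.prime_dvd_prime_iff_eq hp.out hn]
    exact e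
  by_cases h3 : p = 3 ∧ Fintype.card α = 9
  · have := seven_le (ρ := ρ) (by exact_mod_cast hne 2 Nat.prime_two (by omega)) h
      (by rw [(MonoidHom.ker_eq_bot_iff ρ).2 hρ]; exact bot_le) (by omega)
    rw [h3.1, h3.2]
    simpa using this
  by_cases h5 : p = 5 ∨ Fintype.card α = 9
  · have hp3 : ((3 : ℕ) : k) ≠ 0 := hne 3 Nat.prime_three (by omega)
    obtain ⟨ε⟩ : Nonempty (Fin 9 ↪ α) := Function.Embedding.nonempty_of_card_le (by simpa)
    obtain ⟨y, hy, h1⟩ := h.exists_emb_odd ε (sw 0 1 1 2) (s := 3) (by decide) (by decide +kernel)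
    obtain ⟨y', hy', h1'⟩ := h.exists_emb_odd ε (sw 3 4 4 5) (s := 3) (by decide) (by decide +kernel)
    obtain ⟨a1, a2, a3⟩ := emb_facts ε hy hy' (by decide +kernel) (by decide +kernel)
    obtain ⟨b1, -, b3⟩ := emb_facts ε hy' hy (by decide +kernel) (by decide +kernel)
    rw [show (sw 0 1 1 2 : alternatingGroup (Fin 9)).1.support.card = 3 by decide +kernel] at a3
    rw [show (sw 3 4 4 5 : alternatingGroup (Fin 9)).1.support.card = 3 by decide +kernel] at b3
    by_cases hf : Fx ρ y' y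
    · exact bound_of_fx p h hρ (by omega) hζ hk hc (by decide) h1 a1 b1 a2 (by omega) (by omega) hf
    by_cases h10 : Fintype.card α ≤ 10
    · have := le_of_std (N := 8) h (by decide) hp3 ε ![sw 0 1 1 2, sw 3 4 4 5, sw 6 7 7 8]
        ![sw 0 3 3 6 * sw 1 4 4 7 * sw 2 5 5 8, sw 0 3 1 4 * sw 2 5 0 1] ![![2, 0, 1], ![1, 0, 2]]
        ![![1, 1, 1], ![1, 2, 1]] (by decide +kernel) (by decide +kernel) (by decide +kernel)
        (by decide +kernel) hy hy' h1 h1' hf
      split_ifs with hd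
      · omega
      · have : Fintype.card α ≠ 10 := fun e => hd (by
          rw [e, show p = 5 by omega]; decide)
        omega
    obtain ⟨t, ht⟩ := h.exists_emb ε (sw 1 2 3 4)
    obtain ⟨U, σ, c1, c2, c3⟩ := exists_half h (by decide) hp3 h1 h1' a2 (t := t) (by
      simp only [map_mul, map_inv, hy, ht]
      rw [← map_inv, ← map_mul, ← map_mul, ← map_inv]
      exact congrArg _ (by decide +kernel)) (by omega) hf
    have c4 := card_fix (τ y)
    by_cases h11 : Fintype.card α = 11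
    · have := seven_le (by exact_mod_cast hne 2 Nat.prime_two (by omega)) (h.res _) c1 (by omega)
      omega
    · have := ih _ U σ c1 (by omega) c3
      omega
  have hp5 : ((5 : ℕ) : k) ≠ 0 := hne 5 Nat.prime_five (by omega)
  obtain ⟨ε⟩ : Nonempty (Fin 10 ↪ α) := Function.Embedding.nonempty_of_card_le (by simp; omega)
  obtain ⟨y, hy, h1⟩ := h.exists_emb_odd ε (sw 0 1 1 2 * sw 2 3 3 4) (s := 5) (by decide)
    (by decide +kernel)
  obtain ⟨y', hy', h1'⟩ := h.exists_emb_odd ε (sw 5 6 6 7 * sw 7 8 8 9) (s := 5) (by decide)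
    (by decide +kernel)
  obtain ⟨a1, a2, a3⟩ := emb_facts ε hy hy' (by decide +kernel) (by decide +kernel)
  obtain ⟨b1, -, b3⟩ := emb_facts ε hy' hy (by decide +kernel) (by decide +kernel)
  rw [show (sw 0 1 1 2 * sw 2 3 3 4 : alternatingGroup (Fin 10)).1.support.card = 5 by
    decide +kernel] at a3
  rw [show (sw 5 6 6 7 * sw 7 8 8 9 : alternatingGroup (Fin 10)).1.support.card = 5 by
    decide +kernel] at b3
  by_cases hf : Fx ρ y' y
  · exact bound_of_fx p h hρ (by omega) hζ hk hc (by decide) h1 a1 b1 a2 (by omega) (by omega) hf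
  by_cases h13 : Fintype.card α ≤ 13
  · have := le_of_std (N := 12) h (by decide) hp5 ε ![sw 0 1 1 2 * sw 2 3 3 4, sw 5 6 6 7 * sw 7 8 8 9]
      ![sw 1 4 2 3, sw 0 5 1 6 * sw 2 7 3 8 * sw 4 9 1 3 * sw 1 4 1 2] ![![0, 1], ![1, 0]]
      ![![4, 1], ![1, 3]] (by decide +kernel) (by decide +kernel) (by decide +kernel)
      (by decide +kernel) hy hy' h1 h1' hf
    omega
  obtain ⟨t, ht⟩ := h.exists_emb ε (sw 1 4 2 3)
  obtain ⟨U, σ, c1, c2, c3⟩ := exists_half h (by decide) hp5 h1 h1' a2 (t := t) (by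
    simp only [map_mul, map_inv, hy, ht]
    rw [← map_inv, ← map_mul, ← map_mul, ← map_inv]
    exact congrArg _ (by decide +kernel)) (by omega) hf
  have c4 := card_fix (τ y)
  have := ih _ U σ c1 (by omega) c3
  omega

end Cfsg.Agent.Chev.AL
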