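import Mathlib
import Cfsg.Agent.Chev.AltLinB
import Cfsg.Agent.Chev.CRWeight
import Cfsg.Agent.GT.ElemAbRep
import Cfsg.Agent.GT.MinNormal

/-!
# The smallest degree of a linear group with an alternating section of degree at least nine
-/

set_option autoImplicit false
set_option linter.unusedSectionVars false

namespace Cfsg.Agent.Chev.AL

open Equiv Equiv.Perm Module Cfsg.Agent.Sym Cfsg.Agent.GT
open scoped commutatorElement TensorProduct

universe u v w x

section
variable {k V G α : Type*} [Field k] [AddCommGroup V] [Module k V] [Group G] [DecidableEq α]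
  [Fintype α] {τ : G →* Perm α} {ρ : Representation k G V}

theorem not_comm (hr : τ.range = alternatingGroup α) (h4 : 4 ≤ Fintype.card α)
    (h : ∀ a b : G, a * b = b * a) : False := by
  have : IsMulCommutative (alternatingGroup α) := ⟨⟨fun a b => by
    obtain ⟨a', ha⟩ := hr.ge a.2
    obtain ⟨b', hb⟩ := hr.ge b.2
    exact Subtype.ext (by rw [Subgroup.coe_mul, Subgroup.coe_mul, ← ha, ← hb, ← map_mul, h, map_mul])⟩⟩
  rw [alternatingGroup.isMulCommutative_iff_card_le_three, Nat.card_eq_fintype_card] at this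
  omega

/-- a minimal extension of the alternating group -/
def MinExt (τ : G →* Perm α) : Prop :=
  τ.range = alternatingGroup α ∧ ∀ H : Subgroup G, H.map τ = alternatingGroup α → H = ⊤

theorem MinExt.normal (h : MinExt τ) (h5 : 5 ≤ Fintype.card α) (K : Subgroup G) [K.Normal] :
    K ≤ τ.ker ∨ K = ⊤ := (normal_cases h.1 h5 K).imp id (h.2 K)

theorem MinExt.perfect (h : MinExt τ) (h5 : 5 ≤ Fintype.card α) : commutator G = ⊤ :=
  h.2 _ (by
    rw [commutator_def, Subgroup.map_commutator, ← MonoidHom.range_eq_map, h.1,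
      commutator_alternatingGroup_eq_self (by rwa [Nat.card_eq_fintype_card])])

theorem MinExt.center_le (h : MinExt τ) (h5 : 5 ≤ Fintype.card α) : Subgroup.center G ≤ τ.ker :=
  (h.normal h5 _).resolve_right fun e => not_comm h.1 (by omega) fun a b =>
    Subgroup.mem_center_iff.1 (e.ge (Subgroup.mem_top b)) a

theorem MinExt.nilpotent [Finite G] (h : MinExt τ) : Group.IsNilpotent τ.ker := by
  have := frattini_nilpotent (G := G)
  refine isNilpotent_of_le (K := frattini G) (le_iInf₂ fun H hH => ?_)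
  by_contra hn
  have h1 := congrArg (Subgroup.map τ) (hH.2 (H ⊔ τ.ker) (left_lt_sup.2 hn))
  rw [Subgroup.map_sup, (Subgroup.map_eq_bot_iff _).2 le_rfl, sup_bot_eq, ← MonoidHom.range_eq_map,
    h.1] at h1
  exact hH.1 (h.2 H h1)

theorem MinExt.scalar [IsAlgClosed k] [FiniteDimensional k V] [Finite G] [Nontrivial V]
    (h : MinExt τ) (h5 : 5 ≤ Fintype.card α) (hn : finrank k V < Fintype.card α)
    (hirr : ∀ U : Submodule k V, (∀ g, U ≤ U.comap (ρ g)) → U = ⊥ ∨ U = ⊤) (A : Subgroup G)
    [hA : A.Normal] (hc : ∀ a ∈ A, ∀ b ∈ A, a * b = b * a) :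
    ∀ a ∈ A, ∃ c : k, ∀ v, ρ a v = c • v := by
  classical
  obtain ⟨v, -, hv, h1⟩ := exists_common_eigenvector (ρ.comp A.subtype)
    (fun a b => Subtype.ext (hc _ a.2 _ b.2)) ⊤ top_ne_bot (fun _ _ _ => trivial)
  choose χ hχ using h1
  replace hχ : ∀ a (ha : a ∈ A), ρ a v = χ ⟨a, ha⟩ • v := fun a ha => hχ ⟨a, ha⟩
  let S : Subgroup G :=
    { carrier := {g | ∀ a ∈ A, ρ (g⁻¹ * a * g) v = ρ a v}
      one_mem' := fun a _ => by simp
      mul_mem' := fun {g g'} hg hg' a ha => by
        rw [← hg a ha, ← hg' _ (hA.conj_mem' a ha g)]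
        simp only [mul_inv_rev, mul_assoc]
      inv_mem' := fun {g} hg a ha => by
        rw [← hg _ (hA.conj_mem' a ha g⁻¹)]
        simp only [mul_assoc, inv_inv, inv_mul_cancel, mul_one, inv_mul_cancel_left] }
  have h2 : ∀ g a (ha : a ∈ A), ρ a (ρ g v) = χ ⟨_, hA.conj_mem' a ha g⟩ • ρ g v := fun g a ha => by
    rw [← map_smul, ← hχ, ← Module.End.mul_apply, ← Module.End.mul_apply, ← map_mul, ← map_mul]
    simp only [mul_assoc, mul_inv_cancel_left]
  have := Fintype.ofFinite (G ⧸ S)
  have h3 := card_le_of_weights (J := G ⧸ S) (fun a : A => ρ a)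
    (fun j a => χ ⟨_, hA.conj_mem' a a.2 j.out⟩) (fun j j' e => by
      rw [← j.out_eq', ← j'.out_eq', QuotientGroup.eq]
      intro a ha
      have := congrFun e ⟨_, hA.conj_mem a ha j.out⟩
      simp only [mul_assoc, inv_mul_cancel_left, inv_mul_cancel, mul_one] at this
      rw [hχ a ha, this, ← hχ]
      simp only [mul_inv_rev, inv_inv, mul_assoc]) (fun j => ρ j.out v) (fun j e => hv (by
      simpa using congrArg (ρ j.out⁻¹) e)) (fun j a => h2 _ _ a.2)
  have h4 : S = ⊤ := h.2 S (map_eq_of_index_lt h.1 h5 (by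
    rw [Subgroup.index, Nat.card_eq_fintype_card]; omega))
  have h6 := (hirr (⨅ a : A, End.eigenspace (ρ a) (χ a)) fun g w hw => by
    simp only [Submodule.mem_comap, Submodule.mem_iInf, End.mem_eigenspace_iff] at hw ⊢
    intro a
    have h7 : χ ⟨_, hA.conj_mem' a a.2 g⟩ = χ a := smul_left_injective k hv (by
      simp only
      rw [← hχ, ← hχ _ a.2]
      exact h4.ge (Subgroup.mem_top g) a a.2)
    rw [← h7, ← map_smul, ← hw, ← Module.End.mul_apply, ← Module.End.mul_apply, ← map_mul, ← map_mul]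
    simp only [mul_assoc, mul_inv_cancel_left]).resolve_left fun e => hv (by
      rw [← Submodule.mem_bot k, ← e]
      simp only [Submodule.mem_iInf, End.mem_eigenspace_iff]
      exact fun a => hχ a a.2)
  refine fun a ha => ⟨χ ⟨a, ha⟩, fun w => ?_⟩
  have := h6.ge (Submodule.mem_top (x := w))
  simp only [Submodule.mem_iInf, End.mem_eigenspace_iff] at this
  exact this ⟨a, ha⟩

theorem card_le_sq [FiniteDimensional k V] [Finite G] [Nontrivial V] (hρ : Function.Injective ρ)
    (hZ : ∀ a ∈ Subgroup.center G, ∃ c : k, ∀ v, ρ a v = c • v)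
    (M : Subgroup (G ⧸ Subgroup.center G)) (hM : IsMulCommutative M)
    (hc : ∀ a : G, (a : G ⧸ Subgroup.center G) ∈ M →
      (∀ b : G, (b : G ⧸ Subgroup.center G) ∈ M → b * a = a * b) → a ∈ Subgroup.center G) :
    Nat.card M ≤ finrank k V * finrank k V := by
  have h1 : ∀ a b : G, (a : G ⧸ Subgroup.center G) ∈ M → (b : G ⧸ Subgroup.center G) ∈ M →
      ⁅a, b⁆ ∈ Subgroup.center G := fun a b ha hb => by
    rw [← QuotientGroup.eq_one_iff, ← QuotientGroup.mk'_apply, map_commutatorElement,
      commutatorElement_eq_one_iff_mul_comm]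
    exact congrArg Subtype.val (hM.1.1 ⟨_, ha⟩ ⟨_, hb⟩)
  choose! c hcc using hZ
  have := Fintype.ofFinite M
  have h2 : ∀ j : M, ((j.1.out : G) : G ⧸ Subgroup.center G) ∈ M := fun j => by
    rw [QuotientGroup.out_eq']; exact j.2
  have := card_le_of_weights (J := M) (ι := {b : G // (b : G ⧸ Subgroup.center G) ∈ M})
    (fun b => LinearMap.mulLeft k (ρ b) * LinearMap.mulRight k (ρ b.1⁻¹))
    (fun j b => c ⁅b.1, j.1.out⁆) (fun j j' e => by
      refine Subtype.ext ?_
      rw [← j.1.out_eq', ← j'.1.out_eq', QuotientGroup.eq]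
      refine hc _ (mul_mem (inv_mem (h2 j)) (h2 j')) fun b hb => ?_
      have h3 : ⁅b, j.1.out⁆ = ⁅b, j'.1.out⁆ := hρ (LinearMap.ext fun v => by
        rw [hcc _ (h1 _ _ hb (h2 j)), hcc _ (h1 _ _ hb (h2 j'))]
        exact congrArg (· • v) (congrFun e ⟨b, hb⟩))
      calc b * (j.1.out⁻¹ * j'.1.out)
          = (b * j.1.out⁻¹ * b⁻¹) * (⁅b, j'.1.out⁆ * j'.1.out * b) := by
            simp only [commutatorElement_def]; group
        _ = _ := by rw [← h3]; simp only [commutatorElement_def]; group)
    (fun j => ρ j.1.out) (fun j e => by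
      obtain ⟨v, hv⟩ := exists_ne (0 : V)
      exact hv (by simpa using congrArg (fun f => ρ j.1.out⁻¹ (f v)) e)) (fun j b => by
      ext v
      rw [LinearMap.smul_apply, ← hcc _ (h1 _ _ b.2 (h2 j)), ← Module.End.mul_apply, ← map_mul]
      simp [commutatorElement_def])
  rwa [finrank_linearMap, ← Nat.card_eq_fintype_card] at this

theorem card_alt_le {E : Type*} [Monoid E] [Finite E] (hr : τ.range = alternatingGroup α)
    (σ : G →* E) (h : σ.ker ≤ τ.ker) : Nat.card (alternatingGroup α) ≤ Nat.card E := by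
  choose f hf using fun a : alternatingGroup α => hr.ge a.2
  refine Nat.card_le_card_of_injective (fun a => σ (f a)) fun a b e => Subtype.ext ?_
  have := h (x := (f a)⁻¹ * f b) (by
    rw [MonoidHom.mem_ker, map_mul, ← show σ (f a) = σ (f b) from e, ← map_mul, inv_mul_cancel,
      map_one])
  rwa [MonoidHom.mem_ker, map_mul, map_inv, hf, hf, inv_mul_eq_one] at this

end

/-- the degree bound in dimension `n` -/
def Bd (n : ℕ) : Prop :=
  ∀ (k : Type u) [Field k] [IsAlgClosed k] (p : ℕ) [Fact p.Prime] [CharP k p] (V : Type v)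
    [AddCommGroup V] [Module k V] [FiniteDimensional k V] (α : Type x) [DecidableEq α] [Fintype α]
    (G : Type w) [Group G] [Finite G] (ρ : Representation k G V) (τ : G →* Perm α),
    τ.range = alternatingGroup α → ρ.ker ≤ τ.ker → 9 ≤ Fintype.card α → finrank k V = n →
      Fintype.card α - 1 - (if p ∣ Fintype.card α then 1 else 0) ≤ n

theorem ker_le_center {k : Type u} {V : Type v} {G : Type w} {α : Type x} [Field k] [IsAlgClosed k]
    [AddCommGroup V] [Module k V] [FiniteDimensional k V] [Nontrivial V] [Group G] [Finite G]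
    [DecidableEq α] [Fintype α] {τ : G →* Perm α} {ρ : Representation k G V} (h : MinExt τ)
    (hρ : Function.Injective ρ) (h9 : 9 ≤ Fintype.card α) (hn : finrank k V + 1 < Fintype.card α)
    (hirr : ∀ U : Submodule k V, (∀ g, U ≤ U.comap (ρ g)) → U = ⊥ ∨ U = ⊤)
    (ih : ∀ m < finrank k V, Bd.{0, w, w, x} m) : τ.ker ≤ Subgroup.center G := by
  by_contra hn'
  have hs := h.scalar (ρ := ρ) (by omega) (by omega) hirr
  have := h.nilpotent
  have := isNilpotent_map τ.ker (QuotientGroup.mk' (Subgroup.center G))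
  have := Subgroup.Normal.map inferInstance (QuotientGroup.mk' (Subgroup.center G))
    (QuotientGroup.mk'_surjective _) (H := τ.ker)
  obtain ⟨M, l, hM, hle, hl, hV⟩ := exists_isMinNormal_elementary_le
    (H := τ.ker.map (QuotientGroup.mk' (Subgroup.center G))) (by
      rwa [Ne, Subgroup.map_eq_bot_iff, QuotientGroup.ker_mk'])
  have := hM.normal
  have : Fact l.Prime := ⟨hl⟩
  have h1 := card_le_sq hρ (hs _ fun a ha b _ => (Subgroup.mem_center_iff.1 ha b).symm) M hV.1
    fun a ha hb => by
      let N := M.comap (QuotientGroup.mk' (Subgroup.center G))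
      obtain ⟨c, hc⟩ := hs (N ⊓ Subgroup.centralizer N)
        (fun a ha b hb => hb.2 a ha.1) a ⟨ha, fun b hb' => hb b hb'⟩
      exact Subgroup.mem_center_iff.2 fun g => hρ (LinearMap.ext fun v => by simp [hc])
  let σ : Representation (ZMod l) G (EAV hV) :=
    (eaRep hV (H := ⊤) (Subgroup.le_normalizer_of_normal)).comp
      ((QuotientGroup.mk' (Subgroup.center G)).codRestrict ⊤ fun _ => trivial)
  have h2 : σ.ker ≤ τ.ker := (h.normal (by omega) σ.ker).resolve_right fun e => hM.ne_bot (by
    rw [eq_bot_iff]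
    intro m hm
    obtain ⟨m, rfl⟩ := QuotientGroup.mk_surjective m
    have h3 : ∀ g : G, ⁅g, m⁆ ∈ Subgroup.center G := fun g => by
      rw [← QuotientGroup.eq_one_iff, ← QuotientGroup.mk'_apply, map_commutatorElement,
        commutatorElement_eq_one_iff_mul_comm]
      exact ((eaRep_eq_one_iff (hHV := Subgroup.le_normalizer_of_normal)).1
        (e.ge (Subgroup.mem_top g)) _ hm).symm
    rw [Subgroup.mem_bot, QuotientGroup.eq_one_iff, Subgroup.mem_center_iff]
    intro g
    have h4 : commutator G ≤ Subgroup.centralizer {m} := Subgroup.commutator_le.2 fun a _ b _ =>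
      Subgroup.mem_centralizer_singleton_iff.2 (commute_commutatorElement_of_central (h3 a) (h3 b)).eq
    exact Subgroup.mem_centralizer_singleton_iff.1 (h4 ((h.perfect (by omega)).ge (Subgroup.mem_top g))))
  have h3 : Nat.card M = l ^ finrank (ZMod l) (EAV hV) := by
    rw [← EAV.card_eq (hV := hV), Module.natCard_eq_pow_finrank (K := ZMod l), Nat.card_zmod]
  by_cases hd : finrank (ZMod l) (EAV hV) < finrank k V
  · have := ih _ hd (AlgebraicClosure (ZMod l)) l _ α G (repBaseChange _ σ) τ h.1
      (fun g hg => h2 ((repBaseChange_eq_one_iff _ σ).1 hg)) h9 Module.finrank_baseChange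
    split_ifs at this <;> omega
  have : Finite (End (ZMod l) (EAV hV)) := Module.finite_of_finite (ZMod l)
  have h4 := card_alt_le h.1 σ h2
  have : Nontrivial α := Fintype.one_lt_card_iff_nontrivial.1 (by omega)
  rw [Module.natCard_eq_pow_finrank (K := ZMod l) (V := End _ _), Nat.card_zmod, finrank_linearMap,
    pow_mul, ← h3, nat_card_alternatingGroup, Nat.card_eq_fintype_card] at h4
  have h5 : 2 ^ finrank (ZMod l) (EAV hV) ≤ Nat.card M := h3 ▸ Nat.pow_le_pow_left hl.two_le _
  have h6 : finrank k V ≤ 4 := by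
    by_contra h6
    have h7 : ∀ n, 5 ≤ n → n * n < 2 ^ n := fun n hn => by
      induction n, hn using Nat.le_induction with
      | base => decide
      | succ n hn ih => rw [pow_succ]; nlinarith
    have := h7 (finrank k V) (by omega)
    have := Nat.pow_le_pow_right (n := 2) (by omega) (not_lt.1 hd)
    omega
  have h7 : Nat.card M ≤ 16 := h1.trans (Nat.mul_le_mul h6 h6)
  have h8 : finrank (ZMod l) (EAV hV) ≤ 4 :=
    (Nat.pow_le_pow_iff_right (a := 2) (by omega)).1 (h5.trans h7)
  have h10 := (Nat.pow_le_pow_left h7 _).trans (Nat.pow_le_pow_right (n := 16) (by omega) h8)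
  have := Nat.factorial_le h9
  rw [show Nat.factorial 9 = 362880 by decide] at this
  omega

theorem Bd.step (n : ℕ) (ih : ∀ m < n, Bd.{u, v, w, x} m) (ih0 : ∀ m < n, Bd.{0, w, w, x} m) :
    Bd.{u, v, w, x} n := by
  intro k _ _ p _ _ V _ _ _ α _ _ G _ _
  refine subgroup_quotient_induction (P := fun G _ _ => ∀ (ρ : Representation k G V) (τ : G →* Perm α),
    τ.range = alternatingGroup α → ρ.ker ≤ τ.ker → 9 ≤ Fintype.card α → finrank k V = n →
      Fintype.card α - 1 - (if p ∣ Fintype.card α then 1 else 0) ≤ n) ?_ G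
  intro G _ _ i1 i2 ρ τ hr hk h9 hn
  by_contra hc
  have h : MinExt τ := ⟨hr, fun H hH => by_contra fun e => hc (i1 H e (ρ.comp H.subtype)
    (τ.comp H.subtype) (by rw [MonoidHom.range_comp, Subgroup.range_subtype, hH]) (fun g hg => hk hg)
    h9 hn)⟩
  have hρ : Function.Injective ρ := (MonoidHom.ker_eq_bot_iff ρ).1 (by_contra fun e => hc (i2 _ e
    (QuotientGroup.lift _ ρ le_rfl) (QuotientGroup.lift _ τ hk) (by
      rw [← hr]
      ext g
      exact ⟨fun ⟨y, hy⟩ => by
        obtain ⟨y, rfl⟩ := QuotientGroup.mk_surjective y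
        exact ⟨y, hy⟩, fun ⟨y, hy⟩ => ⟨y, hy⟩⟩) (fun g hg => by
      obtain ⟨g, rfl⟩ := QuotientGroup.mk_surjective g
      exact hk hg) h9 hn))
  have hirr : ∀ U : Submodule k V, (∀ g, U ≤ U.comap (ρ g)) → U = ⊥ ∨ U = ⊤ := fun U hU => by
    by_contra hU'
    rw [not_or] at hU'
    have h1 := Submodule.finrank_lt hU'.2
    have h2 := Submodule.finrank_quotient_add_finrank U
    have h3 := Submodule.finrank_eq_zero.not.2 hU'.1
    have h4 := (h.normal (by omega) (ρ.subrepresentation U hU).ker).resolve_left fun e => by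
      have := ih _ (hn ▸ h1) k p U α G _ τ hr e h9 rfl
      omega
    have h5 := (h.normal (by omega) (ρ.quotient U hU).ker).resolve_left fun e => by
      have := ih (finrank k (V ⧸ U)) (by omega) k p _ α G _ τ hr e h9 rfl
      omega
    have h6 : ∀ a b w, ρ a (ρ b w - w) = ρ b w - w := fun a b w =>
      congrArg Subtype.val (LinearMap.congr_fun (h4.ge (Subgroup.mem_top a)) ⟨_, (Submodule.Quotient.eq U).1
        (LinearMap.congr_fun (h5.ge (Subgroup.mem_top b)) (Submodule.Quotient.mk w))⟩)
    refine not_comm hr (by omega) fun a b => hρ (LinearMap.ext fun w => ?_)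
    have h7 := h6 a b w
    have h8 := h6 b a w
    rw [map_sub] at h7 h8
    rw [map_mul, map_mul, Module.End.mul_apply, Module.End.mul_apply, sub_eq_iff_eq_add.1 h7,
      sub_eq_iff_eq_add.1 h8]
    abel
  have : Nontrivial V := by
    by_contra e
    rw [not_nontrivial_iff_subsingleton] at e
    exact not_comm hr (by omega) fun a b => hρ (Subsingleton.elim _ _)
  have hlt : finrank k V + 1 < Fintype.card α := by omega
  have hz := ker_le_center h hρ h9 hlt hirr (hn ▸ ih0)
  obtain ⟨ζ, hζ⟩ := exists_isZeta hz hr (by omega)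
  obtain ⟨ω, -, -, h1, h2⟩ := exists_ker_inf_commutator_le hζ hz hr (by omega)
  rw [h1 (by omega) (by omega), mul_one, h.perfect (by omega), inf_top_eq] at h2
  obtain ⟨c, hc'⟩ := h.scalar (ρ := ρ) (by omega) (by omega) hirr (Subgroup.center G)
    (fun a ha b _ => (Subgroup.mem_center_iff.1 ha b).symm) ζ (hz hζ.1)
  refine hc (hn ▸ central_case p ⟨hr, hz, fun z hz' => ?_⟩ hρ h9 hζ h2 hc' fun c U σ h3 h4 h5 => ?_)
  · obtain ⟨m, rfl⟩ := h2 hz'
    simp only
    rw [← (Commute.refl ζ).mul_zpow, ← pow_two, hζ.2.1, one_zpow]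
  · have := ih _ (hn ▸ h5) k p U _ _ σ (res τ c) (range_res hr c) h3 h4 rfl
    split_ifs at this <;> omega

theorem Bd.all (n : ℕ) : Bd.{u, v, w, x} n := by
  have h0 : ∀ n, Bd.{0, w, w, x} n := fun n =>
    Nat.strong_induction_on n fun n ih => Bd.step n ih ih
  exact Nat.strong_induction_on n fun n ih => Bd.step n ih fun m _ => h0 m

/-- A representation of a finite group whose image has an alternating group of degree `r ≥ 9` as a
quotient has degree at least `r - 1`, or `r - 2` when the characteristic divides `r`. -/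
theorem degree_bound {k V G α : Type*} [Field k] (p : ℕ) [Fact p.Prime] [CharP k p]
    [AddCommGroup V] [Module k V] [FiniteDimensional k V] [Group G] [Finite G] [DecidableEq α]
    [Fintype α] (ρ : Representation k G V) (τ : G →* Perm α) (hr : τ.range = alternatingGroup α)
    (hk : ρ.ker ≤ τ.ker) (h9 : 9 ≤ Fintype.card α) :
    Fintype.card α - 1 - (if p ∣ Fintype.card α then 1 else 0) ≤ finrank k V :=
  Bd.all _ (AlgebraicClosure k) p _ α G (repBaseChange _ ρ) τ hr
    (fun _ hg => hk ((repBaseChange_eq_one_iff _ ρ).1 hg)) h9 Module.finrank_baseChange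

end Cfsg.Agent.Chev.AL
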