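import Mathlib
import Cfsg.Agent.Chev.BNSteinberg
import Cfsg.Agent.GT.CoprimeBasic

/-!
The value of the Steinberg character at an element lying in a parabolic subgroup `P_J` and
conjugate into no smaller standard parabolic subgroup.
-/

set_option autoImplicit false

namespace Cfsg.Agent.Chev

open CoxeterSystem

variable {B W : Type*} [Group W] {M : CoxeterMatrix B} {cs : CoxeterSystem M W}

theorem length_mul_of_minLeft {J : Set B} {d u : W} (hd : ∀ j ∈ J, ¬ cs.IsLeftDescent d j)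
    (hu : u ∈ coxPar cs J) : cs.length (u * d) = cs.length u + cs.length d := by
  have h : IsMinRight cs J d⁻¹ := fun j hj => by rw [isRightDescent_inv_iff]; exact hd j hj
  have := h.length_mul (inv_mem hu)
  rw [← mul_inv_rev, length_inv, length_inv, length_inv] at this
  omega

theorem exists_minLeft (cs : CoxeterSystem M W) (J : Set B) (w : W) :
    ∃ d, (∀ j ∈ J, ¬ cs.IsLeftDescent d j) ∧ ∃ u ∈ coxPar cs J, w = u * d := by
  obtain ⟨d, hd, v, hv, h⟩ := exists_isMinRight cs J w⁻¹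
  exact ⟨d⁻¹, fun j hj => by rw [isLeftDescent_inv_iff]; exact hd j hj, v⁻¹, inv_mem hv, by
    rw [← mul_inv_rev, ← h, inv_inv]⟩

/-- Kilmoyer's theorem. -/
theorem IsMinDouble.kilmoyer {J K : Set B} {d : W} (hd : IsMinDouble cs J K d) {u : W}
    (hu : u ∈ coxPar cs J) : ∀ v ∈ coxPar cs K, u * d = d * v →
      u ∈ coxPar cs {s | s ∈ J ∧ ∃ t ∈ K, cs.simple s * d = d * cs.simple t} ∧
      v ∈ coxPar cs {t | t ∈ K ∧ ∃ s ∈ J, cs.simple s * d = d * cs.simple t} := by
  refine coxPar_induction_left cs (p := fun u => ∀ v ∈ coxPar cs K, u * d = d * v →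
      u ∈ coxPar cs {s | s ∈ J ∧ ∃ t ∈ K, cs.simple s * d = d * cs.simple t} ∧
      v ∈ coxPar cs {t | t ∈ K ∧ ∃ s ∈ J, cs.simple s * d = d * cs.simple t}) ?_ ?_ hu
  · intro v _ h
    have : v = 1 := by simpa using h.symm
    exact ⟨one_mem _, this ▸ one_mem _⟩
  · intro w hw i hi hwi ih v hv h
    have hdK : IsMinRight cs K d := hd.2
    rcases hdK.simple_mul i with h1 | ⟨-, k, hk, h1⟩
    · exfalso
      have h2 := h1.length_mul hv
      have h3 := hdK.length_mul hv
      have h4 := length_mul_of_minLeft hd.1 hw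
      have h5 := length_mul_of_minLeft hd.1 (mul_mem (simple_mem_coxPar cs hi) hw)
      have h6 := length_mul_of_minLeft hd.1 (simple_mem_coxPar cs hi)
      rw [not_isLeftDescent_iff] at hwi
      rw [mul_assoc, ← h, ← mul_assoc, ← mul_assoc, simple_mul_simple_self, one_mul] at h2
      rw [← h] at h3
      rw [length_simple] at h6
      omega
    · have h2 : w * d = d * (cs.simple k * v) := by
        rw [← mul_assoc, ← h1, mul_assoc, ← h, ← mul_assoc, ← mul_assoc, simple_mul_simple_self,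
          one_mul]
      obtain ⟨h3, h4⟩ := ih _ (mul_mem (simple_mem_coxPar cs hk) hv) h2
      refine ⟨mul_mem (simple_mem_coxPar cs ⟨hi, k, hk, h1⟩) h3, ?_⟩
      have := mul_mem (simple_mem_coxPar cs (J := {t | t ∈ K ∧ ∃ s ∈ J,
        cs.simple s * d = d * cs.simple t}) ⟨hk, i, hi, h1⟩) h4
      rwa [simple_mul_simple_cancel_left] at this

theorem IsLongest.not_isLeftDescent_mul {J : Set B} {wJ w0 : W} (hJ : IsLongest cs J wJ)
    (h0 : IsLongest cs Set.univ w0) {j : B} (hj : j ∈ J) : ¬ cs.IsLeftDescent (wJ * w0) j := by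
  have h1 := h0.length_mul_add' (u := wJ) (by rw [coxPar_univ]; trivial)
  have h2 := h0.length_mul_add' (u := cs.simple j * wJ) (by rw [coxPar_univ]; trivial)
  have h3 := hJ.isLeftDescent hj
  rw [IsLeftDescent] at h3 ⊢
  rw [← mul_assoc]
  omega

theorem IsLongest.exists_simple_mul (hinj : Function.Injective cs.simple) {J : Set B} {wJ w0 : W}
    (hJ : IsLongest cs J wJ) (h0 : IsLongest cs Set.univ w0) {t : B}
    (ht : ¬ cs.IsRightDescent (wJ * w0) t) :
    ∃ s ∈ J, cs.simple s * (wJ * w0) = wJ * w0 * cs.simple t := by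
  obtain ⟨k, -, hk⟩ := h0.exists_conj_simple (Set.mem_univ t)
  have h1 : wJ * w0 * cs.simple t = wJ * cs.simple k * w0 := by
    rw [← hk]; simp only [mul_assoc, h0.mul_self, mul_one]
  have h2 := h0.length_mul_add' (u := wJ) (by rw [coxPar_univ]; trivial)
  have h3 := h0.length_mul_add' (u := wJ * cs.simple k) (by rw [coxPar_univ]; trivial)
  rw [not_isRightDescent_iff, h1] at ht
  have h4 : cs.IsRightDescent wJ k := by rw [IsRightDescent]; omega
  have h5 := (simple_mem_coxPar_iff cs hinj).1 (simple_mem_coxPar_of_isRightDescent cs hJ.1 h4)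
  obtain ⟨s, hs, h6⟩ := hJ.exists_conj_simple h5
  refine ⟨s, hs, ?_⟩
  rw [h1, ← h6]
  simp only [mul_assoc]
  rw [← mul_assoc wJ wJ, hJ.mul_self, one_mul]

theorem IsLongest.exists_mul_simple {J : Set B} {wJ w0 : W}
    (hJ : IsLongest cs J wJ) (h0 : IsLongest cs Set.univ w0) {s : B} (hs : s ∈ J) :
    ∃ t, ¬ cs.IsRightDescent (wJ * w0) t ∧
      cs.simple s * (wJ * w0) = wJ * w0 * cs.simple t := by
  obtain ⟨k, -, hk⟩ := hJ.exists_conj_simple hs
  obtain ⟨t, -, ht⟩ := h0.exists_conj_simple (Set.mem_univ k)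
  have h1 : cs.simple s * (wJ * w0) = wJ * w0 * cs.simple t := by
    rw [← ht, ← hk]
    simp only [mul_assoc]
    rw [← mul_assoc w0 w0, h0.mul_self, one_mul, ← mul_assoc wJ wJ, hJ.mul_self, one_mul]
  refine ⟨t, ?_, h1⟩
  have := hJ.not_isLeftDescent_mul h0 hs
  rwa [IsRightDescent, ← h1]

theorem conj_mem_coxPar_of_simple {J K : Set B} {d : W}
    (h : ∀ s ∈ J, ∃ t ∈ K, cs.simple s * d = d * cs.simple t) {u : W} (hu : u ∈ coxPar cs J) :
    d⁻¹ * u * d ∈ coxPar cs K := by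
  refine coxPar_induction_left cs (p := fun u => d⁻¹ * u * d ∈ coxPar cs K) (by simp) ?_ hu
  intro w _ i hi _ ih
  obtain ⟨t, ht, h⟩ := h i hi
  have : d⁻¹ * (cs.simple i * w) * d = cs.simple t * (d⁻¹ * w * d) := by
    rw [← mul_assoc, ← mul_assoc, ← mul_assoc (cs.simple t), mul_left_inj, mul_left_inj,
      eq_mul_inv_iff_mul_eq, mul_assoc, h, inv_mul_cancel_left]
  rw [this]
  exact mul_mem (simple_mem_coxPar cs ht) ih

theorem IsLongest.conj_mem_coxPar {J : Set B} {wJ w0 : W}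
    (hJ : IsLongest cs J wJ) (h0 : IsLongest cs Set.univ w0) {u : W} (hu : u ∈ coxPar cs J) :
    (wJ * w0)⁻¹ * u * (wJ * w0) ∈ coxPar cs {t | ¬ cs.IsRightDescent (wJ * w0) t} :=
  conj_mem_coxPar_of_simple (fun _ hs => hJ.exists_mul_simple h0 hs) hu

open Finset in
theorem sum_neg_one_pow_interval {ι : Type*} [Fintype ι] [DecidableEq ι] (A C : Finset ι) :
    ∑ K : Finset ι, (-1 : ℂ) ^ K.card * (if A ⊆ K ∧ K ⊆ C then 1 else 0) =
      if A = C then (-1) ^ C.card else 0 := by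
  split_ifs with h
  · subst h
    rw [sum_eq_single A (fun K _ hK => by
      rw [if_neg fun h => hK (subset_antisymm h.2 h.1), mul_zero]) (by simp)]
    simp
  · by_cases h1 : A ⊆ C
    · obtain ⟨a, ha, ha'⟩ := exists_of_ssubset (ssubset_of_ne_of_subset h h1)
      refine sum_involution (fun K _ => if a ∈ K then K.erase a else insert a K) ?_ ?_
        (fun _ _ => mem_univ _) ?_
      · intro K _
        by_cases hK : a ∈ K
        · rw [if_pos hK, ← card_erase_add_one hK, pow_succ]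
          have : (A ⊆ K ∧ K ⊆ C) ↔ (A ⊆ K.erase a ∧ K.erase a ⊆ C) := by
            rw [subset_erase, and_iff_left ha', ← insert_erase hK, insert_subset_iff,
              erase_insert (notMem_erase a K), and_iff_right ha]
          simp only [this]
          ring
        · rw [if_neg hK, card_insert_of_notMem hK, pow_succ]
          have : (A ⊆ K ∧ K ⊆ C) ↔ (A ⊆ insert a K ∧ insert a K ⊆ C) := by
            rw [insert_subset_iff, and_iff_right ha, subset_insert_iff_of_notMem ha']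
          simp only [this]
          ring
      · intro K _ _
        split_ifs with hK
        · exact erase_ne_self.2 hK
        · exact insert_ne_self.2 hK
      · intro K _
        by_cases hK : a ∈ K
        · simp [hK]
        · simp [hK]
    · exact sum_eq_zero fun K _ => by rw [if_neg fun h => h1 (h.1.trans h.2), mul_zero]

end Cfsg.Agent.Chev

namespace Cfsg.BNPair

open Cfsg.Agent.Chev Finset

variable {G : Type*} [Group G] {P : BNPair G}

theorem cellOf_mul_of_minLeft {J : Set P.S} {y p : G}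
    (hy : ∀ j ∈ J, ¬ P.cs.IsLeftDescent (P.cellOf y) j) (hp : p ∈ P.par J) :
    P.cellOf (p * y) = P.cellOf p * P.cellOf y :=
  cellOf_eq_iff.2 (mul_mem_cell_of_length_add (length_mul_of_minLeft hy (mem_par_iff.1 hp))
    (mem_cell_cellOf p) (mem_cell_cellOf y))

theorem exists_minLeft_mul (J : Set P.S) (x : G) :
    ∃ p ∈ P.par J, ∀ j ∈ J, ¬ P.cs.IsLeftDescent (P.cellOf (p * x)) j := by
  obtain ⟨p, hp, h⟩ := exists_isMinRight_mul J x⁻¹
  refine ⟨p⁻¹, inv_mem hp, fun j hj => ?_⟩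
  rw [← CoxeterSystem.isRightDescent_inv_iff, ← cellOf_inv, mul_inv_rev, inv_inv]
  exact h j hj

theorem cellOf_eq_of_supp {J : Set P.S} {g y : G} (hg : g ∈ P.par J)
    (hmin : ∀ x ∈ P.par J, ∀ I ⊆ J, x⁻¹ * g * x ∈ P.par I → J ⊆ I) {wJ w0 : P.W}
    (hJ : IsLongest P.cs J wJ) (h0 : IsLongest P.cs Set.univ w0)
    (h1 : y⁻¹ * g * y ∈ P.par {t | ¬ P.cs.IsRightDescent (P.cellOf y) t})
    (h2 : ∀ I, y⁻¹ * g * y ∈ P.par I → {t | ¬ P.cs.IsRightDescent (P.cellOf y) t} ⊆ I) :
    P.cellOf y = wJ * w0 := by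
  set K := {t | ¬ P.cs.IsRightDescent (P.cellOf y) t} with hK
  obtain ⟨p, hp, hd⟩ := exists_minLeft_mul J y
  set d := P.cellOf (p * y) with hdd
  have hy : P.cellOf y = P.cellOf p⁻¹ * d := by
    rw [← cellOf_mul_of_minLeft hd (inv_mem hp), inv_mul_cancel_left]
  have hp' := mem_par_iff.1 (inv_mem hp)
  have hl := length_mul_of_minLeft hd hp'
  have hdK : IsMinRight P.cs K d := fun k hk h => hk (by
    have := P.cs.length_mul_le (P.cellOf p⁻¹) (d * P.cs.simple k)
    rw [CoxeterSystem.IsRightDescent] at h ⊢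
    rw [hy, mul_assoc]
    omega)
  have hg' : p * g * p⁻¹ ∈ P.par J := mul_mem (mul_mem hp hg) (inv_mem hp)
  have h3 : P.cellOf (p * g * p⁻¹) * d = d * P.cellOf (y⁻¹ * g * y) := by
    rw [← cellOf_mul_of_minLeft hd hg', ← cellOf_mul_of_isMinRight hdK h1]
    congr 1
    group
  obtain ⟨h4, h5⟩ := IsMinDouble.kilmoyer ⟨hd, hdK⟩ (mem_par_iff.1 hg') _ (mem_par_iff.1 h1) h3
  have h6 := hmin p⁻¹ (inv_mem hp) _ (Set.sep_subset _ _) (by rw [inv_inv]; exact mem_par_iff.2 h4)
  have h7 := h2 _ (mem_par_iff.2 h5)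
  have h8 : ∀ u ∈ coxPar P.cs J, d⁻¹ * u * d ∈ coxPar P.cs K := fun u hu =>
    conj_mem_coxPar_of_simple (fun s hs => (h6 hs).2) hu
  have h9 : d = P.cellOf y := hdK.unique (fun k hk => hk) (by rw [hy, ← mul_assoc]; exact h8 _ hp')
  have h10 : IsLongest P.cs Set.univ (wJ * d) := by
    refine ⟨by rw [coxPar_univ]; trivial, fun t _ => ?_⟩
    have h11 := length_mul_of_minLeft hd hJ.1
    rw [CoxeterSystem.IsRightDescent]
    by_cases ht : t ∈ K
    · obtain ⟨-, s, hs, h⟩ := h7 ht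
      have h12 := length_mul_of_minLeft hd (mul_mem hJ.1 (simple_mem_coxPar P.cs hs))
      have h13 := hJ.2 s hs
      rw [CoxeterSystem.IsRightDescent] at h13
      rw [mul_assoc, ← h, ← mul_assoc]
      omega
    · have h12 : P.cs.IsRightDescent d t := by rw [h9]; exact not_not.1 ht
      have := P.cs.length_mul_le wJ (d * P.cs.simple t)
      rw [CoxeterSystem.IsRightDescent] at h12
      rw [mul_assoc]
      omega
  rw [← h9, ← h10.unique h0, ← mul_assoc, hJ.mul_self, one_mul]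

variable [Fintype G] [Fintype P.S]

open Classical in
theorem st_eq_sum (g : G) : Nat.card P.B * P.st g = ∑ y : G, ∑ K : Finset P.S, (-1 : ℂ) ^ K.card *
    (if y⁻¹ * g * y ∈ P.par K ∧ IsMinRight P.cs K (P.cellOf y) then 1 else 0) := by
  rw [sum_comm, st, stK, powerset_univ, mul_sum]
  refine sum_congr rfl fun K _ => ?_
  have h := sum_eq_sum_isMinRight (K : Set P.S) (fun x => if x⁻¹ * g * x ∈ P.par K then 1 else 0)
    fun x p hp => if_congr (by
      rw [mul_inv_rev, ← mul_assoc, (P.par K).mul_mem_cancel_right hp, mul_assoc, mul_assoc,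
        (P.par K).mul_mem_cancel_left (inv_mem hp), mul_assoc]) rfl rfl
  rw [← mul_sum, mul_left_comm, relFix, mul_div_assoc', coe_univ, par_univ]
  congr 1
  rw [div_eq_iff (natCard_subgroup_ne_zero _)]
  simp only [Subgroup.mem_top, true_and]
  rw [h, mul_comm]
  congr 1
  refine sum_congr rfl fun y _ => ?_
  by_cases h1 : IsMinRight P.cs K (P.cellOf y) <;> simp [h1]

open Classical in
theorem st_eq_card_cell {J : Finset P.S} {g : G} (hg : g ∈ P.par J)
    (hmin : ∀ x, ∀ I : Finset P.S, x⁻¹ * g * x ∈ P.par I → J.card ≤ I.card) {wJ w0 : P.W}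
    (hJ : IsLongest P.cs J wJ) (h0 : IsLongest P.cs Set.univ w0) : ∃ e : ℕ,
    Nat.card P.B * P.st g = (-1) ^ e * ∑ y : G, if y ∈ P.cell (wJ * w0) then
      (if y⁻¹ * g * y ∈ P.par {t | ¬ P.cs.IsRightDescent (wJ * w0) t} then 1 else 0) else 0 := by
  refine ⟨(univ.filter fun t => ¬ P.cs.IsRightDescent (wJ * w0) t).card, ?_⟩
  rw [st_eq_sum, mul_sum]
  refine sum_congr rfl fun y _ => ?_
  set v := y⁻¹ * g * y with hv
  set A : Finset P.S := univ.filter fun s => ∀ I, v ∈ P.par I → s ∈ I with hA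
  have hvA : v ∈ P.par A := by
    obtain ⟨I, hI, hI'⟩ := exists_min_image (univ.filter fun I : Finset P.S => v ∈ P.par I) card
      ⟨univ, by simp [par_univ]⟩
    rw [mem_filter] at hI
    refine par_mono (fun s hs => ?_) hI.2
    rw [hA, coe_filter]
    refine ⟨mem_univ _, fun I' h => ?_⟩
    have h1 : v ∈ P.par (I.filter (· ∈ I') : Finset P.S) := by
      rw [coe_filter]
      exact (par_inf (I : Set P.S) I').le ⟨hI.2, h⟩
    have h2 := eq_of_subset_of_card_le (filter_subset _ I) (hI' _ (by simpa using h1))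
    rw [← h2] at hs
    exact (mem_filter.1 hs).2
  have hvI : ∀ I : Set P.S, v ∈ P.par I ↔ (A : Set P.S) ⊆ I := fun I =>
    ⟨fun h s hs => (mem_filter.1 hs).2 I h, fun h => par_mono h hvA⟩
  set C : Finset P.S := univ.filter fun t => ¬ P.cs.IsRightDescent (P.cellOf y) t with hC
  have hC' : (C : Set P.S) = {t | ¬ P.cs.IsRightDescent (P.cellOf y) t} := by simp [hC]
  rw [sum_congr rfl (g := fun K : Finset P.S => (-1 : ℂ) ^ K.card *
    (if A ⊆ K ∧ K ⊆ C then 1 else 0)) fun K _ => by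
      congr 1
      refine if_congr (and_congr (by rw [hvI, coe_subset]) ?_) rfl rfl
      simp [IsMinRight, hC, subset_iff], sum_neg_one_pow_interval]
  by_cases hy : y ∈ P.cell (wJ * w0)
  · rw [if_pos hy, ← cellOf_eq_iff.2 hy, ← hC, ← hC', hvI, coe_subset]
    have h1 : C.card ≤ A.card := by
      refine le_trans ?_ (hmin y A hvA)
      have h2 := fun t : C => hJ.exists_simple_mul P.cs_simple_injective h0 (t := t) (by
        rw [← cellOf_eq_iff.2 hy]; exact (mem_filter.1 t.2).2)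
      choose f hf hf' using h2
      rw [← Fintype.card_coe, ← Fintype.card_coe]
      refine Fintype.card_le_of_injective (fun t => ⟨f t, hf t⟩) fun t t' h => ?_
      have h3 := hf' t
      rw [show f t = f t' from congrArg Subtype.val h, hf', mul_right_inj] at h3
      exact Subtype.ext (P.cs_simple_injective h3).symm
    by_cases h2 : A ⊆ C
    · rw [if_pos (eq_of_subset_of_card_le h2 h1), if_pos h2, mul_one]
    · rw [if_neg fun h => h2 h.subset, if_neg h2, mul_zero]
  · rw [if_neg hy, mul_zero, if_neg fun h => hy (cellOf_eq_iff.1 ?_)]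
    refine cellOf_eq_of_supp hg (fun x _ I hI hx => ?_) hJ h0 (by rw [← hC', ← h]; exact hvA)
      fun I hI => by rw [← hC', ← h]; exact (hvI I).1 hI
    have h1 := hmin x (J.filter (· ∈ I)) (by
      rw [coe_filter]
      exact par_mono (fun s hs => And.intro (hI hs) hs) hx)
    intro s hs
    rw [← eq_of_subset_of_card_le (filter_subset _ J) h1] at hs
    exact (mem_filter.1 hs).2

/-- The value of the Steinberg character at an element of order prime to `|Q|`. -/
theorem exists_st_eq {J : Finset P.S} {g : G} (hg : g ∈ P.par J)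
    (hmin : ∀ x, ∀ I : Finset P.S, x⁻¹ * g * x ∈ P.par I → J.card ≤ I.card) {wJ w0 : P.W}
    (hJ : IsLongest P.cs J wJ) (h0 : IsLongest P.cs Set.univ w0) {n : P.N} (hn : P.toW n = wJ * w0)
    {Q : Subgroup G} (hQB : Q ≤ P.B) (hQ : P.par J ≤ Subgroup.normalizer (Q : Set G))
    (hQ1 : ∀ q ∈ Q, q ∈ P.Bw n → q = 1) (hQ2 : ∀ b ∈ P.B, ∃ q ∈ Q, ∃ c ∈ P.Bw n, b = q * c)
    (hsol : Group.IsSolvable Q) (hcop : (orderOf g).Coprime (Nat.card Q)) :
    ∃ x : G, ∃ e : ℕ, P.st g =
      (-1) ^ e * Nat.card ↥(Q ⊓ Subgroup.centralizer {x⁻¹ * g * x}) := by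
  classical
  set K := {t | ¬ P.cs.IsRightDescent (wJ * w0) t} with hK
  have hnK : IsMinRight P.cs K (P.cellOf n) := by rw [cellOf_coe, hn]; exact fun k hk => hk
  have hgJ : Subgroup.zpowers g ≤ P.par J := (Subgroup.zpowers_le).2 hg
  obtain ⟨k, hk, hfix⟩ := Agent.GT.CopAct.glauberman_exists_fixed (hgJ.trans hQ)
    (by rwa [Nat.card_zpowers]) (Or.inr hsol) (Ω := G ⧸ P.par K) (ω := ((n : G) : G ⧸ P.par K))
    fun a ha => by
      obtain ⟨u, hu, h1⟩ := exists_cellOf_mul_left (hgJ ha) (n : G)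
      obtain ⟨b, hb, p, hp, h2⟩ := exists_par_mul (J := ∅) (K := K) (z := a * n) (n := n)
        (one_mem _) (hJ.conj_mem_coxPar h0 hu) (by rw [h1, cellOf_coe, hn]; group)
      rw [par_empty] at hb
      obtain ⟨q, hq, c, hc, rfl⟩ := hQ2 b hb
      refine ⟨q, hq, ?_⟩
      simp only [MulAction.Quotient.smul_mk, smul_eq_mul, h2, QuotientGroup.eq]
      have := mul_mem (inv_mem hp) (inv_mem (P.B_le_par K (mem_Bw.1 hc).2))
      simpa [mul_assoc] using this
  have hkJ : k ∈ P.par J := P.B_le_par _ (hQB hk)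
  obtain ⟨g', hg'⟩ : ∃ g', g' = k⁻¹ * g * k := ⟨_, rfl⟩
  have hg'J : g' ∈ P.par J := hg' ▸ mul_mem (mul_mem (inv_mem hkJ) hg) hkJ
  have hg'K : (n : G)⁻¹ * g' * n ∈ P.par K := by
    have := hfix g (Subgroup.mem_zpowers g)
    simp only [MulAction.Quotient.smul_mk, smul_eq_mul, QuotientGroup.eq] at this
    simpa [hg', mul_assoc] using inv_mem this
  obtain ⟨e, he⟩ := st_eq_card_cell hg'J (fun x I hx => hmin (k * x) I (by
    simpa [hg', mul_assoc] using hx)) hJ h0
  refine ⟨k, e, ?_⟩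
  have h1 : P.st g' = P.st g := hg' ▸ stK_conj _ _ (by rw [coe_univ, par_univ]; trivial)
  have h2 := sum_cell_eq n (fun y => if y⁻¹ * g' * y ∈ P.par K then 1 else 0) fun x p hp =>
    if_congr (by
      have hp := P.B_le_par K hp
      rw [mul_inv_rev, ← mul_assoc, (P.par K).mul_mem_cancel_right hp, mul_assoc, mul_assoc,
        (P.par K).mul_mem_cancel_left (inv_mem hp), mul_assoc]) rfl rfl
  have h3 : ∀ q ∈ Q, ∀ c ∈ P.Bw n, (q * c * n)⁻¹ * g' * (q * c * n) ∈ P.par K ↔
      q ∈ Subgroup.centralizer {g'} := by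
    intro q hq c hc
    have hc' := P.B_le_par K (mem_Bw.1 hc).2
    have h4 : (q * c * n)⁻¹ * g' * (q * c * n) = ((n : G)⁻¹ * c * n)⁻¹ *
        ((n : G)⁻¹ * (q⁻¹ * (g' * q * g'⁻¹)) * n) * ((n : G)⁻¹ * g' * n) * ((n : G)⁻¹ * c * n) := by
      group
    have h5 : q⁻¹ * (g' * q * g'⁻¹) ∈ Q :=
      mul_mem (inv_mem hq) ((Subgroup.mem_normalizer_iff.1 (hQ hg'J) q).1 hq)
    rw [h4, (P.par K).mul_mem_cancel_right hc', (P.par K).mul_mem_cancel_right hg'K,
      (P.par K).mul_mem_cancel_left (inv_mem hc'), Subgroup.mem_centralizer_singleton_iff]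
    constructor
    · intro h
      have h6 := (isMinRight_mul_iff hnK h).1 (by
        rwa [← mul_assoc, mul_inv_cancel_left, cellOf_mul_left (hQB h5)])
      have h7 := hQ1 _ h5 (mem_Bw.2 ⟨hQB h5, h6⟩)
      rw [inv_mul_eq_one, eq_mul_inv_iff_mul_eq] at h7
      exact h7
    · intro h
      rw [← h]
      simp
  have h4 : ∑ x : G, (if x ∈ P.B then (if (x * n)⁻¹ * g' * (x * n) ∈ P.par K then (1 : ℂ) else 0)
      else 0) = Nat.card ↥(Q ⊓ Subgroup.centralizer {g'}) * Nat.card (P.Bw n) := by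
    simp only [← ite_and]
    rw [sum_boole, ← Nat.cast_mul, ← Nat.card_prod, Nat.cast_inj, ← Fintype.card_subtype,
      ← Nat.card_eq_fintype_card]
    symm
    refine Nat.card_congr (Equiv.ofBijective (fun z => ⟨z.1 * z.2, mul_mem (hQB z.1.2.1)
      (Bw_le _ z.2.2), (h3 _ z.1.2.1 _ z.2.2).2 z.1.2.2⟩) ⟨fun z z' h => ?_, fun ⟨x, hx, hx'⟩ => ?_⟩)
    · have h5 : (z.1 : G) * z.2 = z'.1 * z'.2 := congrArg Subtype.val h
      have h6 : (z'.1 : G)⁻¹ * z.1 = z'.2 * (z.2 : G)⁻¹ := by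
        rw [inv_mul_eq_iff_eq_mul, ← mul_assoc, ← h5, mul_inv_cancel_right]
      have h7 := hQ1 _ (mul_mem (inv_mem z'.1.2.1) z.1.2.1)
        (h6 ▸ mul_mem z'.2.2 (inv_mem z.2.2))
      rw [inv_mul_eq_one] at h7
      rw [h7, mul_right_inj] at h5
      exact Prod.ext (Subtype.ext h7.symm) (Subtype.ext h5)
    · obtain ⟨q, hq, c, hc, rfl⟩ := hQ2 x hx
      exact ⟨(⟨q, hq, (h3 q hq c hc).1 hx'⟩, ⟨c, hc⟩), rfl⟩
  rw [h4, hn] at h2
  rw [h1] at he
  apply mul_left_cancel₀ (natCard_subgroup_ne_zero P.B)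
  apply mul_left_cancel₀ (natCard_subgroup_ne_zero (P.Bw n))
  rw [he, mul_left_comm, h2, ← hg']
  ring

theorem exists_min_par (g : G) : ∃ x : G, ∃ J : Finset P.S, x⁻¹ * g * x ∈ P.par J ∧
    ∀ y, ∀ I : Finset P.S, y⁻¹ * (x⁻¹ * g * x) * y ∈ P.par I → J.card ≤ I.card := by
  classical
  obtain ⟨J, hJ, hJ'⟩ := exists_min_image
    (univ.filter fun I : Finset P.S => ∃ x : G, x⁻¹ * g * x ∈ P.par I) card
      ⟨univ, by simp [par_univ]⟩
  obtain ⟨x, hx⟩ := (mem_filter.1 hJ).2
  exact ⟨x, J, hx, fun y I h => hJ' I (mem_filter.2 ⟨mem_univ _, x * y, by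
    simpa [mul_assoc] using h⟩)⟩

end Cfsg.BNPair
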