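import Mathlib
import Cfsg.Agent.Chev.C2Cent
import Cfsg.Agent.Chev.TwAux
import Cfsg.Agent.Cl.AutBase

/-!
Generation of Chevalley groups by two elements.
-/

set_option autoImplicit false

namespace Cfsg.Lie.ChevalleyDatum

open Cfsg.Agent.Chev

variable {D : ChevalleyDatum} [hG : D.Good] {K : Type*} [Field K] {M : Subgroup (GL D.Idx K)}

variable (D) in
/-- The root subgroup of `r` lies in `M`. -/
def FullR (M : Subgroup (GL D.Idx K)) (r : ℕ) : Prop := ∀ t, D.X K r t ∈ M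

theorem FullR.hE_mem {r : ℕ} (h : D.FullR M r) (h' : D.FullR M (D.neg r)) (c : K) : D.hE K r c ∈ M :=
  mul_mem (mul_mem (mul_mem (h _) (h' _)) (h _)) (mul_mem (mul_mem (h _) (h' _)) (h _))

theorem FullR.conj {r : D.Rt} (h : D.FullR M r) {n : GL D.Idx K} (hn : n ∈ D.monomialSubgroup K) (hM : n ∈ M) :
    D.FullR M (D.wOf K n r) := fun t => by
  obtain ⟨a, ha, -⟩ := D.exists_conj_X_wOf K hn r
  have := mul_mem (mul_mem hM (h (a⁻¹ * t))) (inv_mem hM)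
  rwa [ha, Units.mul_inv_cancel_left] at this

theorem fullR_of_small (hK : ∀ t : K, t = 0 ∨ t = 1 ∨ t = -1) {r : ℕ} {c : K} (hc : c ≠ 0)
    (h : D.X K r c ∈ M) : D.FullR M r := fun t => by
  rw [← div_mul_cancel₀ t hc]
  rcases hK (t / c) with e | e | e <;> rw [e]
  · rw [zero_mul, X_zero]; exact one_mem _
  · rwa [one_mul]
  · rw [neg_one_mul, X_neg]; exact inv_mem h

theorem mem_of_wordG_mem {l : List (ℕ × K)} (hn : (l.map Prod.fst).Nodup) (h : D.wordG K l ∈ M) {θ : ℕ}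
    (h' : ∀ p ∈ l, p.1 ≠ θ → D.X K p.1 p.2 ∈ M) : ∀ p ∈ l, D.X K p.1 p.2 ∈ M := by
  induction l with
  | nil => simp
  | cons q l ih =>
    rw [List.map_cons, List.nodup_cons] at hn
    rw [wordG, List.map_cons, List.prod_cons] at h
    by_cases e : q.1 = θ
    · have h1 : ∀ p ∈ l, D.X K p.1 p.2 ∈ M := fun p hp =>
        h' p (List.mem_cons_of_mem _ hp) fun e' => hn.1 (List.mem_map.2 ⟨p, hp, e'.trans e.symm⟩)
      refine List.forall_mem_cons.2 ⟨(mul_mem_cancel_right (list_prod_mem fun g hg => ?_)).1 h, h1⟩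
      obtain ⟨p, hp, rfl⟩ := List.mem_map.1 hg
      exact h1 p hp
    · have h1 := h' q List.mem_cons_self e
      exact List.forall_mem_cons.2 ⟨h1, ih hn.2 ((mul_mem_cancel_left h1).1 h)
        fun p hp => h' p (List.mem_cons_of_mem _ hp)⟩

theorem nWordS_conj_hE (w : List D.Nd) (r : D.Rt) {c : K} (hc : c ≠ 0) :
    D.nWordS K w * D.hE K r c * (D.nWordS K w)⁻¹ = D.hE K (D.wordW w r) c := by
  have := D.conj_hE K ⟨_, D.nWordS_mem K w⟩ r hc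
  rwa [toWeyl_nWordS] at this

theorem X_conj_hE (r s : D.Rt) {c : K} (hc : c ≠ 0) :
    D.X K s 1 * D.hE K r c * (D.X K s 1)⁻¹ = D.X K s (1 - c ^ D.pairing r s) * D.hE K r c := by
  rw [sub_eq_add_neg, X_add, X_neg, ← mul_one (c ^ _), ← D.hE_conj_X K r s hc]
  group

variable (D) in
/-- One step of the closure of a set of roots. -/
def GenStep (p : ℕ) (w : List D.Nd) (s : ℕ) (S : List ℕ) (c : ℕ × ℕ × ℕ × ℕ) : Prop :=
  c.2.1 < D.nroots ∧ c.2.2.1 < D.nroots ∧ c.2.2.2 < D.nroots ∧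
  ((c.1 = 0 ∧ s ∈ S ∧ c.2.2.1 ∈ S ∧ c.2.2.2 = D.actN w c.2.2.1) ∨
  (c.1 = 1 ∧ c.2.1 ∈ S ∧ D.neg c.2.1 ∈ S ∧ c.2.2.1 ∈ S ∧ ∀ i < D.rank, D.cartan i c.2.2.2 =
    D.cartan i c.2.2.1 - D.pairing c.2.1 c.2.2.1 * D.cartan i c.2.1) ∨
  (c.1 = 2 ∧ p ≠ 0 ∧ D.actN w c.2.1 = c.2.2.1 ∧ c.2.2.1 ≠ s ∧ c.2.2.1 ≠ D.neg s ∧
    (c.2.2.1 :: (D.commTerms s c.2.2.1).map Prod.fst).Nodup ∧
    (∀ x ∈ (c.2.2.1, 1, 0, 1) :: D.commTerms s c.2.2.1, x.1 ∈ S ∨ (p : ℤ) ∣ x.2.1 ∨ x.1 = c.2.2.2 ∧ c.2.1 ∈ S) ∧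
    (c.2.1 = c.2.2.2 ∨ ∃ x ∈ (c.2.2.1, 1, 0, 1) :: D.commTerms s c.2.2.1, x.1 = c.2.2.2 ∧ ¬ (p : ℤ) ∣ x.2.1)) ∨
  (c.1 = 3 ∧ p = 3 ∧ c.2.1 ∈ S ∧ D.neg c.2.1 ∈ S ∧ c.2.2.1 ∈ S ∧ D.neg c.2.2.1 ∈ S ∧
    D.actN w c.2.1 = c.2.2.1 ∧ c.2.2.2 = s ∧ D.pairing c.2.2.1 s % 2 = 1))

instance decGenStep (p : ℕ) (w : List D.Nd) (s : ℕ) (S : List ℕ) (c : ℕ × ℕ × ℕ × ℕ) :
    Decidable (D.GenStep p w s S c) := inferInstanceAs (Decidable (_ ∧ _))

theorem GenStep.sound {p : ℕ} (hp : p ≠ 0 → CharP K p ∧ ∀ t : K, t = 0 ∨ t = 1 ∨ t = -1) {w : List D.Nd}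
    {s : D.Rt} (hb : D.X K s 1 * D.nWordS K w ∈ M) {S : List ℕ} (hS : ∀ r ∈ S, D.FullR M r)
    {c : ℕ × ℕ × ℕ × ℕ} (h : D.GenStep p w s S c) : D.FullR M c.2.2.2 := by
  obtain ⟨k, β, γ, θ⟩ := c
  obtain ⟨hβ, hγ, hθ, h⟩ := h
  lift β to D.Rt using hβ
  lift γ to D.Rt using hγ
  lift θ to D.Rt using hθ
  have hn := D.nWordS_mem K w
  have hw : ∀ r : D.Rt, (D.wOf K (D.nWordS K w) r : ℕ) = D.actN w r := fun r => by
    rw [wOf_eq _ _ hn, toWeyl_nWordS, wordW_val]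
  dsimp only at h ⊢
  rcases h with ⟨-, h1, h2, h3⟩ | ⟨-, h1, h2, h3, h4⟩ | ⟨-, h0, h1, h2, h3, h4, h5, h6⟩ |
    ⟨-, rfl, h1, h2, h3, h4, h5, h6, h7⟩
  · rw [h3, ← hw]
    exact (hS _ h2).conj hn ((mul_mem_cancel_left (hS _ h1 1)).1 hb)
  · have := (hS _ h3).conj (D.nE_mem_monomial K β one_ne_zero)
      (mul_mem (mul_mem (hS _ h1 _) (hS _ h2 _)) (hS _ h1 _))
    rwa [D.wOf_nE K _ one_ne_zero, show D.refl β γ = θ from D.wt_inj (by
      rw [wt_refl]; funext i; exact (h4 i i.2).symm)] at this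
  · obtain ⟨hc, hK⟩ := hp h0
    obtain ⟨a, ha, -⟩ := D.exists_conj_X_wOf K hn β
    rw [hw, h1] at ha
    have e : D.X K s 1 * D.nWordS K w * D.X K β 1 * (D.X K s 1 * D.nWordS K w)⁻¹ = D.wordG K
        ((((γ : ℕ), (1 : ℤ), 0, 1) :: D.commTerms s γ).map fun c => (c.1, (c.2.1 : K) * a ^ c.2.2.2)) := by
      have h7 := D.X_comm K (r := s) (s := γ) (fun e => h2 (congrArg Fin.val e))
        (fun e => h3 (congrArg Fin.val e)) (-1) a
      rw [show ∀ x n y : GL D.Idx K, x * n * y * (x * n)⁻¹ = x * (n * y * n⁻¹ * x⁻¹) from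
        fun _ _ _ => by group, ha, mul_one, ← X_neg, h7, X_neg]
      simp [wordG_cons, commWord, mul_assoc]
    have h7 : ∀ x ∈ ((γ : ℕ), (1 : ℤ), 0, 1) :: D.commTerms s γ, x.1 ∈ S ∨ (p : ℤ) ∣ x.2.1 →
        D.X K x.1 ((x.2.1 : K) * a ^ x.2.2.2) ∈ M := by
      rintro x - (h | h)
      · exact hS _ h _
      · rw [(CharP.intCast_eq_zero_iff K p _).2 h, zero_mul, X_zero]; exact one_mem _
    by_cases h8 : (β : ℕ) ∈ S
    · rcases h6 with h6 | ⟨x, hx, h6, h9⟩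
      · exact hS _ (h6 ▸ h8)
      have h10 := mem_of_wordG_mem (θ := θ) (by rw [List.map_map]; exact h4)
        (e ▸ mul_mem (mul_mem hb (hS _ h8 1)) (inv_mem hb)) (fun y hy hne => by
          obtain ⟨z, hz, rfl⟩ := List.mem_map.1 hy
          exact h7 z hz ((h5 z hz).imp_right fun h => h.resolve_right fun h => hne h.1)) _
        (List.mem_map.2 ⟨x, hx, rfl⟩)
      exact fullR_of_small hK (mul_ne_zero (fun h => h9 ((CharP.intCast_eq_zero_iff K p _).1 h))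
        (pow_ne_zero _ a.ne_zero)) (h6 ▸ h10)
    · have h9 : ∀ x ∈ ((γ : ℕ), (1 : ℤ), 0, 1) :: D.commTerms s γ, x.1 ∈ S ∨ (p : ℤ) ∣ x.2.1 := fun x hx =>
        (h5 x hx).imp_right fun h => h.resolve_right fun h => h8 h.2
      rcases h6 with h6 | ⟨x, hx, h6, h10⟩
      · refine fullR_of_small hK one_ne_zero ?_
        rw [← h6, ← mul_mem_cancel_left hb, ← mul_mem_cancel_right (inv_mem hb), e]
        refine list_prod_mem fun g hg => ?_
        simp only [List.map_map, List.mem_map] at hg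
        obtain ⟨y, hy, rfl⟩ := hg
        exact h7 y hy (h9 y hy)
      · exact hS _ (h6 ▸ (h9 x hx).resolve_right h10)
  · obtain ⟨hc, hK⟩ := hp three_ne_zero
    have h8 := mul_mem (mul_mem hb ((hS _ h1).hE_mem (hS _ h2) (-1))) (inv_mem hb)
    have h9 : (-1 : K) ≠ 0 := neg_ne_zero.2 one_ne_zero
    rw [show ∀ x n y : GL D.Idx K, x * n * y * (x * n)⁻¹ = x * (n * y * n⁻¹) * x⁻¹ from fun _ _ _ => by group,
      nWordS_conj_hE w β h9, show D.wordW w β = γ from Fin.ext ((D.wordW_val w β).trans h5), X_conj_hE _ _ h9,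
      mul_mem_cancel_right ((hS _ h3).hE_mem (hS _ h4) (-1)), (Int.odd_iff.2 h7).neg_one_zpow] at h8
    rw [h6]
    refine fullR_of_small hK (fun h => ?_) h8
    exact absurd ((CharP.cast_eq_zero_iff K 3 2).1 (by rw [← h]; norm_num)) (by norm_num)

variable (D) in
/-- The check of a certificate. -/
def GenChk (p : ℕ) (w : List D.Nd) (s : ℕ) : List ℕ → List (ℕ × ℕ × ℕ × ℕ) → Prop
  | S, [] => ∀ i < D.rank, D.simple i ∈ S ∧ D.neg (D.simple i) ∈ S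
  | S, c :: l => D.GenStep p w s S c ∧ GenChk p w s (c.2.2.2 :: S) l

instance decGenChk (p : ℕ) (w : List D.Nd) (s : ℕ) : ∀ S l, Decidable (D.GenChk p w s S l)
  | _, [] => inferInstanceAs (Decidable (∀ i < D.rank, _ ∧ _))
  | S, c :: l => @instDecidableAnd _ _ _ (decGenChk p w s (c.2.2.2 :: S) l)

theorem GenChk.sound {p : ℕ} (hp : p ≠ 0 → CharP K p ∧ ∀ t : K, t = 0 ∨ t = 1 ∨ t = -1) {w : List D.Nd}
    {s : D.Rt} (hb : D.X K s 1 * D.nWordS K w ∈ M) {l : List (ℕ × ℕ × ℕ × ℕ)} {S : List ℕ}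
    (hS : ∀ r ∈ S, D.FullR M r) (h : D.GenChk p w s S l) : D.group K ≤ M := by
  induction l generalizing S with
  | nil => exact LJ_univ (D := D) (F := K) ▸ LJ_le fun j _ t => ⟨hS _ (h j j.2).1 t, hS _ (h j j.2).2 t⟩
  | cons c l ih => exact ih (List.forall_mem_cons.2 ⟨h.1.sound hp hb hS, hS⟩) h.2

theorem fullR_of_torus [Finite K] {g : Kˣ} (hg : ∀ c, c ∈ Subgroup.zpowers g) (hg2 : (g : K) ^ 2 ≠ 1)
    {t r : D.Rt} (ht : D.pairing t r ∣ 2) (ha : D.hE K t g ∈ M) {e : ℤ} (he : e ∣ 2) {y : GL D.Idx K}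
    (hy : Commute (D.hE K t g) y) (h : D.X K r (1 - g ^ e) * y ∈ M) : D.FullR M r := by
  have h0 : ∀ e : ℤ, e ∣ 2 → (g : K) ^ e ≠ 1 := by
    rintro e ⟨k, hk⟩ h
    exact hg2 (by rw [← zpow_ofNat, hk, zpow_mul, h, one_zpow])
  set c : K := (g ^ D.pairing t r - 1) * (1 - g ^ e)
  have h1 : D.X K r c ∈ M := by
    convert mul_mem (mul_mem (mul_mem ha h) (inv_mem ha)) (inv_mem h) using 1
    rw [show c = _ from sub_mul _ _ _, sub_eq_add_neg, X_add, X_neg, one_mul, ← D.hE_conj_X K t r g.ne_zero,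
      mul_assoc (D.hE K t g) (_ * _), mul_assoc (D.X K r _), ← hy.inv_left.eq]
    group
  have h2 : ∀ k : ℕ, D.X K r ((g ^ D.pairing t r) ^ k * c) ∈ M := fun k => by
    induction k with
    | zero => simpa using h1
    | succ k ih =>
      rw [pow_succ', mul_assoc, ← D.hE_conj_X K t r g.ne_zero]
      exact mul_mem (mul_mem ha ih) (inv_mem ha)
  have h3 : ∀ x : K, D.X K r (x ^ 2 * c) ∈ M := fun x => by
    by_cases hx : x = 0
    · rw [hx, zero_pow two_ne_zero, zero_mul, X_zero]; exact one_mem _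
    obtain ⟨m, hm⟩ := hg (Units.mk0 x hx)
    obtain ⟨j, hj⟩ := ht
    obtain ⟨k, hk⟩ := mem_powers_iff_mem_zpowers.2
      (show Units.mk0 x hx ^ 2 ∈ Subgroup.zpowers (g ^ D.pairing t r) from ⟨j * m, by
        rw [← hm]; dsimp only; rw [← zpow_mul, ← mul_assoc, ← hj, mul_comm, zpow_mul, zpow_ofNat]⟩)
    have := h2 k
    rwa [show ((g : K) ^ D.pairing t r) ^ k = x ^ 2 by simpa using congrArg Units.val hk] at this
  have h4 : c ≠ 0 := mul_ne_zero (sub_ne_zero.2 (h0 _ ht)) (sub_ne_zero.2 (h0 _ he).symm)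
  intro u
  obtain ⟨x, x', e⟩ := Cfsg.Agent.Cl.Aut.exists_sq_add_sq (u / c)
  rw [← div_mul_cancel₀ u h4, e, add_mul, X_add]
  exact mul_mem (h3 x) (h3 x')

omit hG in
theorem two_gen_of {a b : GL D.Idx K} (ha : a ∈ D.group K) (hb : b ∈ D.group K)
    (h : ∀ M, a ∈ M → b ∈ M → D.group K ≤ M) :
    ∃ a b : D.group K, Subgroup.closure ({a, b} : Set (D.group K)) = ⊤ := by
  refine ⟨⟨a, ha⟩, ⟨b, hb⟩, eq_top_iff.2 fun x _ => ?_⟩
  obtain ⟨y, hy, e⟩ := h ((Subgroup.closure {⟨a, ha⟩, ⟨b, hb⟩}).map (D.group K).subtype)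
    ⟨_, Subgroup.subset_closure (Set.mem_insert _ _), rfl⟩
    ⟨_, Subgroup.subset_closure (Set.mem_insert_of_mem _ rfl), rfl⟩ x.2
  rwa [← show y = x from Subtype.ext e]

theorem two_gen_small {p : ℕ} [CharP K p] (hK : ∀ t : K, t = 0 ∨ t = 1 ∨ t = -1) (w : List D.Nd) (r s : ℕ)
    (l : List (ℕ × ℕ × ℕ × ℕ)) (h : s < D.nroots ∧ D.GenChk p w s [r] l) :
    ∃ a b : D.group K, Subgroup.closure ({a, b} : Set (D.group K)) = ⊤ :=
  two_gen_of (D.X_mem_group K r 1) (mul_mem (D.X_mem_group K s 1) (SymAut.N_le_group (D.nWordS_mem K w)))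
    fun _ ha hb => GenChk.sound (s := ⟨s, h.1⟩) (fun _ => ⟨inferInstance, hK⟩) hb
      (List.forall_mem_singleton.2 (fullR_of_small hK one_ne_zero ha)) h.2

theorem two_gen_large [Fintype K] (hK : 4 ≤ Fintype.card K) (w : List D.Nd) (r s t t' : ℕ)
    (l : List (ℕ × ℕ × ℕ × ℕ)) (h : r < D.nroots ∧ s < D.nroots ∧ t < D.nroots ∧ t' < D.nroots ∧
      s ≠ r ∧ s ≠ D.neg r ∧ D.commTerms r s = [] ∧ D.actN w t' = t ∧ D.pairing t s = 0 ∧ D.pairing t r ∣ 2 ∧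
      D.pairing (D.actN w t) r ∣ 2 ∧ D.pairing (D.actN w t) s ∣ 2 ∧ D.pairing t' s ∣ 2 ∧
      D.GenChk 0 w s [r, s] l) :
    ∃ a b : D.group K, Subgroup.closure ({a, b} : Set (D.group K)) = ⊤ := by
  obtain ⟨hr, hs, ht, ht', h1, h2, h3, h4, h5, h6, h7, h8, h9, h⟩ := h
  lift r to D.Rt using hr
  lift s to D.Rt using hs
  lift t to D.Rt using ht
  lift t' to D.Rt using ht'
  obtain ⟨g, hg⟩ := IsCyclic.exists_generator (α := Kˣ)
  have hg2 : (g : K) ^ 2 ≠ 1 := fun h => by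
    have h1 := Nat.le_of_dvd two_pos (orderOf_dvd_of_pow_eq_one (Units.ext h : g ^ 2 = 1))
    rw [orderOf_eq_card_of_forall_mem_zpowers hg, Nat.card_units, Nat.card_eq_fintype_card] at h1
    omega
  have hH := fun t => D.hE_mem_diagonal K t g.ne_zero
  refine two_gen_of (SymAut.H_le_group (hH t)) (mul_mem (D.X_mem_group K r 1)
    (mul_mem (D.X_mem_group K s 1) (SymAut.N_le_group (D.nWordS_mem K w)))) fun M ha hb => ?_
  rw [← wordW_val] at h7 h8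
  have c1 : ∀ u, Commute (D.hE K t g) (D.X K s u) := fun u => by
    have := D.hE_conj_X K t s g.ne_zero u
    rwa [h5, zpow_zero, one_mul, mul_inv_eq_iff_eq_mul] at this
  have c2 : ∀ u v, D.X K s v * D.X K r u = D.X K r u * D.X K s v := fun u v => by
    simpa [commWord, h3, wordG] using D.X_comm K (r := r) (s := s) (fun e => h1 (congrArg Fin.val e))
      (fun e => h2 (congrArg Fin.val e)) u v
  have e1 : D.X K s 1 * D.nWordS K w * D.hE K t g * (D.X K s 1 * D.nWordS K w)⁻¹ =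
      D.X K s (1 - g ^ D.pairing (D.wordW w t) s) * D.hE K (D.wordW w t) g := by
    rw [← X_conj_hE _ _ g.ne_zero, ← nWordS_conj_hE w t g.ne_zero]; group
  have f1 : D.FullR M r := fullR_of_torus hg hg2 h6 ha h7 ((c1 (1 - g ^ D.pairing (D.wordW w t) s)).mul_right
    (D.diagonal_comm K (hH t) (hH (D.wordW w t)))) (by
      convert mul_mem (mul_mem hb ha) (inv_mem hb) using 1
      rw [show ∀ x b a : GL D.Idx K, x * b * a * (x * b)⁻¹ = x * (b * a * b⁻¹) * x⁻¹ from fun _ _ _ => by group, e1,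
        ← mul_assoc, ← c2, mul_assoc, ← X_conj_hE _ _ g.ne_zero, ← mul_assoc, ← mul_assoc, c2]
      group)
  have hb' := (mul_mem_cancel_left (f1 1)).1 hb
  have ha' : D.hE K t' g ∈ M := by
    rw [← mul_mem_cancel_left hb', ← mul_mem_cancel_right (inv_mem hb'),
      show ∀ x n y : GL D.Idx K, x * n * y * (x * n)⁻¹ = x * (n * y * n⁻¹) * x⁻¹ from fun _ _ _ => by group,
      nWordS_conj_hE w t' g.ne_zero, show D.wordW w t' = t from Fin.ext ((D.wordW_val w t').trans h4), ← (c1 1).eq]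
    simpa using ha
  have f2 : D.FullR M s := fullR_of_torus hg hg2 h9 ha' h8 (D.diagonal_comm K (hH t') (hH (D.wordW w t)))
    (e1 ▸ mul_mem (mul_mem hb' ha) (inv_mem hb'))
  exact GenChk.sound (fun h => absurd rfl h) hb' (by simp [f1, f2]) h

end Cfsg.Lie.ChevalleyDatum
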