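import Mathlib
import Cfsg.Agent.Chev.StData
import Cfsg.Agent.Chev.StTrans
import Cfsg.Agent.Chev.E6Tab

/-!
# The 27-dimensional representation of `E₆`

Root elements `Y r t = 1 + t D_r` in `GL₂₇`, the Steinberg relations, the invariant cubic form.
-/

set_option autoImplicit false

namespace Cfsg.Agent.Chev.E6V

open Cfsg.Lie Cfsg.Lie.ChevalleyDatum Matrix

section Mon

variable {ι : Type*} [DecidableEq ι] (F : Type*) [CommRing F]

/-- The matrix with the entry `ε a` in position `(a, σ a)`. -/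
def mon (ε : ι → ℤ) (σ : ι → ι) : Matrix ι ι F := of fun a b => if b = σ a then (ε a : F) else 0

variable {F} [Fintype ι]

theorem mon_mul (ε : ι → ℤ) (σ : ι → ι) (M : Matrix ι ι F) (a b : ι) :
    (mon F ε σ * M) a b = ε a * M (σ a) b := by
  simp [mon, mul_apply]

theorem mon_mulVec (ε : ι → ℤ) (σ : ι → ι) (v : ι → F) (a : ι) :
    (mon F ε σ *ᵥ v) a = ε a * v (σ a) := by
  simp [mon, mulVec, dotProduct]

theorem mon_mul_mon (ε ε' : ι → ℤ) (σ σ' : ι → ι) :
    mon F ε σ * mon F ε' σ' = mon F (fun a => ε a * ε' (σ a)) fun a => σ' (σ a) := by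
  ext a b
  rw [mon_mul]
  simp [mon]

omit [Fintype ι] in
theorem mon_eq_zero {ε : ι → ℤ} (h : ∀ a, ε a = 0) (σ : ι → ι) : mon F ε σ = 0 := by
  ext a b
  simp [mon, h]

end Mon

variable {F : Type*} [Field F]

/-- The value of a signed coordinate. -/
def ev (c : ℕ) (v : I → F) : F :=
  if c / 2 = 0 then 0 else (if c % 2 = 0 then 1 else -1) *
    v ⟨(c / 2 + 26) % 27, Nat.mod_lt _ (by norm_num)⟩

theorem ev_of_le {c : ℕ} (h : c ≤ 1) (v : I → F) : ev c v = 0 := if_pos (by omega)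

theorem ev_xor (c b : ℕ) (hb : b ≤ 1) (v : I → F) :
    ev (Nat.xor c b) v = (if b = 0 then 1 else -1) * ev c v := by
  have h1 : Nat.xor c b / 2 = c / 2 := by
    change (c ^^^ b) / 2 = _
    rw [Nat.xor_div_two, show b / 2 = 0 by omega, Nat.xor_zero]
  have h2 : Nat.xor c b % 2 = (c + b) % 2 := Nat.xor_mod_two_eq
  simp only [ev, h1, h2]
  split_ifs <;> first | omega | ring

theorem ev_of_eqc {c d : ℕ} (h : eqc c d = true) (v : I → F) : ev c v = ev d v := by
  simp only [eqc, Bool.or_eq_true, Bool.and_eq_true, Nat.beq_eq, Nat.ble_eq] at h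
  rcases h with rfl | h
  · rfl
  · rw [ev_of_le h.1, ev_of_le h.2]

variable (F) in
/-- The root vectors. -/
def Dm (r : Fin 72) : Matrix I I F := mon F (sg r) (src r)

theorem Dm_mulVec (r : Fin 72) (v : I → F) (a : I) :
    (Dm F r *ᵥ v) a = ev (get (row r) (a + 1)) v := by
  simp only [Dm, mon_mulVec, sg, src, ev]
  split_ifs <;> first | omega | simp

theorem ev_mulVec (r : Fin 72) (v : I → F) {c : ℕ} (hc : c < 56) :
    ev c (Dm F r *ᵥ v) = ev (comp (row r) c) v := by
  rw [comp, ev_xor _ _ (by change c % 2 ≤ 1; omega), ev]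
  change _ = (if c % 2 = 0 then 1 else -1) * ev (get (row r) (c / 2)) v
  split_ifs with h
  any_goals rw [h, (row_tab r r.2).1, ev_of_le (by omega), mul_zero]
  all_goals rw [Dm_mulVec, show (c / 2 + 26) % 27 + 1 = c / 2 by omega]

theorem Dm_mul_mulVec (r s : Fin 72) (v : I → F) (a : I) :
    ((Dm F r * Dm F s) *ᵥ v) a = ev (comp (row s) (get (row r) (a + 1))) v := by
  rw [← mulVec_mulVec, Dm_mulVec, ev_mulVec _ _ ((row_tab r r.2).2 a a.2).1]

theorem ext_mulVec {A B : Matrix I I F} (h : ∀ v a, (A *ᵥ v) a = (B *ᵥ v) a) : A = B :=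
  toLin'.injective (LinearMap.ext fun v => funext (h v))

theorem Dm_mul_self (r : Fin 72) : Dm F r * Dm F r = 0 :=
  ext_mulVec fun v a => by rw [Dm_mul_mulVec, ev_of_le ((row_tab r r.2).2 a a.2).2]; simp

variable (F) in
/-- The root elements. -/
def Y (r : Fin 72) (t : F) : GL I F :=
  ⟨1 + t • Dm F r, 1 - t • Dm F r, by simp [add_mul, mul_sub, Dm_mul_self],
    by simp [sub_mul, mul_add, Dm_mul_self]⟩

theorem coe_Y (r : Fin 72) (t : F) : (Y F r t : Matrix I I F) = 1 + t • Dm F r := rfl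

theorem Y_add (r : Fin 72) (t u : F) : Y F r (t + u) = Y F r t * Y F r u :=
  Units.ext (by simp [coe_Y, add_mul, mul_add, Dm_mul_self, add_smul, add_assoc, add_comm])

theorem Y_commute {r s : Fin 72} (h : pairChk (row r) (row s) [] = true) (t u : F) :
    Commute (Y F r t) (Y F s u) := by
  have : Dm F r * Dm F s = Dm F s * Dm F r := ext_mulVec fun v a => by
    rw [Dm_mul_mulVec, Dm_mul_mulVec]
    exact ev_of_eqc ((Chk.allLt_iff (n := 27) (p := row0 (row r) (row s))).1 h a a.2) v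
  refine Units.ext ?_
  simp only [Units.val_mul, coe_Y, add_mul, mul_add, smul_mul_assoc, mul_smul_comm, this,
    one_mul, mul_one]
  module

theorem Y_comm {r s γ : Fin 72} {N : ℤ} (hN : N = 1 ∨ N = -1)
    (h : ∀ a < 27, row1 (row r) (row s) (row γ) (if N = 1 then 0 else 1) a = true) (t u : F) :
    (Y F s u)⁻¹ * (Y F r t)⁻¹ * Y F s u * Y F r t = Y F γ (N * -t * u) := by
  simp only [Bool.and_eq_true, Chk.force_eq, row1, Nat.ble_eq] at h
  have e1 : Dm F r * Dm F γ = 0 := ext_mulVec fun v a => by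
    rw [Dm_mul_mulVec, ev_of_le (h a a.2).1.1]; simp
  have e2 : Dm F s * Dm F γ = 0 := ext_mulVec fun v a => by
    rw [Dm_mul_mulVec, ev_of_le (h a a.2).1.2]; simp
  have e3 : Dm F r * Dm F s = Dm F s * Dm F r + (N : F) • Dm F γ := ext_mulVec fun v a => by
    have h5 := (h a a.2).2
    have h6 : ev (Nat.xor (get (row γ) (a + 1)) (if N = 1 then 0 else 1)) v =
        N * ev (get (row γ) (a + 1)) v := by
      rw [ev_xor _ _ (by split_ifs <;> omega)]
      rcases hN with h | h <;> simp [h]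
    rw [add_mulVec, smul_mulVec, Pi.add_apply, Pi.smul_apply, Dm_mul_mulVec, Dm_mul_mulVec,
      Dm_mulVec, smul_eq_mul, ← h6]
    by_cases h7 : comp (row r) (get (row s) (a + 1)) ≤ 1
    · rw [Nat.ble_eq_true_of_le h7, cond_true] at h5
      rw [ev_of_eqc h5, ev_of_le h7, zero_add]
    · rw [Bool.eq_false_iff.2 (mt Nat.le_of_ble_eq_true h7), cond_false, Bool.and_eq_true,
        Nat.ble_eq] at h5
      rw [ev_of_le h5.1, ← ev_of_eqc h5.2, ev_xor _ _ le_rfl]
      simp
  rw [mul_assoc, mul_assoc, inv_mul_eq_iff_eq_mul, inv_mul_eq_iff_eq_mul]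
  refine Units.ext ?_
  simp only [Units.val_mul, coe_Y, add_mul, mul_add, smul_mul_assoc, mul_smul_comm, one_mul,
    mul_one, mul_assoc, e1, e2, e3, mul_zero, smul_zero]
  module

theorem isAB_Y : chevE6.stRoot.IsAB (Y F) where
  add := Y_add
  comm r s h1 h2 := by
    have h0 := chevE6.commTerms_eq_of_sl slE6 h1 h2
    have h3 := Chk.allIdx_array pair_tab.1 #[] (r.2.trans_eq pair_tab.2)
    rw [Chk.force_eq] at h3
    have h4 := Chk.allLt_iff.1 h3 s s.2
    rw [Chk.force_eq, Chk.look_eq, decide_eq_false (not_or.2 ⟨fun e => h1 (Fin.ext e),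
      fun e => h2 (Fin.ext (e.trans (chevE6.ng_val' r).symm))⟩), Bool.false_or] at h4
    generalize chevE6.chainEntry r s = l at h0 h4
    rcases l with _ | ⟨q, l⟩
    · exact StRoot.isComm_of_nil (chevE6.stRoot_terms_eq (by rw [h0]; rfl)) (Y_commute h4)
    · change (_ && _ && _) = true at h4
      simp only [Bool.and_eq_true, List.isEmpty_iff, decide_eq_true_eq, Chk.force_eq,
        Chk.allLt_iff] at h4
      obtain ⟨⟨rfl, hq, hN⟩, h4⟩ := h4
      exact StRoot.isComm_of_single (γ := ⟨q.1, hq⟩) (C := q.2)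
        (chevE6.stRoot_terms_eq (by rw [h0]; rfl)) (Y_comm (γ := ⟨q.1, hq⟩) hN h4)

end Cfsg.Agent.Chev.E6V
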