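import Mathlib
import Cfsg.Agent.Chev.E6Rep
import Cfsg.Prelude.Def_E6

/-!
# The cubic form on the 27-dimensional module of `E₆`
-/

set_option autoImplicit false

namespace Cfsg.Agent.Chev.E6V

open Cfsg.Lie Matrix

variable {F : Type*} [Field F]

/-- The cubic form. -/
def cub (v : I → F) : F := (tris.map fun q => (q.1 : F) * (v q.2.1 * v q.2.2.1 * v q.2.2.2)).sum

/-- The part of `cub (y + w)` of degree two in `y`. -/
def cubQ (y w : I → F) : F := (tris.map fun q => (q.1 : F) * (y q.2.1 * y q.2.2.1 * w q.2.2.2 +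
  y q.2.1 * w q.2.2.1 * y q.2.2.2 + w q.2.1 * y q.2.2.1 * y q.2.2.2)).sum

/-- The trilinear form. -/
def cubT (x y z : I → F) : F := (tris.map fun q => (q.1 : F) *
  ((x q.2.1 * y q.2.2.1 + y q.2.1 * x q.2.2.1) * z q.2.2.2 +
    (x q.2.1 * y q.2.2.2 + y q.2.1 * x q.2.2.2) * z q.2.2.1 +
    (x q.2.2.1 * y q.2.2.2 + y q.2.2.1 * x q.2.2.2) * z q.2.1)).sum

theorem cub_add_smul (x y : I → F) (t : F) :
    cub (x + t • y) = cub x + t * cubQ x y + t ^ 2 * cubQ y x + t ^ 3 * cub y := by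
  simp only [cub, cubQ, ← List.sum_map_mul_left, ← List.sum_map_add]
  congr 2; funext q; simp only [Pi.add_apply, Pi.smul_apply, smul_eq_mul]; ring

theorem cubQ_add_smul (x y w : I → F) (t : F) :
    cubQ (t • x + y) w = t ^ 2 * cubQ x w + t * cubT x w y + cubQ y w := by
  simp only [cubT, cubQ, ← List.sum_map_mul_left, ← List.sum_map_add]
  congr 2; funext q; simp only [Pi.add_apply, Pi.smul_apply, smul_eq_mul]; ring

theorem cubT_smul (x y z : I → F) (a b : F) : cubT (a • x) (b • y) z = a * b * cubT x y z := by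
  simp only [cubT, ← List.sum_map_mul_left]
  congr 2; funext q; simp only [Pi.smul_apply, smul_eq_mul]; ring

theorem cubT_swap (x y z : I → F) : cubT x y z = cubT x z y := by
  simp only [cubT]
  congr 2; funext q; ring

theorem cubT_single (s c : I) (y : I → F) :
    cubT (Pi.single s 1) (Pi.single c 1) y = k s c * y (th s c) := by
  have hh : ∀ {a b : I}, a ≠ b → (Pi.single s 1 : I → F) a * (Pi.single c 1 : I → F) b +
      (Pi.single c 1 : I → F) a * (Pi.single s 1 : I → F) b = if hit a b s c then 1 else 0 := by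
    intro a b h
    simp only [hit, Bool.or_eq_true, Bool.and_eq_true, Nat.beq_eq, Fin.val_inj, Pi.single_apply]
    split_ifs <;> simp_all
  have key : ∀ L : List (ℤ × I × I × I), (∀ q ∈ L, q ∈ tris) → (L.map fun q => (q.1 : F) *
      (((Pi.single s 1 : I → F) q.2.1 * (Pi.single c 1 : I → F) q.2.2.1 +
        (Pi.single c 1 : I → F) q.2.1 * (Pi.single s 1 : I → F) q.2.2.1) * y q.2.2.2 +
      ((Pi.single s 1 : I → F) q.2.1 * (Pi.single c 1 : I → F) q.2.2.2 +
        (Pi.single c 1 : I → F) q.2.1 * (Pi.single s 1 : I → F) q.2.2.2) * y q.2.2.1 +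
      ((Pi.single s 1 : I → F) q.2.2.1 * (Pi.single c 1 : I → F) q.2.2.2 +
        (Pi.single c 1 : I → F) q.2.2.1 * (Pi.single s 1 : I → F) q.2.2.2) * y q.2.1)).sum =
      ((tm s c L).map fun x => (x.1 : F) * y x.2).sum := by
    intro L hL
    induction L with
    | nil => rfl
    | cons q L ih =>
      obtain ⟨-, h1, h2, h3⟩ := tris_ne q (hL q List.mem_cons_self)
      rw [List.map_cons, List.sum_cons, ih fun q hq => hL q (List.mem_cons_of_mem _ hq)]
      change _ = ((cond _ (_ :: tm s c L) (cond _ (_ :: tm s c L)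
        (cond _ (_ :: tm s c L) (tm s c L)))).map _).sum
      rw [hh h1, hh h2, hh h3]
      simp only [Bool.cond_eq_ite]
      clear ih hh hL
      rw [Ne, Fin.ext_iff] at h1 h2 h3
      split_ifs <;> first
        | (simp; done)
        | (simp only [hit, Bool.or_eq_true, Bool.and_eq_true, Nat.beq_eq] at *; omega)
  rw [cubT, key _ fun _ h => h, tm_tab]
  split_ifs with h <;> simp [h]

theorem cubQ_single (m : I) (w : I → F) : cubQ (Pi.single m 1) w = 0 := by
  refine List.sum_eq_zero fun x hx => ?_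
  obtain ⟨⟨ε, a, b, d⟩, hq, rfl⟩ := List.mem_map.1 hx
  obtain ⟨-, h1, h2, h3⟩ := tris_ne _ hq
  simp only [Pi.single_apply]
  split_ifs <;> simp_all

theorem cubQ_eq_zero {m c : I} (hc : k m c ≠ 0) {z : I → F} (hz : ∀ a, k m a = 0 → z a = 0) :
    cubQ z (Pi.single c 1) = 0 := by
  refine List.sum_eq_zero fun x hx => ?_
  obtain ⟨⟨ε, a, b, d⟩, hq, rfl⟩ := List.mem_map.1 hx
  obtain ⟨-, h1, h2, h3⟩ := tris_ne _ hq
  simp only [Pi.single_apply]
  rcases tris_k m _ hq with h | h | h <;> split_ifs <;> simp_all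

theorem prod_key (w : ℕ → F) {a b c : ℕ} (ha : a < 27) (hb : b < 27) (hc : c < 27) :
    w (key a b c % 27) * w (key a b c / 27 % 27) * w (key a b c / 729) = w a * w b * w c := by
  have : ∀ x y z, x < 27 → y < 27 → key a b c = x + 27 * y + 729 * z →
      w (key a b c % 27) * w (key a b c / 27 % 27) * w (key a b c / 729) = w x * w y * w z :=
    fun x y z hx hy e => by
      rw [e, show (x + 27 * y + 729 * z) % 27 = x by omega,
        show (x + 27 * y + 729 * z) / 27 % 27 = y by omega,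
        show (x + 27 * y + 729 * z) / 729 = z by omega]
  rcases le_total a b with h1 | h1 <;> rcases le_total a c with h2 | h2 <;>
    rcases le_total b c with h3 | h3
  · rw [this a b c ha hb (by unfold key; omega)]
  · rw [this a c b ha hc (by unfold key; omega)]; ring
  · rw [this a c b ha hc (by unfold key; omega)]; ring
  · rw [this c a b hc ha (by unfold key; omega)]; ring
  · rw [this b a c hb ha (by unfold key; omega)]; ring
  · rw [this b a c hb ha (by unfold key; omega)]; ring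
  · rw [this b c a hb hc (by unfold key; omega)]; ring
  · rw [this c b a hc hb (by unfold key; omega)]; ring

theorem cubQ_Dm (r : Fin 72) (v : I → F) : cubQ v (Dm F r *ᵥ v) = 0 := by
  let w : ℕ → F := fun n => v ⟨n % 27, Nat.mod_lt _ (by norm_num)⟩
  have hw : ∀ a : I, v a = w a := fun a => congrArg v (Fin.ext (Nat.mod_eq_of_lt a.2).symm)
  let f : List ℕ → F := fun l => (l.map fun n => w (n % 27) * w (n / 27 % 27) * w (n / 729)).sum
  have h1 : ∀ (ε : ℤ) (x : ℕ) (a b : I) (P M : List ℕ), ε = 1 ∨ ε = -1 →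
      f (addm ε x a b 1 P) - f (addm ε x a b (-1) M) = ε * (v a * v b * ev x v) + (f P - f M) := by
    intro ε x a b P M hε
    have h2 := prod_key w a.2 b.2 (Nat.mod_lt (x / 2 + 26) (by norm_num))
    simp only [addm, Chk.force_eq, ev, apply_ite f, f, List.map_cons, List.sum_cons, h2, hw]
    rcases hε with rfl | rfl <;> split_ifs <;> first | omega | (push_cast; ring)
  have key : ∀ L : List (ℤ × I × I × I), (∀ q ∈ L, q ∈ tris) → (L.map fun q => (q.1 : F) *
      (v q.2.1 * v q.2.2.1 * (Dm F r *ᵥ v) q.2.2.2 + v q.2.1 * (Dm F r *ᵥ v) q.2.2.1 * v q.2.2.2 +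
        (Dm F r *ᵥ v) q.2.1 * v q.2.2.1 * v q.2.2.2)).sum =
      f (dm (row r) 1 L) - f (dm (row r) (-1) L) := by
    intro L hL
    induction L with
    | nil => simp [dm]
    | cons q L ih =>
      have hε := (tris_ne q (hL q List.mem_cons_self)).1
      rw [List.map_cons, List.sum_cons, ih fun q hq => hL q (List.mem_cons_of_mem _ hq)]
      refine Eq.trans ?_ (h1 _ _ _ _ _ _ hε).symm
      rw [h1 _ _ _ _ _ _ hε, h1 _ _ _ _ _ _ hε]
      simp only [Dm_mulVec]
      change _ = _ + (_ + (_ + (f (dm (row r) 1 L) - f (dm (row r) (-1) L))))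
      ring
  rw [cubQ, key _ fun _ h => h, sub_eq_zero]
  exact ((dm_tab r r.2).map _).sum_eq

theorem cub_Y (r : Fin 72) (t : F) (v : I → F) : cub ((Y F r t : Matrix I I F) *ᵥ v) = cub v := by
  have h : ∀ q ∈ tris, (Dm F r *ᵥ v) q.2.1 * (Dm F r *ᵥ v) q.2.2.1 = 0 ∧
      (Dm F r *ᵥ v) q.2.1 * (Dm F r *ᵥ v) q.2.2.2 = 0 ∧
      (Dm F r *ᵥ v) q.2.2.1 * (Dm F r *ᵥ v) q.2.2.2 = 0 := fun q hq => by
    simp only [Dm, mon_mulVec, mul_mul_mul_comm _ (v _), ← Int.cast_mul, tris_sg r q hq]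
    simp
  have h1 : cubQ (Dm F r *ᵥ v) v = 0 := List.sum_eq_zero fun x hx => by
    obtain ⟨q, hq, rfl⟩ := List.mem_map.1 hx
    obtain ⟨a, b, c⟩ := h q hq
    linear_combination (q.1 : F) * (v q.2.2.2 * a + v q.2.2.1 * b + v q.2.1 * c)
  have h2 : cub (Dm F r *ᵥ v) = 0 := List.sum_eq_zero fun x hx => by
    obtain ⟨q, hq, rfl⟩ := List.mem_map.1 hx
    rw [(h q hq).1, zero_mul, mul_zero]
  rw [coe_Y, add_mulVec, one_mulVec, smul_mulVec, cub_add_smul, cubQ_Dm, h1, h2]
  ring

variable (F) in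
/-- The isometry group of the cubic form. -/
def Iso : Subgroup (GL I F) := funStab F cub

theorem mem_Iso {g : GL I F} : g ∈ Iso F ↔ ∀ v, cub ((g : Matrix I I F) *ᵥ v) = cub v := Iff.rfl

theorem Y_mem (r : Fin 72) (t : F) : Y F r t ∈ Iso F := cub_Y r t

variable (hF : ∃ c : F, c ≠ 0 ∧ c ≠ 1) {g : GL I F} (hg : g ∈ Iso F)
include hF hg

theorem cubQ_mulVec (x y : I → F) :
    cubQ ((g : Matrix I I F) *ᵥ x) ((g : Matrix I I F) *ᵥ y) = cubQ x y := by
  obtain ⟨c, h0, h1⟩ := hF
  have h : ∀ t : F, _ := fun t => mem_Iso.1 hg (x + t • y)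
  simp only [mulVec_add, mulVec_smul, cub_add_smul, mem_Iso.1 hg] at h
  refine mul_left_cancel₀ (mul_ne_zero h0 (sub_ne_zero.2 h1)) ?_
  linear_combination c ^ 2 * h 1 - h c

theorem cubT_mulVec (x y z : I → F) : cubT ((g : Matrix I I F) *ᵥ x) ((g : Matrix I I F) *ᵥ y)
    ((g : Matrix I I F) *ᵥ z) = cubT x y z := by
  have h := cubQ_mulVec hF hg ((1 : F) • x + z) y
  simp only [mulVec_add, mulVec_smul, cubQ_add_smul, cubQ_mulVec hF hg] at h
  linear_combination h

end Cfsg.Agent.Chev.E6V
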