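import Mathlib
import Cfsg.Agent.Chev.E6Cubic
import Cfsg.Agent.S1054

/-!
# The isometry group of the cubic form in 27 variables is generated by the root elements
-/

set_option autoImplicit false

namespace Cfsg.Agent.Chev.E6V

open Cfsg.Lie Matrix

variable {F : Type*} [Field F]

theorem cubT_single_left (s : I) (x y : I → F) :
    cubT (Pi.single s 1) x y = ∑ c, x c * (k s c * y (th s c)) := by
  let L : (I → F) →ₗ[F] F :=
    { toFun := fun x => cubT (Pi.single s 1) x y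
      map_add' := fun a b => by
        simp only [cubT, ← List.sum_map_add]
        congr 2; funext q; simp only [Pi.add_apply]; ring
      map_smul' := fun c a => by simpa using cubT_smul (Pi.single s 1) a y 1 c }
  refine (L.pi_apply_eq_sum_univ x).trans (Finset.sum_congr rfl fun c _ => ?_)
  rw [← cubT_single, smul_eq_mul]
  exact congrArg (fun x => _ * L x) (funext fun j => by simp [Pi.single_apply, eq_comm])

theorem k_cast_ne {a b : I} (h : k a b ≠ 0) : (k a b : F) ≠ 0 := by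
  rcases ((k_tab a b).2 h).1 with h | h <;> simp [h]

theorem sg_mul_self {r : Fin 72} {a : I} (h : sg r a ≠ 0) : (sg r a : F) * sg r a = 1 := by
  rcases (rev_tab r a h).1 with h | h <;> simp [h]

theorem Y_mul_apply (r : Fin 72) (t : F) (g : GL I F) (a b : I) :
    (Y F r t * g : GL I F) a b = g a b + t * (sg r a * g (src r a) b) := by
  simp [coe_Y, add_mul, Dm, mon_mul]

theorem exists_col_ne_zero (g : GL I F) (m : I) : ∃ b, g b m ≠ 0 := by
  by_contra! h
  have := congrFun (congrFun g.inv_mul m) m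
  simp [mul_apply, h] at this

/-- `g` fixes the points `⟨e_s⟩`, `s ∈ S`. -/
def Fx (S : List I) (g : GL I F) : Prop := ∀ s ∈ S, ∀ a, a ≠ s → g a s = 0

theorem Fx.mulVec {S : List I} {g : GL I F} (h : Fx S g) {s : I} (hs : s ∈ S) :
    (g : Matrix I I F) *ᵥ Pi.single s 1 = g s s • Pi.single s 1 := by
  funext a
  by_cases e : a = s <;> simp [e, h s hs a]

theorem Fx.ne_zero {S : List I} {g : GL I F} (h : Fx S g) {s : I} (hs : s ∈ S) : g s s ≠ 0 := by
  obtain ⟨b, hb⟩ := exists_col_ne_zero g s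
  by_cases e : b = s
  · exact e ▸ hb
  · exact absurd (h s hs b e) hb

theorem Fx.Y_mul {S : List I} {g : GL I F} (h : Fx S g) {r : Fin 72}
    (hr : ∀ s ∈ S, sg r.rev s = 0) (t : F) : Fx S (Y F r t * g) := fun s hs a ha => by
  rw [Y_mul_apply, h s hs a ha]
  by_cases e : sg r a = 0
  · simp [e]
  · rw [h s hs _ fun e' => e ((rev_tab r a e).2.1.symm.trans (by rw [e', hr s hs]))]
    simp

variable (F) in
/-- The group generated by the root elements. -/
def Gen : Subgroup (GL I F) := XS (Y F) Set.univ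

theorem Y_mem_Gen (r : Fin 72) (t : F) : Y F r t ∈ Gen F := x_mem_XS (Y F) (Set.mem_univ r) t

theorem Gen_le : Gen F ≤ Iso F := XS_le fun r _ t => Y_mem r t

/-- The diagonal elements `h_r(t)`. -/
theorem exists_diag (r : Fin 72) {t : F} (ht : t ≠ 0) : ∃ h ∈ Gen F, (h : Matrix I I F) =
    diagonal fun a => if sg r a ≠ 0 then t else if sg r.rev a ≠ 0 then t⁻¹ else 1 := by
  have h1 : ∀ r, Dm F r * Dm F r.rev = diagonal fun a => if sg r a ≠ 0 then 1 else 0 := fun r => by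
    ext a b
    rw [Dm, Dm, mon_mul, diagonal_apply]
    by_cases e : sg r a = 0
    · simp [e]
    · simp [mon, e, rev_tab r a e, sg_mul_self e, eq_comm]
  have h2 : ∀ r, Dm F r * Dm F r.rev * Dm F r = Dm F r := fun r => by
    ext a b
    rw [h1, diagonal_mul]
    by_cases e : sg r a = 0 <;> simp [e, Dm, mon]
  have h3 := h2 r.rev
  have h4 := h1 r.rev
  rw [Fin.rev_rev] at h3 h4
  refine ⟨Y F r t * Y F r.rev (-t⁻¹) * Y F r t * (Y F r (-1) * Y F r.rev 1 * Y F r (-1)), ?_, ?_⟩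
  · apply_rules [mul_mem, Y_mem_Gen]
  have h5 : ∀ u : F, u ≠ 0 → (1 + u • Dm F r) * (1 + -u⁻¹ • Dm F r.rev) * (1 + u • Dm F r) =
      1 + u • Dm F r - u⁻¹ • Dm F r.rev - Dm F r * Dm F r.rev - Dm F r.rev * Dm F r := fun u hu => by
    simp only [add_mul, mul_add, smul_mul_assoc, mul_smul_comm, one_mul, mul_one, Dm_mul_self, h2]
    match_scalars <;> field_simp
    ring
  have h6 := h5 (-1) (by simp)
  rw [inv_neg, inv_one, neg_neg] at h6
  have h7 : Dm F r * (Dm F r * Dm F r.rev) = 0 := by rw [← mul_assoc, Dm_mul_self, zero_mul]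
  have h8 : Dm F r.rev * (Dm F r.rev * Dm F r) = 0 := by rw [← mul_assoc, Dm_mul_self, zero_mul]
  rw [mul_assoc] at h3
  have h9 := h2 r
  rw [mul_assoc] at h9
  trans 1 + (t - 1) • (Dm F r * Dm F r.rev) + (t⁻¹ - 1) • (Dm F r.rev * Dm F r)
  · simp only [Units.val_mul, coe_Y]
    rw [h5 t ht, h6]
    simp only [add_mul, mul_add, sub_mul, mul_sub, smul_mul_assoc, mul_smul_comm, one_mul, mul_one,
      Dm_mul_self, mul_assoc, h3, h7, h8, h9, mul_zero, smul_zero]
    module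
  · rw [h1, h4]
    ext a b
    by_cases e : a = b
    · subst e
      by_cases e1 : sg r a = 0
      · by_cases e2 : sg r.rev a = 0 <;> simp [e1, e2]
      · simp [e1, rev_tab r a e1]
    · simp [e]

variable (hF : ∃ c : F, c ≠ 0 ∧ c ≠ 1)
include hF

section

variable {S : List I} {g : GL I F} (hg : g ∈ Iso F) (h : Fx S g)
include hg

theorem white {m : I} (hm : g m m ≠ 0) (h0 : ∀ v, v ≠ m → k m v = 0 → g v m = 0) (b : I)
    (hb : b ≠ m) : g b m = 0 := by
  by_cases hk : k m b = 0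
  · exact h0 b hb hk
  obtain ⟨-, h1, h2, -⟩ := (k_tab m b).2 hk
  have h3 := cubQ_mulVec hF hg (Pi.single m 1) (((g⁻¹ : GL I F) : Matrix I I F) *ᵥ
    Pi.single (th m b) 1)
  rw [cubQ_single, mulVec_mulVec, Units.mul_inv, one_mulVec,
    ← add_sub_cancel (g m m • Pi.single m 1) (_ *ᵥ _), cubQ_add_smul, cubQ_single, cubT_single,
    cubQ_eq_zero (m := m) (h1 ▸ hk) fun a ha => by by_cases e : a = m <;> simp [e, h0 a, ha],
    h1, h2] at h3
  simpa [hm, k_cast_ne hk, hb] using h3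

include h

theorem Fx.eq_zero {m b : I} (hb : ¬Al S m b) : g b m = 0 := by
  simp only [Al, not_forall] at hb
  obtain ⟨s, hs, h1, h2⟩ := hb
  obtain ⟨-, h3, h4, -⟩ := (k_tab s b).2 h2
  have h5 := cubT_mulVec hF hg (Pi.single s 1) (Pi.single m 1) (((g⁻¹ : GL I F) : Matrix I I F) *ᵥ
    Pi.single (th s b) 1)
  rw [cubT_single, mulVec_mulVec, Units.mul_inv, one_mulVec, cubT_swap, h.mulVec hs,
    ← one_smul F (Pi.single (th s b) 1), cubT_smul, cubT_single, h1, h3, h4] at h5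
  simpa [h.ne_zero hs, k_cast_ne h2] using h5

theorem Fx.exists_ne_zero {s m : I} (hs : s ∈ S) (hm : k s m ≠ 0) :
    ∃ b, k s b ≠ 0 ∧ g b m ≠ 0 := by
  by_contra! h0
  obtain ⟨-, h3, h4, -⟩ := (k_tab s m).2 hm
  have h5 := cubT_mulVec hF hg (Pi.single s 1) (Pi.single (th s m) 1) (Pi.single m 1)
  rw [cubT_single, h.mulVec hs, ← one_smul F (_ *ᵥ Pi.single (th s m) 1), cubT_smul,
    cubT_single_left, Finset.sum_eq_zero fun c _ => ?_, h3, h4] at h5
  · simp [(k_cast_ne hm).symm] at h5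
  · by_cases e : k s c = 0
    · simp [e]
    · simp [h0 _ (((k_tab s c).2 e).2.1 ▸ e)]

theorem Fx.third {s t : I} (hs : s ∈ S) (ht : t ∈ S) (hk : k s t ≠ 0) :
    g s s * g t t * g (th s t) (th s t) = 1 := by
  have h5 := cubT_mulVec hF hg (Pi.single s 1) (Pi.single t 1) (Pi.single (th s t) 1)
  rw [cubT_single, h.mulVec hs, h.mulVec ht, cubT_smul, cubT_single] at h5
  refine mul_left_cancel₀ (k_cast_ne hk) ?_
  simp only [mulVec_single_one, col_apply, Pi.single_eq_same] at h5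
  linear_combination h5

end

omit hF in
theorem mem_Gen_of_mv {S : List I} {m b c : I} (hc : Mv S b c)
    (H : ∀ g ∈ Iso F, Fx S g → g c m ≠ 0 → g ∈ Gen F) :
    ∀ g ∈ Iso F, Fx S g → g b m ≠ 0 → g ∈ Gen F := fun g hg h hb => by
  by_cases e : g c m = 0
  · obtain ⟨h1, h2, -⟩ := rt_tab c b hc.1 hc.2.1
    refine (mul_mem_cancel_left (Y_mem_Gen (rt c b) 1)).1
      (H _ (mul_mem (Y_mem _ _) hg) (h.Y_mul hc.2.2 1) ?_)
    rw [Y_mul_apply, e, h2]
    simpa [hb] using left_ne_zero_of_mul_eq_one (sg_mul_self (F := F) h1)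
  · exact H g hg h e

theorem mem_Gen_of_clear {S : List I} {m : I} (hm : ∀ v, Al S m v → v ≠ m → k m v = 0 → Mv S m v)
    (H : ∀ g ∈ Iso F, Fx (m :: S) g → g ∈ Gen F) (l : List I) :
    ∀ g ∈ Iso F, Fx S g → g m m ≠ 0 → (∀ v ∉ l, v ≠ m → k m v = 0 → g v m = 0) → g ∈ Gen F := by
  induction l with
  | nil => exact fun g hg h h1 h2 => H g hg (List.forall_mem_cons.2
      ⟨white hF hg h1 fun v => h2 v List.not_mem_nil, h⟩)
  | cons w l ih =>
    intro g hg h h1 h2
    by_cases hw : Al S m w ∧ w ≠ m ∧ k m w = 0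
    · obtain ⟨h3, h4, h5⟩ := rt_tab w m hw.2.1 hw.2.2
      have h6 : ∀ v t, v ≠ w → k m v = 0 → (Y F (rt w m) t * g : GL I F) v m = g v m :=
        fun v t hv hk => by
          rw [Y_mul_apply, show sg (rt w m) v = 0 from by_contra fun e => h5 v hv e hk]
          simp
      refine (mul_mem_cancel_left (Y_mem_Gen (rt w m) (-(sg (rt w m) w * g w m / g m m)))).1
        (ih _ (mul_mem (Y_mem _ _) hg) (h.Y_mul (hm w hw.1 hw.2.1 hw.2.2).2.2 _)
          (by rwa [h6 m _ hw.2.1.symm (k_tab m m).1]) fun v hv hv' hk => ?_)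
      by_cases e : v = w
      · rw [e, Y_mul_apply, h4]
        field_simp
        linear_combination (-g w m) * sg_mul_self (F := F) h3
      · rw [h6 v _ e hk, h2 v (by simp [e, hv]) hv' hk]
    · refine ih g hg h h1 fun v hv hv' hk => ?_
      by_cases e : v = w
      · exact h.eq_zero hF hg fun ha => hw (e ▸ ⟨ha, hv', hk⟩)
      · exact h2 v (by simp [e, hv]) hv' hk

theorem mem_Gen_of_stp (S : List I) (m : I) (hm : Stp S m)
    (H : ∀ g ∈ Iso F, Fx (m :: S) g → g ∈ Gen F) : ∀ g ∈ Iso F, Fx S g → g ∈ Gen F := by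
  have h1 : ∀ g ∈ Iso F, Fx S g → g m m ≠ 0 → g ∈ Gen F := fun g hg h h1 =>
    mem_Gen_of_clear hF hm.1 H (List.finRange 27) g hg h h1 fun v hv => absurd (List.mem_finRange v) hv
  have h2 : ∀ b, Rch S m b → ∀ g ∈ Iso F, Fx S g → g b m ≠ 0 → g ∈ Gen F := by
    rintro b (rfl | hb | ⟨c, hb, hc⟩)
    exacts [h1, mem_Gen_of_mv hb h1, mem_Gen_of_mv hb (mem_Gen_of_mv hc h1)]
  intro g hg h
  rcases hm.2 with ⟨s, hs, t, ht, hk, rfl⟩ | ⟨s, hs, hk, h3⟩ | h3
  · exact h1 g hg h (right_ne_zero_of_mul_eq_one (h.third hF hg hs ht hk))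
  · obtain ⟨b, hb, hb'⟩ := h.exists_ne_zero hF hg hs hk
    exact h2 b (h3 b hb) g hg h hb'
  · obtain ⟨b, hb⟩ := exists_col_ne_zero g m
    exact h2 b (h3 b (by_contra fun e => hb (h.eq_zero hF hg e))) g hg h hb

theorem mem_Gen_of_stp1 (S : List I) (m : I) (hm : Stp1 S m)
    (H : ∀ g ∈ Iso F, Fx (List.finRange 27) g → (∀ s ∈ m :: S, g s s = 1) → g ∈ Gen F) :
    ∀ g ∈ Iso F, Fx (List.finRange 27) g → (∀ s ∈ S, g s s = 1) → g ∈ Gen F := by
  intro g hg h h1
  rcases hm with ⟨s, hs, t, ht, hk, rfl⟩ | ⟨r, hr, h2⟩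
  · refine H g hg h (List.forall_mem_cons.2 ⟨?_, h1⟩)
    simpa [h1 s hs, h1 t ht] using h.third hF hg (List.mem_finRange s) (List.mem_finRange t) hk
  · have h3 := h.ne_zero (List.mem_finRange m)
    obtain ⟨d, hd, e⟩ := exists_diag r (inv_ne_zero h3)
    refine (mul_mem_cancel_left hd).1 (H _ (mul_mem (Gen_le hd) hg) (fun s hs a ha => ?_)
      (List.forall_mem_cons.2 ⟨?_, fun s hs => ?_⟩))
    all_goals rw [Units.val_mul, e, diagonal_mul]
    · rw [h s hs a ha, mul_zero]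
    · simp [hr, h3]
    · simp [h2 s hs, h1 s hs]

/-- **The isometry group of the cubic form is generated by the root elements.** -/
theorem Gen_eq_Iso : Gen F = Iso F := by
  obtain ⟨S, hS, hS'⟩ := exists_steps
  obtain ⟨T, hT, hT'⟩ := exists_steps1
  have h1 := Steps.nil (Q := fun S => ∀ g ∈ Iso F, Fx (List.finRange 27) g →
    (∀ s ∈ S, g s s = 1) → g ∈ Gen F) (mem_Gen_of_stp1 hF) hT fun g _ h h1 => ?_
  · have h2 := Steps.nil (Q := fun S => ∀ g ∈ Iso F, Fx S g → g ∈ Gen F) (mem_Gen_of_stp hF) hS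
      fun g hg h => h1 g hg (fun s _ => h s (hS' s)) (by simp)
    exact le_antisymm Gen_le fun g hg => h2 g hg (by simp [Fx])
  have : g = 1 := Units.ext (by
    ext a b
    by_cases e : a = b
    · simp [e, h1 b (hT' b)]
    · simp [e, h b (List.mem_finRange b) a e])
  exact this ▸ one_mem _

omit hF in
/-- The Chevalley group `E₆(F)` is the group generated by the `Y r t` modulo its centre. -/
theorem exists_equiv_Gen : ∃ e : chevE6.group F ≃* Gen F ⧸ Subgroup.center (Gen F),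
    ∀ (r : Fin 72) t, e (chevE6.XG F r t) = QuotientGroup.mk ⟨Y F r t, Y_mem_Gen r t⟩ := by
  let z : chevE6.Rt → F → Gen F := fun r t => ⟨Y F r t, Y_mem_Gen r t⟩
  have hz : chevE6.stRoot.IsAB z := ⟨fun r t u => Subtype.ext (isAB_Y.add r t u),
    fun r s h1 h2 t u => Subtype.ext ((isAB_Y.comm r s h1 h2 t u).trans
      (map_stWord (x := z) (Gen F).subtype _).symm)⟩
  have hs : Function.Surjective (chevE6.scLift hz) := by
    rw [← MonoidHom.range_eq_top, eq_top_iff, ← Subgroup.map_le_map_iff_of_injective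
      (Gen F).subtype_injective, ← MonoidHom.range_eq_map, Subgroup.range_subtype]
    exact XS_le fun r _ t => ⟨_, ⟨_, chevE6.scLift_scGen hz r t⟩, rfl⟩
  let ψ := (QuotientGroup.mk' (Subgroup.center _)).comp (chevE6.scLift hz)
  have hker : (chevE6.scProj F).ker ≤ ψ.ker := by
    rw [ChevalleyDatum.ker_scProj]
    refine fun x hx => (QuotientGroup.eq_one_iff _).2 (Subgroup.mem_center_iff.2 fun g => ?_)
    obtain ⟨g, rfl⟩ := hs g
    rw [← map_mul, ← map_mul, Subgroup.mem_center_iff.1 hx]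
  let α := (chevE6.scProj F).liftOfSurjective (chevE6.scProj_surjective F) ⟨ψ, hker⟩
  have hα : ∀ g, α (chevE6.scProj F g) = ψ g := fun g =>
    MonoidHom.liftOfRightInverse_comp_apply _ _ _ _ _
  have h1 : ∀ (r : chevE6.Rt) t, α (chevE6.XG F r t) = QuotientGroup.mk (z r t) := fun r t => by
    rw [← ChevalleyDatum.scProj_scGen, hα]
    exact congrArg QuotientGroup.mk (chevE6.scLift_scGen hz r t)
  have := (Cfsg.Agent.S1054.result (F := F) chevE6 (by simp)).1
  refine ⟨MulEquiv.ofBijective α ⟨?_, fun y => ((QuotientGroup.mk'_surjective _).comp hs y).elim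
    fun g hg => ⟨_, (hα g).trans hg⟩⟩, h1⟩
  rw [← MonoidHom.ker_eq_bot_iff]
  refine (IsSimpleGroup.eq_bot_or_eq_top_of_normal α.ker inferInstance).resolve_right fun h => ?_
  have h2 : z (rt 0 1) 1 ∈ Subgroup.center _ := (QuotientGroup.eq_one_iff _).1
    ((h1 _ _).symm.trans (h.ge (Subgroup.mem_top _)))
  have h3 := congrArg (fun g : Gen F => g.1 0 0) (Subgroup.mem_center_iff.1 h2 (z (rt 1 0) 1))
  change (Y F (rt 1 0) 1 * Y F (rt 0 1) 1 : GL I F) 0 0 =
    (Y F (rt 0 1) 1 * Y F (rt 1 0) 1 : GL I F) 0 0 at h3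
  have h4 : sg (rt 0 1) 0 = 1 ∧ src (rt 0 1) 0 = 1 ∧ sg (rt 1 0) 0 = 0 ∧ sg (rt 1 0) 1 = 1 ∧
    src (rt 1 0) 1 = 0 := by decide +kernel
  rw [Y_mul_apply, Y_mul_apply] at h3
  simp [coe_Y, Dm, mon, h4] at h3

end Cfsg.Agent.Chev.E6V
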