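import Mathlib
import Cfsg.Agent.Chev.ReeSyl2
import Cfsg.Agent.Chev.ReeTor
import Cfsg.Agent.Chev.ReeDeg
import Cfsg.Agent.Chev.SzMult
import Cfsg.Agent.Ch.MultLift
import Cfsg.Agent.Ch.MultSL2
import Cfsg.Agent.Cl.LinearBasic

/-!
# The Schur multiplier of a small Ree group is trivial
-/

set_option autoImplicit false

open scoped commutatorElement MatrixGroups

namespace Cfsg.Agent.Chev

open Cfsg.Agent.Ch

namespace IsCE

variable {E G : Type*} [Group E] [Group G] {π : E →* G} (hp : IsCE π)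
include hp

theorem resExt' (U : Subgroup G) : IsCE (resExt π U) :=
  ⟨resExt_surjective hp.surj U, ker_resExt_le_center hp.cen U⟩

theorem quotLift {N : Subgroup G} [N.Normal] {C : Subgroup E} [C.Normal] (h : IsLift π N C) :
    IsCE (QuotientGroup.map C N π h.le_comap) := by
  constructor
  · intro g
    obtain ⟨g, rfl⟩ := QuotientGroup.mk_surjective g
    obtain ⟨e, rfl⟩ := hp.surj g
    exact ⟨e, rfl⟩
  · intro e he
    obtain ⟨e, rfl⟩ := QuotientGroup.mk_surjective e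
    have h1 : π e ∈ N := (QuotientGroup.eq_one_iff (π e)).1 he
    obtain ⟨c, hc, h2⟩ := h.exists_mem _ h1
    have h3 : (e : E ⧸ C) = (c⁻¹ * e : E) := by
      rw [QuotientGroup.mk_mul, (QuotientGroup.eq_one_iff c⁻¹).2 (inv_mem hc), one_mul]
    rw [h3]
    refine map_center_le_of_surjective (QuotientGroup.mk' C) (QuotientGroup.mk'_surjective C)
      ⟨c⁻¹ * e, hp.cen ?_, rfl⟩
    rw [MonoidHom.mem_ker, map_mul, map_inv, h2, inv_mul_cancel]

/-- Commutators of lifts of an additive family modulo a lifted normal subgroup, all scalars acting. -/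
theorem lc_mem_of_scalars {K : Type*} [Field K] {N P : Subgroup G} {C : Subgroup E} (hC : IsLift π N C)
    (hNP : N ≤ P) (hn : ∀ g ∈ P, ∀ y ∈ N, g * y * g⁻¹ ∈ N) (hP : P ≤ hp.stab C) {a : K → G}
    (ha : ∀ t, a t ∈ P) (hadd : ∀ t t', (a (t + t'))⁻¹ * (a t * a t') ∈ N)
    (hk : ∀ v : K, v ≠ 0 → ∃ k ∈ P, ∀ t, (k * a t * k⁻¹)⁻¹ * a (v * t) ∈ N) {v : K} (h0 : v ≠ 0)
    (h1 : v ≠ 1) (h2 : 1 - v + v ^ 2 ≠ 0) (t u : K) : hp.lc (a t) (a u) ∈ C := by
  have hN : (N.subgroupOf P).Normal := ⟨fun y hy g => hn g g.2 y hy⟩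
  have hCn : (C.subgroupOf (P.comap π)).Normal := ⟨fun y hy g => hp.conj_mem_of_stab (hP g.2) hy⟩
  have hL : IsLift (resExt π P) (N.subgroupOf P) (C.subgroupOf (P.comap π)) :=
    ⟨fun e he => hC.map_mem e he, fun g hg => by
      obtain ⟨e, he, h⟩ := hC.exists_mem g hg
      exact ⟨⟨e, show π e ∈ P from h ▸ g.2⟩, he, Subtype.ext h⟩,
      fun e he h => Subtype.ext (hC.eq_one e he (congrArg Subtype.val h))⟩
  have hq := (hp.resExt' P).quotLift hL
  have key := hq.lc_self_of_scalars (a := fun t => ((⟨a t, ha t⟩ : P) : P ⧸ N.subgroupOf P))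
    (fun t t' => by
      rw [← QuotientGroup.mk_mul, QuotientGroup.eq]
      exact hadd t t')
    (fun v hv => by
      obtain ⟨k, hk, h⟩ := hk v hv
      refine ⟨((⟨k, hk⟩ : P) : P ⧸ N.subgroupOf P), fun t => ?_⟩
      rw [← QuotientGroup.mk_inv, ← QuotientGroup.mk_mul, ← QuotientGroup.mk_mul, QuotientGroup.eq]
      exact h t) h0 h1 h2 t u
  have m : ∀ t, hp.sec (a t) ∈ P.comap π := fun t => by
    rw [Subgroup.mem_comap, map_sec]
    exact ha t
  have e : ∀ t, QuotientGroup.map _ _ (resExt π P) hL.le_comap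
      ((⟨_, m t⟩ : P.comap π) : _ ⧸ C.subgroupOf (P.comap π)) = ((⟨a t, ha t⟩ : P) : P ⧸ N.subgroupOf P) :=
    fun t => congrArg QuotientGroup.mk (Subtype.ext (hp.map_sec _))
  rw [← hq.cm_eq_lc' (e t) (e u)] at key
  exact (QuotientGroup.eq_one_iff (cm (⟨_, m t⟩ : P.comap π) ⟨_, m u⟩)).1 key

end IsCE

namespace ReeGroup

variable {K : Type*} [Field K] {Γ : Type*} [Group Γ] (R : ReeGroup K Γ) [Fintype K]
  (hq : 9 < Fintype.card K)

include R hq in
theorem not_additive_inv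
    (h : ∀ x y : K, x ≠ 0 → y ≠ 0 → x + y ≠ 0 →
      ((x + y) ^ 2 * R.φ (x + y))⁻¹ = (x ^ 2 * R.φ x)⁻¹ + (y ^ 2 * R.φ y)⁻¹) : False := by
  classical
  set F : K → K := fun x => (x ^ 2 * R.φ x)⁻¹ with hF
  have hneg : ∀ x, F (-x) = -F x := fun x => by simp [hF, inv_neg]
  have hFx : ∀ x, x ≠ 0 → F x * (x ^ 2 * R.φ x) = 1 := fun x hx =>
    inv_mul_cancel₀ (mul_ne_zero (pow_ne_zero _ hx) (R.φ_ne_zero hx))
  have h1 : F 1 = 1 := by simp [hF]
  have key : ∀ x, x ≠ 0 → x + 1 ≠ 0 → x + -1 ≠ 0 →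
      2 * F x * x + F x * R.φ x + x ^ 2 + 2 * x * R.φ x = -1 := by
    intro x hx hx1 hx2
    have a1 : F (x + 1) = F x + F 1 := h x 1 hx one_ne_zero hx1
    have a2 : F (x + -1) = F x + F (-1) := h x (-1) hx (by simp) hx2
    have b0 := hFx x hx
    have b1 := hFx _ hx1
    have b2 := hFx _ hx2
    rw [a1, h1, map_add, map_one] at b1
    rw [a2, hneg, h1, map_add, map_neg, map_one] at b2
    have := R.two_ne_zero'
    refine mul_left_cancel₀ this ?_
    linear_combination b1 + b2 - 2 * b0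
  obtain ⟨x, -, hx⟩ := Finset.exists_mem_notMem_of_card_lt_card (t := Finset.univ)
    (s := ({0, 1, -1} : Finset K)) (lt_of_le_of_lt Finset.card_le_three (by simp; omega))
  obtain ⟨z, -, hz⟩ := Finset.exists_mem_notMem_of_card_lt_card (t := Finset.univ)
    (s := ({0, 1, -1} ∪ {x, x + 1, x - 1} ∪ {-x, -x + 1, -x - 1} : Finset K))
    (lt_of_le_of_lt ((Finset.card_union_le _ _).trans (add_le_add ((Finset.card_union_le _ _).trans
      (add_le_add Finset.card_le_three Finset.card_le_three)) Finset.card_le_three)) (by simpa using hq))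
  simp only [Finset.mem_union, Finset.mem_insert, Finset.mem_singleton, not_or] at hx hz
  obtain ⟨x0, x1, x2⟩ := hx
  obtain ⟨⟨⟨z0, z1, z2⟩, z3, z4, z5⟩, z6, z7, z8⟩ := hz
  have n1 : x + z ≠ 0 := fun h => z6 (by linear_combination h)
  have n2 : x + -z ≠ 0 := fun h => z3 (by linear_combination -h)
  have k1 := key x x0 (fun h => x2 (by linear_combination h)) fun h => x1 (by linear_combination h)
  have k2 := key z z0 (fun h => z2 (by linear_combination h)) fun h => z1 (by linear_combination h)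
  have k3 := key (x + z) n1 (fun h => z8 (by linear_combination h))
    fun h => z7 (by linear_combination h)
  have k4 := key (x + -z) n2 (fun h => z4 (by linear_combination -h))
    fun h => z5 (by linear_combination -h)
  have a1 : F (x + z) = F x + F z := h x z x0 z0 n1
  have a2 : F (x + -z) = F x + F (-z) := h x (-z) x0 (neg_ne_zero.2 z0) n2
  rw [a1, map_add] at k3
  rw [a2, hneg, map_add, map_neg] at k4
  exact R.two_ne_zero' (by linear_combination 2 * k1 + 2 * k2 - k3 - k4)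

/-- The derived subgroup of the unipotent subgroup. -/
def W : Subgroup Γ where
  carrier := {g | ∃ u v, g = R.x 0 u v}
  one_mem' := ⟨0, 0, R.x_zero.symm⟩
  mul_mem' := by
    rintro _ _ ⟨u, v, rfl⟩ ⟨u', v', rfl⟩
    exact ⟨_, _, R.x_uv_mul ..⟩
  inv_mem' := by
    rintro _ ⟨u, v, rfl⟩
    exact ⟨_, _, by rw [x_inv, neg_zero]⟩

omit [Fintype K] in
theorem x_mem_W {t : K} (ht : t = 0) (u v : K) : R.x t u v ∈ R.W := ⟨u, v, by rw [ht]⟩

omit [Fintype K] in
theorem x_split (t u v : K) : R.x t u v = R.x t 0 0 * R.x 0 u v := by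
  rw [x_mul]
  exact R.x_congr (by ring) (by simp) (by simp)

omit [Fintype K] in
theorem x_uv_split (u v : K) : R.x 0 u v = R.x 0 u 0 * R.x 0 0 v := by
  rw [x_uv_mul, add_zero, zero_add]

omit [Fintype K] in
theorem commute_x_v (t u v w : K) : Commute (R.x t u v) (R.x 0 0 w) := by
  rw [Commute, SemiconjBy, x_mul, x_mul]
  exact R.x_congr (by ring) (by simp) (by simp; ring)

omit [Fintype K] in
theorem commute_uv (u v u' v' : K) : Commute (R.x 0 u v) (R.x 0 u' v') := by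
  rw [Commute, SemiconjBy, x_uv_mul, x_uv_mul, add_comm, add_comm v]

omit [Fintype K] in
theorem x_v_add (v v' : K) : R.x 0 0 (v + v') = R.x 0 0 v * R.x 0 0 v' := by
  rw [x_uv_mul, add_zero]

omit [Fintype K] in
theorem a_conj_x (t u v : K) : R.a * R.x t u v * R.a⁻¹ = R.x (-t) u (-v) := by
  rw [a_x, mul_inv_cancel_right]

omit [Fintype K] in
theorem cm_x_u (t u : K) : cm (R.x t 0 0) (R.x 0 u 0) = R.x 0 0 (t * u) := by
  rw [cm, mul_assoc, mul_assoc, inv_mul_eq_iff_eq_mul, inv_mul_eq_iff_eq_mul, x_mul, x_mul, x_mul]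
  exact R.x_congr (by ring) (by simp) (by simp)

variable {E : Type*} [Group E] {π : E →* Γ} (hp : IsCE π)

include hq hp in
theorem exists_scalar : ∃ v : K, v ≠ 0 ∧ v ≠ 1 ∧ 1 - v + v ^ 2 ≠ 0 :=
  exists_ne_root_six (by rw [Nat.card_eq_fintype_card]; omega)

include hq in
theorem lc_v_v (v v' : K) : hp.lc (R.x 0 0 v) (R.x 0 0 v') = 1 := by
  obtain ⟨c, h0, h1, h2⟩ := exists_scalar hq hp
  refine hp.lc_self_of_scalars (a := fun v => R.x 0 0 v) R.x_v_add (fun b hb => ?_) h0 h1 h2 v v'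
  obtain ⟨c, hc⟩ := R.exists_sq_mul_φ_eq hb
  exact ⟨R.h c, fun t => by rw [h_x_h, hc, mul_zero, mul_zero]⟩

omit [Fintype K] in
theorem lc_u_v (u v : K) : hp.lc (R.x 0 u 0) (R.x 0 0 v) = 1 :=
  hp.lc_of_sep (a := fun v => R.x 0 0 v) R.x_v_add (fun _ => R.commute_x_v ..) (k := R.a) (d := -1)
    (fun h => R.two_ne_zero' (by linear_combination -h))
    (fun t => by rw [a_conj_x, neg_zero, neg_one_mul]) (by rw [a_conj_x, neg_zero]) v

open scoped IsMulCommutative in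
include hq in
theorem lc_u_u (u u' : K) : hp.lc (R.x 0 u 0) (R.x 0 u' 0) = 1 := by
  let ω : K → K → Subgroup.center E := fun u u' =>
    ⟨hp.lc (R.x 0 u 0) (R.x 0 u' 0), hp.cen (hp.map_lc_of_commute (R.commute_uv ..))⟩
  refine congrArg Subtype.val (biadd_eq_one_of_sq (ω := ω) (by rw [Nat.card_eq_fintype_card]; omega)
    (by rw [Nat.card_eq_fintype_card]; omega) (fun t t' u => Subtype.ext ?_)
    (fun t u u' => Subtype.ext ?_) (Subtype.ext (hp.lc_self _)) (fun v hv t u => Subtype.ext ?_) u u')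
  · change hp.lc (R.x 0 (t + t') 0) _ = hp.lc _ _ * hp.lc _ _
    rw [← x_u_mul, hp.lc_mul_left (R.commute_uv ..)]
  · change hp.lc _ (R.x 0 (u + u') 0) = hp.lc _ _ * hp.lc _ _
    rw [← x_u_mul, hp.lc_mul_right (R.commute_uv ..)]
  · have h : ∀ s, R.h (R.tw (Units.mk0 v hv)) * R.x 0 s 0 * (R.h (R.tw (Units.mk0 v hv)))⁻¹ =
        R.x 0 (v ^ 2 * s) 0 := fun s => by
      have h1 : (R.tw (Units.mk0 v hv) : K) * v = R.φ v := R.tw_mul _
      have h2 := congrArg R.φ h1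
      rw [map_mul, φφ] at h2
      rw [h_x_h]
      refine R.x_congr (by ring) ?_ (by ring)
      congr 1
      refine mul_right_cancel₀ hv ?_
      linear_combination R.φ (R.tw (Units.mk0 v hv)) * h1 + h2
    change hp.lc (R.x 0 (v ^ 2 * t) 0) (R.x 0 (v ^ 2 * u) 0) = hp.lc _ _
    rw [← h, ← h, hp.lc_conj (R.commute_uv ..)]

include hq in
theorem lc_W_v (u v w : K) : hp.lc (R.x 0 u v) (R.x 0 0 w) = 1 := by
  rw [x_uv_split, hp.lc_mul_left (R.commute_uv ..), lc_u_v, lc_v_v R hq, one_mul]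

include hq in
theorem lc_W_W (u v u' v' : K) : hp.lc (R.x 0 u v) (R.x 0 u' v') = 1 := by
  rw [R.x_uv_split u' v', hp.lc_mul_right (R.commute_uv ..), lc_W_v R hq, mul_one, x_uv_split,
    hp.lc_mul_left (R.commute_uv ..), lc_u_u R hq, hp.lc_symm (R.lc_u_v hp _ _), one_mul]

include hq in
theorem lc_U_v (t u v w : K) : hp.lc (R.x t u v) (R.x 0 0 w) = 1 := by
  have h1 : ∀ t u v w, hp.lc (R.x t u v) (R.x 0 0 w) = hp.lc (R.x t 0 0) (R.x 0 0 w) := fun t u v w => by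
    rw [x_split, hp.lc_mul_left (R.commute_x_v ..), lc_W_v R hq, mul_one]
  rw [h1]
  by_contra hne
  refine R.not_additive_inv hq fun x y hx hy hxy => Sz.biadd_inv
    (fun t w => hp.lc (R.x t 0 0) (R.x 0 0 w)) (fun c => c ^ 2 * R.φ c) (fun a a' b => ?_)
    (fun a b b' => ?_) (fun k hk => mul_ne_zero (pow_ne_zero _ hk) (R.φ_ne_zero hk))
    (fun k a b hk => ?_) hne hx hy hxy
  · rw [← hp.lc_mul_left (R.commute_x_v ..), x_mul]
    exact (h1 ..).symm
  · rw [← hp.lc_mul_right (R.commute_x_v ..), x_v_add]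
  · rw [← hp.lc_conj (R.commute_x_v a 0 0 b) (R.h (Units.mk0 k hk)), h_x_h, h_x_h]
    simp

include hq in
theorem exists_lift_W (h2 : ∀ z, π z = 1 → z ^ 2 = 1 → z = 1) :
    ∃ C, IsLift π R.W C ∧ R.B ≤ hp.stab C := by
  obtain ⟨c, h0, h1, hc⟩ := exists_scalar hq hp
  have hd : (Units.mk0 c h0 : K) * R.φ (Units.mk0 c h0) ≠ 1 := fun h => by
    rcases sq_eq_one_iff.1 (R.sq_eq_one_of_mul_φ h) with h | h
    · exact h1 h
    · exact hc (by rw [show c = -1 from h]; linear_combination R.three)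
  obtain ⟨y, y1, y2, y3⟩ := hp.exists_lift_of_sep (a := fun u => R.x 0 u 0)
    (fun t t' => (R.x_u_mul t t').symm) (R.lc_u_u hq hp) (k := R.h (Units.mk0 c h0)) hd
    (fun t => by rw [h_x_h, mul_zero, mul_zero])
  obtain ⟨z, z1, z2, z3⟩ := hp.exists_lift_of_sep (a := fun v => R.x 0 0 v) R.x_v_add
    (R.lc_v_v hq hp) (k := R.a) (d := -1) (fun h => R.two_ne_zero' (by linear_combination -h))
    (fun t => by rw [a_conj_x, neg_zero, neg_one_mul])
  have z0 : z 0 = 1 := by simpa using z2 0 0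
  have cz : ∀ e t u v w, π e = R.x t u v → Commute e (z w) := fun e t u v w he =>
    hp.commute_of_lc' he (z1 w) (R.lc_U_v hq hp ..)
  obtain ⟨C, hC, hm⟩ := isLift_range (π := π) (A := K × K) (x := fun p => R.x 0 p.1 p.2)
    (y := fun p => y p.1 * z p.2) (N := R.W) (fun p p' => by
      rw [Prod.fst_add, Prod.snd_add, y2, z2, mul_assoc, mul_assoc, ← mul_assoc (z p.2),
        ← (cz _ _ _ _ p.2 (y1 p'.1)).eq, mul_assoc])
    (fun p => by rw [map_mul, y1, z1, ← x_uv_split])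
    (fun p h => Prod.ext (R.x_eq_one_iff.1 h).2.1 (R.x_eq_one_iff.1 h).2.2)
    (fun g => ⟨fun ⟨u, v, h⟩ => ⟨(u, v), h⟩, fun ⟨p, h⟩ => ⟨_, _, h⟩⟩)
  have hmem : ∀ g ∈ C, ∃ u v, g = y u * z v := fun g hg => by
    obtain ⟨u, v, h⟩ := hC.map_mem g hg
    exact ⟨u, v, hC.eq_of_map_eq hg (hm (u, v)) (by rw [h, map_mul, y1, z1, ← x_uv_split])⟩
  have yh : ∀ e d, π e = R.h d → ∀ u, e * y u * e⁻¹ = y (d * R.φ d * u) := fun e d he =>
    y3 e _ (he ▸ R.h_comm _ _) fun t => by rw [he, h_x_h, mul_zero, mul_zero]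
  have zh : ∀ e d, π e = R.h d → ∀ u, e * z u * e⁻¹ = z (d ^ 2 * R.φ d * u) := fun e d he =>
    z3 e _ (he ▸ R.h_comm _ _) fun t => by rw [he, h_x_h, mul_zero, mul_zero]
  have cy : ∀ e t u, π e = R.x t 0 0 → cm e (y u) = z (t * u) := fun e t u he => by
    obtain ⟨a, ha⟩ := hp.surj R.a
    have e1 : π (cm e (y u) * (z (t * u))⁻¹) = 1 := by
      rw [map_mul, map_inv, map_cm, he, y1, z1, cm_x_u, mul_inv_cancel]
    set w := cm e (y u) * (z (t * u))⁻¹ with hw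
    have e2 : cm e (y u) = w * z (t * u) := by rw [hw, inv_mul_cancel_right]
    have e3 : cm (a * e * a⁻¹) (y u) = w * z (-(t * u)) := by
      have h := conj_cm a e (y u)
      rw [yh a (-1) ha, e2, show a * (w * z (t * u)) * a⁻¹ = a * w * a⁻¹ * (a * z (t * u) * a⁻¹) by group,
        hp.conj_eq e1, zh a (-1) ha] at h
      simpa using h.symm
    have e4 : π (a * e * a⁻¹) = R.x (-t) 0 0 := by
      rw [map_mul, map_mul, map_inv, ha, he, a_conj_x, neg_zero]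
    have e5 : cm (e * (a * e * a⁻¹)) (y u) = 1 := by
      rw [hp.cm_eq_lc, map_mul, e4, he, y1, x_mul, add_neg_cancel, lc_W_W R hq]
    rw [cm_mul_left, e2, e3, mul_assoc _ (w * _), mul_assoc w, ← (cz _ _ _ _ _ e4).eq,
      (hp.commute e1 _).left_comm, inv_mul_cancel_left, mul_assoc, ← (hp.commute e1 _).left_comm, ← z2,
      add_neg_cancel, z0, mul_one] at e5
    rw [e2, h2 w e1 (by rw [sq, e5]), one_mul]
  refine ⟨C, hC, hp.mem_stab_of ?_⟩
  rintro e ⟨t, u, v, d, he⟩ g hg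
  obtain ⟨e₁, h₁⟩ := hp.surj (R.x t 0 0)
  obtain ⟨e₂, h₂⟩ := hp.surj (R.x 0 u v)
  have h₃ : π ((e₁ * e₂)⁻¹ * e) = R.h d := by
    rw [map_mul, map_inv, map_mul, h₁, h₂, he, ← x_split, inv_mul_cancel_left]
  set e₃ := (e₁ * e₂)⁻¹ * e with he₃
  have : e * g * e⁻¹ = e₁ * (e₂ * (e₃ * g * e₃⁻¹) * e₂⁻¹) * e₁⁻¹ := by
    rw [he₃]
    group
  rw [this]
  have k₃ : e₃ * g * e₃⁻¹ ∈ C := by
    obtain ⟨u, v, rfl⟩ := hmem g hg
    rw [show e₃ * (y u * z v) * e₃⁻¹ = e₃ * y u * e₃⁻¹ * (e₃ * z v * e₃⁻¹) by group, yh _ _ h₃, zh _ _ h₃]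
    exact hm (_, _)
  have k₂ : ∀ g ∈ C, e₂ * g * e₂⁻¹ = g := fun g hg => by
    obtain ⟨u, v, h⟩ := hC.map_mem g hg
    rw [(hp.commute_of_lc' h₂ h (R.lc_W_W hq hp ..)).eq, mul_inv_cancel_right]
  rw [k₂ _ k₃]
  obtain ⟨u, v, h⟩ := hmem _ k₃
  have k₀ : e₁ * y u * e₁⁻¹ = y u * z (t * u) := by
    have k₁ := cy e₁ t u h₁
    rw [cm, mul_assoc, mul_assoc, inv_mul_eq_iff_eq_mul, inv_mul_eq_iff_eq_mul] at k₁
    rw [k₁, mul_assoc, (cz _ _ _ _ (t * u) h₁).eq, mul_inv_cancel_right]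
  rw [h, show e₁ * (y u * z v) * e₁⁻¹ = e₁ * y u * e₁⁻¹ * (e₁ * z v * e₁⁻¹) by group, k₀,
    (cz _ _ _ _ v h₁).eq, mul_inv_cancel_right, mul_assoc, ← z2]
  exact hm (_, _)

include hq hp in
theorem eq_one_of_mem_commutator_U (h2 : ∀ z, π z = 1 → z ^ 2 = 1 → z = 1) {z : E}
    (hz : z ∈ ⁅R.U.comap π, R.U.comap π⁆) (h1 : π z = 1) : z = 1 := by
  obtain ⟨C, hC, hB⟩ := R.exists_lift_W hq hp h2
  obtain ⟨c, h0, hc1, hc⟩ := exists_scalar hq hp
  have hWU : R.W ≤ R.U := fun _ ⟨u, v, h⟩ => ⟨0, u, v, h⟩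
  have key := hp.lc_mem_of_scalars hC (hWU.trans R.U_le_B) (by
      rintro _ ⟨t, u, v, d, rfl⟩ _ ⟨u', v', rfl⟩
      rw [show R.x t u v * R.h d * R.x 0 u' v' * (R.x t u v * R.h d)⁻¹ =
        R.x t u v * (R.h d * R.x 0 u' v' * (R.h d)⁻¹) * (R.x t u v)⁻¹ by group, h_x_h, x_inv, x_mul, x_mul]
      exact R.x_mem_W (by ring) ..) hB (a := fun t => R.x t 0 0) (fun t => R.x_mem_B ..)
    (fun t t' => by
      rw [x_inv, x_mul, x_mul]
      exact R.x_mem_W (by ring) ..)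
    (fun v hv => ⟨R.h (Units.mk0 v hv), R.h_mem_B _, fun t => by
      rw [h_x_h, x_inv, x_mul]
      exact R.x_mem_W (by simp) ..⟩) h0 hc1 hc
  refine hC.eq_one z (Subgroup.commutator_le.2 (fun a ha b hb => ?_) hz) h1
  have hU : ∀ e, π e ∈ R.U → ∃ t, ∃ c ∈ C, π e = R.x t 0 0 * π c := fun e ⟨t, u, v, h⟩ => by
    obtain ⟨c, hc, h'⟩ := hC.exists_mem _ (R.x_mem_W rfl u v)
    exact ⟨t, c, hc, by rw [h, h', ← x_split]⟩
  obtain ⟨t, c, hc, ha'⟩ := hU a⁻¹ (by simpa using ha)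
  obtain ⟨t', c', hc', hb'⟩ := hU b⁻¹ (by simpa using hb)
  have hs : ∀ t, π (hp.sec (R.x t 0 0)) ∈ hp.stab C := fun t => by
    rw [hp.map_sec]
    exact hB (R.x_mem_B ..)
  have : ⁅a, b⁆ = cm (hp.sec (R.x t 0 0) * c) (hp.sec (R.x t' 0 0) * c') := by
    rw [← hp.cm_congr (a := a⁻¹) (b := b⁻¹) (by rw [ha', map_mul, hp.map_sec])
      (by rw [hb', map_mul, hp.map_sec]), cm, inv_inv, inv_inv, commutatorElement_def]
  have k := key t t'
  rw [IsCE.lc] at k
  set s := hp.sec (R.x t 0 0)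
  set s' := hp.sec (R.x t' 0 0)
  have k₁ := hp.conj_mem_of_stab (e := s⁻¹) (by rw [map_inv]; exact inv_mem (hs t)) (inv_mem hc')
  have k₂ := hp.conj_mem_of_stab (e := s'⁻¹) (by rw [map_inv]; exact inv_mem (hs t')) hc
  rw [this, show cm (s * c) (s' * c') = c⁻¹ * (s⁻¹ * c'⁻¹ * s⁻¹⁻¹) * cm s s' * (s'⁻¹ * c * s'⁻¹⁻¹) * c' by
    simp only [cm]; group]
  exact mul_mem (mul_mem (mul_mem (mul_mem (inv_mem hc) k₁) k) k₂) hc'

include hq in
theorem lc_a {g : Γ} (hg : g ∈ Subgroup.centralizer {R.a}) : hp.lc R.a g = 1 := by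
  have key : ∀ l, hp.lc R.a (R.ψ l) = 1 := fun l => by
    have h : commutator SL(2, K) ≤ (hp.lcSub R.a).comap R.ψ := Subgroup.commutator_le.2 fun a _ b _ => by
      rw [Subgroup.mem_comap, hp.mem_lcSub, show ⁅a, b⁆ = cm a⁻¹ b⁻¹ by
        rw [cm, inv_inv, inv_inv, commutatorElement_def], map_cm]
      exact hp.lc_cm (R.a_ψ _) (R.a_ψ _)
    rw [Cl.sl_commutator_eq_top (Or.inr (exists_sq_ne_one_of_card
      (by rw [Nat.card_eq_fintype_card]; omega)))] at h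
    exact h (Subgroup.mem_top l)
  obtain ⟨l, rfl | rfl⟩ := R.exists_ψ_of_mem_centralizer_a hg
  · exact key l
  · rw [hp.lc_mul_right (Commute.refl _), hp.lc_self, key, one_mul]

include R hq in
theorem lc_of_isPGroup_two {S : Subgroup Γ} (hS : IsPGroup 2 S) {a b : Γ} (ha : a ∈ S) (hb : b ∈ S) :
    hp.lc a b = 1 := by
  by_cases h1 : a = 1
  · rw [h1, hp.lc_one_left]
  obtain ⟨g, rfl⟩ := isConj_iff.1 (R.isConj_a (R.mul_self_eq_one_of_isPGroup hS ha) h1)
  have h := R.comm_of_isPGroup_two hS ha hb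
  have := hp.lc_conj_eq_one (R.lc_a hq hp (g := g⁻¹ * b * g) (R.mem_centralizer_a.2 ?_)) g
  · simpa [mul_assoc] using this
  · rw [← mul_left_inj g⁻¹, ← mul_right_inj g]
    simpa [mul_assoc] using h.symm

include R hq in
theorem multiplier_one : HasCyclicSchurMultiplier Γ 1 := by
  have := R.finite
  refine hasCyclicSchurMultiplier_one_of_prime fun p hp E _ _ σ hσ h => ?_
  have hce : IsCE σ := ⟨hσ.1, hσ.2.1⟩
  have hne : ∀ U : Subgroup Γ, ¬ p ∣ U.index →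
      (∀ z ∈ ⁅U.comap σ, U.comap σ⁆, σ z = 1 → z = 1) → False := fun U hU hz => by
    have h1 := ker_le_commutator_comap_of_coprime hσ U (h ▸ hp.coprime_iff_not_dvd.2 hU)
    have h2 : σ.ker = ⊥ := eq_bot_iff.2 fun z h => hz z (h1 h) h
    rw [h2, Subgroup.card_bot] at h
    exact hp.one_lt.ne h
  have := Fact.mk hp
  obtain ⟨P⟩ : Nonempty (Sylow p Γ) := inferInstance
  by_cases h3 : 3 < p
  · exact not_dvd_card_mult_of_isCyclic_sylow P (R.isCyclic_of_isPGroup hp h3 P.isPGroup')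
      ((prime_dvd_card_mult_iff hp).2 ⟨E, _, ‹_›, σ, hσ, h⟩)
  have h2 := hp.two_le
  obtain rfl | rfl : p = 2 ∨ p = 3 := by omega
  · refine hne P P.not_dvd_index fun z hz _ => ?_
    refine Subgroup.mem_bot.1 (Subgroup.commutator_le.2 (fun a ha b hb => ?_) hz)
    exact commutatorElement_eq_one_iff_commute.2
      (hce.commute_of_lc (R.lc_of_isPGroup_two hq hce P.isPGroup' ha hb))
  · exact hne R.U R.not_three_dvd_index_U fun z hz h1 => R.eq_one_of_mem_commutator_U hq hce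
      (eq_one_of_pow_of_card_ker h (by norm_num)) hz h1

end ReeGroup

end Cfsg.Agent.Chev
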