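import Mathlib

/-!
# Arithmetic for Shaw's theorem on Suzuki 2-groups

Congruences between sums of powers of two modulo `m`, where `m d = 2 ^ n - 1` and `d ∣ n`.
-/

set_option autoImplicit false

namespace Cfsg.Agent.Chev.Sh

/-- Five residues leave a gap. -/
theorem exists_shift {n g : ℕ} (hg : 5 * g < n) (e : Fin 5 → ℕ) : ∃ s, ∀ i, (e i + s) % n + g < n := by
  by_contra! h
  have h1 : Finset.range n ⊆ (Finset.univ ×ˢ Finset.range g).image
      fun p : Fin 5 × ℕ => (n - 1 - p.2 + (n - e p.1 % n)) % n := fun s hs => by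
    obtain ⟨i, hi⟩ := h s
    have hn : 0 < n := by omega
    have h2 := Nat.mod_lt (e i + s) hn
    have h3 := Nat.mod_lt (e i) hn
    refine Finset.mem_image.2 ⟨(i, n - 1 - (e i + s) % n), by simp; omega, ?_⟩
    rw [show n - 1 - (n - 1 - (e i + s) % n) = (e i + s) % n by omega, Nat.mod_add_mod, ← Nat.mod_add_div (e i) n,
      Nat.mod_add_div, show e i + s + (n - e i % n) = s + n * (e i / n + 1) by
        have := Nat.mod_add_div (e i) n
        rw [mul_add]; omega, Nat.add_mul_mod_self_left, Nat.mod_eq_of_lt (Finset.mem_range.1 hs)]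
  have h2 := (Finset.card_le_card h1).trans Finset.card_image_le
  simp at h2
  omega

theorem pow_mod_modEq (n e : ℕ) : 2 ^ (e % n) ≡ 2 ^ e [MOD 2 ^ n - 1] := by
  conv_rhs => rw [← Nat.mod_add_div e n, pow_add, pow_mul]
  have : 1 ≡ 2 ^ n [MOD 2 ^ n - 1] := (Nat.modEq_iff_dvd' Nat.one_le_two_pow).2 dvd_rfl
  simpa using (this.pow (e / n)).mul_left (2 ^ (e % n))

theorem lin_lt {n : ℕ} (hn : 31 ≤ n) : 3 * n < 2 ^ ((n - 1) / 5 + 1) := by
  have key : ∀ k, 15 * (k + 6) + 15 < 2 ^ (k + 6 + 1) := fun k => by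
    induction k with
    | zero => norm_num
    | succ k ih => rw [show k + 1 + 6 + 1 = k + 6 + 1 + 1 by ring, pow_succ _ (k + 6 + 1)]; omega
  have := key ((n - 1) / 5 - 6)
  rw [show (n - 1) / 5 - 6 + 6 = (n - 1) / 5 by omega] at this
  omega

/-- The generic case. -/
theorem large {n m d : ℕ} (hn : 31 ≤ n) (hd : d ≤ n) (hm : m * d + 1 = 2 ^ n) {a b c x y : ℕ}
    (h : 2 ^ a + 2 ^ b + 2 ^ c ≡ 2 ^ x + 2 ^ y [MOD m]) : 2 ^ a + 2 ^ b + 2 ^ c ≡ 2 ^ x + 2 ^ y [MOD 2 ^ n - 1] := by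
  obtain ⟨s, hs⟩ := exists_shift (n := n) (g := (n - 1) / 5) (by omega) ![a, b, c, x, y]
  have h1 := lin_lt hn
  have h0 : 5 * ((n - 1) / 5) < n := by omega
  generalize (n - 1) / 5 = g at hs h1 h0
  obtain ⟨k, rfl⟩ : ∃ k, n = k + (g + 1) := ⟨n - (g + 1), by omega⟩
  have h2 : 3 * 2 ^ k < m := by
    by_contra! h2
    have h3 := Nat.mul_le_mul h2 hd
    have h4 := Nat.mul_le_mul_left (2 ^ k) (Nat.succ_le_of_lt h1)
    have h5 : 2 ≤ 2 ^ k := by
      rcases k with _ | k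
      · omega
      · rw [pow_succ]; have := Nat.one_le_two_pow (n := k); omega
    rw [← pow_add, ← hm] at h4
    simp only [Nat.succ_eq_add_one] at h4
    nlinarith
  have h3 : ∀ i, 2 ^ ((![a, b, c, x, y] i + s) % (k + (g + 1))) ≤ 2 ^ k := fun i =>
    Nat.pow_le_pow_right two_pos (by have := hs i; omega)
  have h4 := fun e => pow_mod_modEq (k + (g + 1)) (e + s)
  have h5 : m ∣ 2 ^ (k + (g + 1)) - 1 := ⟨d, by omega⟩
  have h6 : 2 ^ (a + s) + 2 ^ (b + s) + 2 ^ (c + s) ≡ 2 ^ (x + s) + 2 ^ (y + s) [MOD m] := by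
    simpa only [pow_add, add_mul] using h.mul_right (2 ^ s)
  have h7 := ((((h4 a).add (h4 b)).add (h4 c)).of_dvd h5).trans (h6.trans (((h4 x).add (h4 y)).of_dvd h5).symm)
  have h8 := h7.eq_of_lt_of_lt (by have := h3 0; have := h3 1; have := h3 2; simp_all; omega)
    (by have := h3 3; have := h3 4; simp_all; omega)
  have h9 := (((h4 a).add (h4 b)).add (h4 c)).symm.trans (h8 ▸ (h4 x).add (h4 y))
  refine Nat.ModEq.cancel_right_of_coprime (c := 2 ^ s) ?_ (by simpa only [pow_add, add_mul] using h9)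
  refine Nat.Coprime.pow_right _ (Nat.coprime_two_right.2 ?_)
  exact Nat.Even.sub_odd Nat.one_le_two_pow (Nat.even_pow.2 ⟨even_two, by omega⟩) odd_one

/-- The test for small `n`. -/
def chk (n d : ℕ) : Bool :=
  (List.range n).all fun b => (List.range n).all fun r =>
    (2 ^ b % ((2 ^ n - 1) / d) != 2 ^ r % ((2 ^ n - 1) / d) || b == r) &&
    (2 ^ r % ((2 ^ n - 1) / d) != (1 + 2 ^ b) % ((2 ^ n - 1) / d) || 2 ^ r % (2 ^ n - 1) == (1 + 2 ^ b) % (2 ^ n - 1)) &&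
    (n == 6 || (List.range n).all fun p =>
      (2 ^ r + 2 ^ (r + b) + 2 ^ p) % ((2 ^ n - 1) / d) != (1 + 2 ^ b) % ((2 ^ n - 1) / d) ||
        (2 ^ r + 2 ^ (r + b) + 2 ^ p) % (2 ^ n - 1) == (1 + 2 ^ b) % (2 ^ n - 1))

set_option synthInstance.maxSize 100000 in
theorem chk_small : ∀ n < 31, ∀ d < 31, 1 < d → d ∣ n → 2 ^ n % d = 1 → 0 < n → chk n d = true ∧ (n = 6 → d = 3) := by
  decide +kernel

set_option synthInstance.maxSize 100000 in
theorem six : (∀ b < 6, ∀ r < 6, ∀ p < 6, (2 ^ r + 2 ^ (r + b) + 2 ^ p) % 21 = (1 + 2 ^ b) % 21 → (r = 1 ∨ r = 5) ∧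
    ∀ r' < 6, ∀ p' < 6, (2 ^ r' + 2 ^ (r' + b) + 2 ^ p') % 21 = (1 + 2 ^ b) % 21 → r' = r ∧ p' = p) := by
  decide +kernel

variable {n m d : ℕ} (hn : 0 < n) (hd : d ∣ n) (hm : m * d + 1 = 2 ^ n)

include hn hd hm

theorem small (h1 : n < 31) (h2 : d ≠ 1) : chk n d = true ∧ (n = 6 → m = 21) ∧ (2 ^ n - 1) / d = m := by
  have h3 := Nat.le_of_dvd hn hd
  have h4 : 0 < d := Nat.pos_of_dvd_of_pos hd hn
  obtain ⟨h5, h6⟩ := chk_small n h1 d (by omega) (by omega) hd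
    (by rw [← hm, Nat.mul_add_mod_of_lt (by omega)]) hn
  refine ⟨h5, fun e => ?_, Nat.div_eq_of_eq_mul_left h4 (by omega)⟩
  obtain rfl := h6 e
  subst e
  omega

theorem nat_one {b r : ℕ} (hb : b < n) (hr : r < n) (h : 2 ^ b ≡ 2 ^ r [MOD m]) : 2 ^ b ≡ 2 ^ r [MOD 2 ^ n - 1] := by
  by_cases h2 : d = 1
  · subst h2; rwa [show 2 ^ n - 1 = m by omega]
  by_cases h1 : n < 31
  · obtain ⟨h3, -, h4⟩ := small hn hd hm h1 h2
    simp only [chk, h4, List.all_eq_true, List.mem_range, Bool.and_eq_true, Bool.or_eq_true, bne_iff_ne, beq_iff_eq] at h3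
    rw [(h3 b hb r hr).1.1.resolve_left fun e => e h]
  · have := large (a := b) (b := 0) (c := 0) (x := r) (y := 1) (not_lt.1 h1) (Nat.le_of_dvd hn hd) hm
      (by rw [add_assoc]; exact h.add_right _)
    rw [add_assoc] at this
    exact Nat.ModEq.add_right_cancel' _ this

theorem nat_two {b r : ℕ} (hb : b < n) (hr : r < n) (h : 2 ^ r ≡ 1 + 2 ^ b [MOD m]) :
    2 ^ r ≡ 1 + 2 ^ b [MOD 2 ^ n - 1] := by
  by_cases h2 : d = 1
  · subst h2; rwa [show 2 ^ n - 1 = m by omega]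
  by_cases h1 : n < 31
  · obtain ⟨h3, -, h4⟩ := small hn hd hm h1 h2
    simp only [chk, h4, List.all_eq_true, List.mem_range, Bool.and_eq_true, Bool.or_eq_true, bne_iff_ne, beq_iff_eq] at h3
    exact (h3 b hb r hr).1.2.resolve_left fun e => e h
  · exact (Nat.ModEq.add_right_cancel' _ (large (a := 0) (b := b) (c := r) (x := r) (y := r) (not_lt.1 h1)
      (Nat.le_of_dvd hn hd) hm (h.symm.add_right _))).symm

theorem nat_three (h6 : ¬ (n = 6 ∧ m = 21)) {b r p : ℕ} (hb : b < n) (hr : r < n) (hp : p < n)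
    (h : 2 ^ r + 2 ^ (r + b) + 2 ^ p ≡ 1 + 2 ^ b [MOD m]) :
    2 ^ r + 2 ^ (r + b) + 2 ^ p ≡ 1 + 2 ^ b [MOD 2 ^ n - 1] := by
  by_cases h2 : d = 1
  · subst h2; rwa [show 2 ^ n - 1 = m by omega]
  by_cases h1 : n < 31
  · obtain ⟨h3, h5, h4⟩ := small hn hd hm h1 h2
    simp only [chk, h4, List.all_eq_true, List.mem_range, Bool.and_eq_true, Bool.or_eq_true, bne_iff_ne, beq_iff_eq] at h3
    exact ((h3 b hb r hr).2.resolve_left (fun e => h6 ⟨e, h5 e⟩) p hp).resolve_left fun e => e h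
  · exact large (x := 0) (not_lt.1 h1) (Nat.le_of_dvd hn hd) hm h

theorem lt_ord (h2 : 1 < n) : n < m := by
  have h3 := Nat.le_of_dvd hn hd
  by_contra! h
  have h4 := Nat.mul_le_mul h h3
  have key : ∀ k, (k + 5) * (k + 5) + 1 < 2 ^ (k + 5) := fun k => by
    induction k with
    | zero => norm_num
    | succ k ih => rw [show k + 1 + 5 = k + 5 + 1 by ring, pow_succ]; nlinarith
  by_cases h5 : 5 ≤ n
  · have := key (n - 5)
    rw [Nat.sub_add_cancel h5] at this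
    omega
  · have h6 : n < 5 := not_le.1 h5
    interval_cases n <;> interval_cases d <;> omega

end Cfsg.Agent.Chev.Sh
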