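import Mathlib
import Cfsg.Agent.Chev.ShA
import Cfsg.Agent.Chev.Sz2Hig2

/-!
# Field elements of large order

`Big l`: the order of `l` has index `d ∣ n` in `2 ^ n - 1`.
-/

set_option autoImplicit false
set_option linter.unusedSectionVars false

namespace Cfsg.Agent.Chev.Sh

open Cfsg.Agent.Chev.Sz2

variable {F : Type*} [Field F] [Finite F] [CharP F 2]

/-- The order of `l` has index dividing the degree of the field. -/
def Big (l : F) : Prop := l ≠ 0 ∧ ∃ d, d ∣ Nat.card (F ≃+* F) ∧ orderOf l * d + 1 = Nat.card F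

theorem frob_pow_apply (i : ℕ) (x : F) : (frob F ^ i) x = x ^ 2 ^ i := by
  induction i with
  | zero => simp
  | succ i ih => rw [pow_succ', RingAut.mul_apply, ih, frob_apply, ← pow_mul, pow_succ]

theorem orderOf_frob : orderOf (frob F) = Nat.card (F ≃+* F) :=
  orderOf_eq_card_of_forall_mem_zpowers fun σ =>
    let ⟨_, hi⟩ := exists_frob_pow σ; hi ▸ Subgroup.npow_mem_zpowers _ _

theorem exists_frob_lt (σ : F ≃+* F) : ∃ i < Nat.card (F ≃+* F), σ = frob F ^ i := by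
  obtain ⟨i, rfl⟩ := exists_frob_pow σ
  exact ⟨_, Nat.mod_lt i Nat.card_pos, by rw [← orderOf_frob, pow_mod_orderOf]⟩

theorem pow_card_sub_one {x : F} (hx : x ≠ 0) : x ^ (Nat.card F - 1) = 1 := by
  have := Fintype.ofFinite F
  rw [Nat.card_eq_fintype_card, FiniteField.pow_card_sub_one_eq_one x hx]

theorem finOrder {x : F} (hx : x ≠ 0) : IsOfFinOrder x :=
  isOfFinOrder_iff_pow_eq_one.2 ⟨_, by have := Finite.one_lt_card (α := F); omega, pow_card_sub_one hx⟩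

theorem pow_eq_of_modEq {a b : ℕ} (ha : a ≠ 0) (hb : b ≠ 0) (h : a ≡ b [MOD 2 ^ Nat.card (F ≃+* F) - 1]) (x : F) :
    x ^ a = x ^ b := by
  by_cases hx : x = 0
  · rw [hx, zero_pow ha, zero_pow hb]
  · rw [two_pow_card_aut] at h
    exact (finOrder hx).pow_eq_pow_iff_modEq.2 (h.of_dvd (orderOf_dvd_of_pow_eq_one (pow_card_sub_one hx)))

/-- An additive subgroup invariant under multiplication by `u`. -/
theorem pow_card_addSubgroup {u : F} (hu : u ≠ 0) (S : AddSubgroup F) (hS : ∀ x ∈ S, u * x ∈ S) :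
    u ^ Nat.card S = u := by
  classical
  let s : Finset F := (Set.toFinite (S : Set F)).toFinset.erase 0
  have hs : ∀ x, x ∈ s ↔ x ≠ 0 ∧ x ∈ S := fun x => by simp [s]
  have h1 : s.image (u * ·) = s := Finset.eq_of_subset_of_card_le (fun y hy => by
    obtain ⟨x, hx, rfl⟩ := Finset.mem_image.1 hy
    exact (hs _).2 ⟨mul_ne_zero hu ((hs x).1 hx).1, hS x ((hs x).1 hx).2⟩)
    (Finset.card_image_of_injective _ (mul_right_injective₀ hu)).ge
  have h2 : ∏ x ∈ s, x = u ^ s.card * ∏ x ∈ s, x := by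
    conv_lhs => rw [← h1, Finset.prod_image (mul_right_injective₀ hu).injOn, Finset.prod_mul_distrib, Finset.prod_const]
  have h3 : u ^ s.card = 1 :=
    (mul_eq_right₀ (Finset.prod_ne_zero_iff.2 fun x hx => ((hs x).1 hx).1)).1 h2.symm
  have h4 : Nat.card S = s.card + 1 := by
    rw [Finset.card_erase_add_one (by simp), ← Set.ncard_eq_toFinset_card _ _]
    rfl
  rw [h4, pow_succ, h3, one_mul]

namespace Big

variable {l u : F}

theorem of_pow (h : Big l) {i : ℕ} (hu : u ≠ 0) (H : l = u ^ i) : Big u := by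
  obtain ⟨-, d, h1, h2⟩ := h
  obtain ⟨a, ha⟩ : orderOf l ∣ orderOf u := H ▸ orderOf_pow_dvd i
  obtain ⟨d', hd'⟩ := orderOf_dvd_of_pow_eq_one (pow_card_sub_one hu)
  have h3 := Finite.one_lt_card (α := F)
  refine ⟨hu, d', Dvd.dvd.trans ⟨a, ?_⟩ h1, by omega⟩
  have h4 : 0 < orderOf l := Nat.pos_of_ne_zero fun e => by rw [e] at h2; omega
  refine Nat.eq_of_mul_eq_mul_left h4 ?_
  rw [mul_comm d', ← mul_assoc, ← ha]
  omega

theorem of_aut_two (h : Big l) {σ τ : F ≃+* F} (H : σ u * τ u = l) : Big u := by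
  obtain ⟨i, hi⟩ := exists_pow σ
  obtain ⟨j, hj⟩ := exists_pow τ
  exact h.of_pow (fun h0 => h.1 (by rw [← H, h0, map_zero, zero_mul])) (H.symm.trans (by rw [hi, hj, ← pow_add]))

theorem aut (h : Big l) (σ : F ≃+* F) : Big (σ l) := by
  obtain ⟨i, hi⟩ := exists_pow σ.symm
  exact h.of_pow (by simpa using h.1) (by rw [← hi, σ.symm_apply_apply])

theorem modEq (h : Big l) {a b : ℕ} (H : l ^ a = l ^ b) : a ≡ b [MOD orderOf l] :=
  (finOrder h.1).pow_eq_pow_iff_modEq.1 H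

theorem ext_one (h : Big l) {σ τ : F ≃+* F} (H : σ l = τ l) : σ = τ := by
  obtain ⟨i, hi, rfl⟩ := exists_frob_lt σ
  obtain ⟨j, hj, rfl⟩ := exists_frob_lt τ
  obtain ⟨d, h1, h2⟩ := h.2
  simp only [frob_pow_apply] at H
  refine RingEquiv.ext fun x => ?_
  simp only [frob_pow_apply]
  exact pow_eq_of_modEq (by positivity) (by positivity)
    (nat_one Nat.card_pos h1 (h2.trans (two_pow_card_aut F).symm) hi hj (h.modEq H)) x

theorem dvd_of_pow (h : Big l) {j : ℕ} (H : l ^ 2 ^ j = l) : Nat.card (F ≃+* F) ∣ j := by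
  rw [← orderOf_frob, orderOf_dvd_iff_pow_eq_one]
  exact h.ext_one (by rw [frob_pow_apply, H]; rfl)

theorem eq_top (h : Big l) {S : AddSubgroup F} (hS : ∀ x ∈ S, l * x ∈ S) {y : F} (hy : y ∈ S) (h0 : y ≠ 0) :
    S = ⊤ := by
  have h1 := S.card_addSubgroup_dvd_card
  rw [← two_pow_card_aut F, Nat.dvd_prime_pow Nat.prime_two] at h1
  obtain ⟨j, h2, h3⟩ := h1
  have h4 := h.dvd_of_pow (h3 ▸ pow_card_addSubgroup h.1 S hS)
  have h5 : j ≠ 0 := by
    rintro rfl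
    rw [AddSubgroup.card_eq_one.1 h3] at hy
    exact h0 hy
  rw [← AddSubgroup.card_eq_iff_eq_top, h3, ← two_pow_card_aut F,
    le_antisymm h2 (Nat.le_of_dvd (Nat.pos_of_ne_zero h5) h4)]

theorem pow_ne_one (h : Big l) (h2 : 2 < Nat.card F) {k : ℕ} (h0 : 0 < k) (hk : k ≤ Nat.card (F ≃+* F)) :
    l ^ k ≠ 1 := by
  obtain ⟨d, h1, h3⟩ := h.2
  have h4 := two_pow_card_aut F
  refine pow_ne_one_of_lt_orderOf h0.ne' (hk.trans_lt (lt_ord Nat.card_pos h1 (h3.trans h4.symm) ?_))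
  by_contra! h5
  have := Nat.pow_le_pow_right two_pos h5
  omega

theorem one_two (h : Big u) {ρ σ τ : F ≃+* F} (H : ρ u = σ u * τ u) : σ = τ := by
  have h' := h.aut σ
  obtain ⟨r, hr, e1⟩ := exists_frob_lt (ρ * σ⁻¹)
  obtain ⟨b, hb, e2⟩ := exists_frob_lt (τ * σ⁻¹)
  obtain ⟨d, h1, h2⟩ := h'.2
  have h3 : (ρ * σ⁻¹) (σ u) = σ u * (τ * σ⁻¹) (σ u) := by simpa using H
  rw [e1, e2, frob_pow_apply, frob_pow_apply, ← pow_succ', add_comm] at h3
  have h4 := pow_eq_of_modEq (by positivity) (by positivity)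
    (nat_two Nat.card_pos h1 (h2.trans (two_pow_card_aut F).symm) hb hr (h'.modEq h3))
  have h5 := one_term (σ := ρ * σ⁻¹) (τ := 1) (ρ := τ * σ⁻¹) fun x => by
    rw [e1, e2, frob_pow_apply, frob_pow_apply, h4, pow_add, pow_one]; rfl
  exact (mul_inv_eq_one.1 h5.symm).symm

theorem three_aux (h : Big u) {r b p : ℕ}
    (H : (frob F ^ r) u * (frob F ^ r) ((frob F ^ b) u) * (frob F ^ p) u = u * (frob F ^ b) u) :
    2 ^ r + 2 ^ (r + b) + 2 ^ p ≡ 1 + 2 ^ b [MOD orderOf u] := by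
  refine h.modEq ?_
  simp only [frob_pow_apply, ← pow_mul, ← pow_add] at H
  rw [add_comm r, H, pow_add, pow_one]

theorem three_gen (h : Big u) (h6 : ¬ (Nat.card (F ≃+* F) = 6 ∧ orderOf u = 21)) {θ ρ π : F ≃+* F}
    (H : ρ u * ρ (θ u) * π u = u * θ u) (x : F) : ρ x * ρ (θ x) * π x = x * θ x := by
  obtain ⟨r, hr, rfl⟩ := exists_frob_lt ρ
  obtain ⟨b, hb, rfl⟩ := exists_frob_lt θ
  obtain ⟨p, hp, rfl⟩ := exists_frob_lt π
  obtain ⟨d, h1, h2⟩ := h.2
  have h4 := pow_eq_of_modEq (by positivity) (by positivity)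
    (nat_three Nat.card_pos h1 (h2.trans (two_pow_card_aut F).symm) h6 hb hr hp (h.three_aux H)) x
  simp only [frob_pow_apply, ← pow_mul, ← pow_add]
  rw [add_comm b, h4, pow_add, pow_one]

theorem three_unique (h : Big u) (h2 : 2 < Nat.card F) {θ ρ π ρ' π' : F ≃+* F}
    (H : ρ u * ρ (θ u) * π u = u * θ u) (H' : ρ' u * ρ' (θ u) * π' u = u * θ u) : ρ' = ρ ∧ π' = π := by
  by_cases h6 : Nat.card (F ≃+* F) = 6 ∧ orderOf u = 21
  · obtain ⟨r, hr, rfl⟩ := exists_frob_lt ρ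
    obtain ⟨b, hb, rfl⟩ := exists_frob_lt θ
    obtain ⟨p, hp, rfl⟩ := exists_frob_lt π
    obtain ⟨r', hr', rfl⟩ := exists_frob_lt ρ'
    obtain ⟨p', hp', rfl⟩ := exists_frob_lt π'
    have h3 := h.three_aux H
    have h4 := h.three_aux H'
    rw [h6.1] at hr hb hp hr' hp'
    rw [h6.2] at h3 h4
    obtain ⟨rfl, rfl⟩ := (six b hb r hr p hp h3).2 r' hr' p' hp' h4
    exact ⟨rfl, rfl⟩
  · exact Sz2.three_unique h2 (h.three_gen h6 H) (h.three_gen h6 H')

theorem three_fix (h : Big u) (h2 : 2 < Nat.card F) {θ ρ π : F ≃+* F} (H : ρ u * ρ (θ u) * π u = u * θ u) {t : F}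
    (ht : ρ t = t) : t = 0 ∨ t = 1 := by
  by_cases h6 : Nat.card (F ≃+* F) = 6 ∧ orderOf u = 21
  · obtain ⟨r, hr, rfl⟩ := exists_frob_lt ρ
    obtain ⟨b, hb, rfl⟩ := exists_frob_lt θ
    obtain ⟨p, hp, rfl⟩ := exists_frob_lt π
    have h3 := h.three_aux H
    rw [h6.1] at hr hb hp
    rw [h6.2] at h3
    have h4 : t ^ 2 = t := by
      rcases (six b hb r hr p hp h3).1 with rfl | rfl
      · simpa using ht
      · have h5 : frob F ^ (5 + 1) = 1 := by rw [← orderOf_dvd_iff_pow_eq_one, orderOf_frob, h6.1]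
        rw [← frob_apply, ← ht, ← RingAut.mul_apply, ← pow_succ', h5, ht]
        rfl
    grind
  · exact Sz2.three_fix h2 (h.three_gen h6 H) ht

/-- The equation `ρ l * π u = l` for `l = σ u * τ u`. -/
theorem key {ρ π σ τ : F ≃+* F} (h6 : σ u * τ u = l) (h9 : ρ l * π u = l) :
    ρ (σ u) * ρ ((τ * σ⁻¹) (σ u)) * (π * σ⁻¹) (σ u) = σ u * (τ * σ⁻¹) (σ u) := by
  simpa [← map_mul, h6] using h9

end Big

variable {G : Type*} [Group G]

/-- A non-zero alternating equivariant form. -/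
theorem exists_of_alt {K : Subgroup G} {f : G → F} {T : G → G} {u l : F} {B : G → G → F}
    (H : Biadd K K f f T T u u l B) (hl : Big l) (halt : ∀ x ∈ K, B x x = 0) {x y : G} (hx : x ∈ K) (hy : y ∈ K)
    (h0 : B x y ≠ 0) : ∃ σ τ : F ≃+* F, σ ≠ τ ∧ σ u * τ u = l := by
  by_contra! hc
  obtain ⟨σ, τ, h1⟩ := H.exists_of_ne_zero hx hy h0
  have h2 : ∀ σ' τ' : F ≃+* F, σ' u * τ' u = l → σ' = τ' := fun σ' τ' h => by_contra fun e => hc _ _ e h
  obtain rfl := h2 _ _ h1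
  obtain ⟨d, hd⟩ := H.exists_single σ σ fun σ' τ' h => by
    obtain rfl := h2 _ _ h
    exact and_self_iff.2 ((hl.of_aut_two h1).ext_one (sq_inj.1 (by rw [pow_two, pow_two, h, h1])))
  have hfx : f x ≠ 0 := fun h => h0 (H.kleft x hx y hy h)
  have := halt x hx
  rw [hd x hx x hx] at this
  rw [hd x hx y hy] at h0
  simp_all

/-- Common eigenvectors with different eigenvalues are independent. -/
theorem sum_ne_zero {C : Subgroup G} (δ : G → F →+ F) {ι : Type*} (x : ι → F) (h0 : ∀ i, x i ≠ 0)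
    (he : ∀ i, ∀ u ∈ C, δ u (x i) = 0 ∨ δ u (x i) = x i) (s : Finset ι)
    (hs : ∀ i ∈ s, ∀ j ∈ s, i ≠ j → ∃ u ∈ C, ¬ (δ u (x i) = 0 ↔ δ u (x j) = 0)) (hne : s.Nonempty) :
    ∑ i ∈ s, x i ≠ 0 := by
  classical
  induction s using Finset.strongInduction with
  | H s ih =>
    intro h
    obtain ⟨i, hi⟩ := hne
    by_cases h1 : ∀ j ∈ s, j = i
    · rw [Finset.sum_eq_single i (fun j hj e => absurd (h1 j hj) e) (fun e => absurd hi e)] at h
      exact h0 i h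
    push Not at h1
    obtain ⟨j, hj, h1⟩ := h1
    obtain ⟨u, hu, h2⟩ := hs i hi j hj h1.symm
    have h3 : ∃ a ∈ s, δ u (x a) = 0 := by
      by_contra! e
      exact h2 (iff_of_false (e i hi) (e j hj))
    have h4 : ∃ a ∈ s, δ u (x a) ≠ 0 := by
      by_contra! e
      exact h2 (iff_of_true (e i hi) (e j hj))
    obtain ⟨a, ha, h3⟩ := h3
    obtain ⟨b, hb, h4⟩ := h4
    refine ih (s.filter fun a => δ u (x a) ≠ 0) (Finset.filter_ssubset.2 ⟨a, ha, not_not.2 h3⟩)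
      (fun i hi j hj => hs i (Finset.mem_filter.1 hi).1 j (Finset.mem_filter.1 hj).1) ⟨b, Finset.mem_filter.2 ⟨hb, h4⟩⟩ ?_
    have h5 := congrArg (δ u) h
    rw [map_sum, map_zero] at h5
    rw [Finset.sum_filter]
    refine (Finset.sum_congr rfl fun a _ => ?_).trans h5
    rcases he a u hu with e | e
    · simp [e]
    · rw [if_pos (e.symm ▸ h0 a), e]

/-- An additive family of idempotents normalised by a big element is centralised by a small power of it. -/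
theorem idem_period [Finite G] {C : Subgroup G} (δ : G → F →+ F) {l : F} (hl : Big l)
    (hadd : ∀ u ∈ C, ∀ v ∈ C, ∀ t, δ (u * v) t = δ u t + δ v t) (hid : ∀ u ∈ C, ∀ t, δ u (δ u t) = δ u t)
    (ξ : MulAut G) (hT : ∀ u ∈ C, ξ u ∈ C) (hT' : ∀ u ∈ C, ∃ v ∈ C, ξ v = u)
    (he : ∀ v ∈ C, ∀ t, δ (ξ v) (l * t) = l * δ v t) :
    ∃ k, 0 < k ∧ k ≤ Nat.card (F ≃+* F) ∧ ∀ v ∈ C, ∀ t, δ ((ξ ^ k) v) t = δ v t := by
  classical
  have h1 : ∀ u ∈ C, ∀ v ∈ C, ∀ t, δ u (δ v t) = δ v (δ u t) := by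
    intro u hu v hv t
    have := hid _ (mul_mem hu hv) t
    simp only [hadd u hu v hv, map_add, hid u hu, hid v hv] at this
    grind
  obtain ⟨⟨x, hx⟩, hmax⟩ := @Finite.exists_max _ _ _ ⟨⟨1, one_ne_zero⟩⟩ _
    fun x : {x : F // x ≠ 0} => {u ∈ C | δ u x = 0 ∨ δ u x = x}.ncard
  have h2 : ∀ u ∈ C, δ u x = 0 ∨ δ u x = x := by
    intro u hu
    by_contra hc
    refine (hmax ⟨δ u x, fun h => hc (Or.inl h)⟩).not_gt (Set.ncard_lt_ncard ⟨?_, fun h => ?_⟩)
    · rintro v ⟨hv, h | h⟩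
      · exact ⟨hv, Or.inl (by simp only; rw [h1 v hv u hu, h, map_zero])⟩
      · exact ⟨hv, Or.inr (by simp only; rw [h1 v hv u hu, h])⟩
    · exact hc (h ⟨hu, Or.inr (hid u hu x)⟩).2
  have h3 : ∀ i, ∀ u ∈ C, δ u (l ^ i * x) = 0 ∨ δ u (l ^ i * x) = l ^ i * x := fun i => by
    induction i with
    | zero => simpa using h2
    | succ i ih =>
      intro u hu
      obtain ⟨v, hv, rfl⟩ := hT' u hu
      rw [pow_succ', mul_assoc, he v hv]
      rcases ih v hv with e | e <;> simp [e]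
  have h4 : ∀ k, ∀ v ∈ C, (ξ ^ k) v ∈ C ∧ ∀ t, δ ((ξ ^ k) v) (l ^ k * t) = l ^ k * δ v t := fun k v hv => by
    induction k with
    | zero => simpa using hv
    | succ k ih =>
      rw [pow_succ', pow_succ', MulAut.mul_apply]
      exact ⟨hT _ ih.1, fun t => by rw [mul_assoc, he _ ih.1, ih.2, mul_assoc]⟩
  have h0 : ∀ i, l ^ i * x ≠ 0 := fun i => mul_ne_zero (pow_ne_zero _ hl.1) hx
  obtain ⟨i, k, hk, hik, h5⟩ : ∃ i k, 0 < k ∧ k ≤ Nat.card (F ≃+* F) ∧
      ∀ u ∈ C, (δ u (l ^ i * x) = 0 ↔ δ u (l ^ (i + k) * x) = 0) := by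
    by_contra! hc
    have h6 : ∀ i < Nat.card (F ≃+* F) + 1, ∀ j < Nat.card (F ≃+* F) + 1, i ≠ j →
        ∃ u ∈ C, ¬ (δ u (l ^ i * x) = 0 ↔ δ u (l ^ j * x) = 0) := fun i hi j hj e => by
      rcases lt_or_gt_of_ne e with e | e <;> obtain ⟨k, rfl⟩ := Nat.exists_eq_add_of_le e.le
      · obtain ⟨u, hu, h⟩ := hc i k (by omega) (by omega)
        exact ⟨u, hu, by tauto⟩
      · obtain ⟨u, hu, h⟩ := hc j k (by omega) (by omega)
        exact ⟨u, hu, by tauto⟩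
    have h7 := Nat.card_le_card_of_injective
      (fun s : Finset (Fin (Nat.card (F ≃+* F) + 1)) => ∑ i ∈ s, l ^ (i : ℕ) * x) fun s t e => by
        by_contra hne
        refine sum_ne_zero δ (fun i : Fin (Nat.card (F ≃+* F) + 1) => l ^ (i : ℕ) * x) (fun i => h0 i) (fun i => h3 i)
          (symmDiff s t) (fun i _ j _ e => h6 i i.2 j j.2 (Fin.val_ne_of_ne e)) (Finset.symmDiff_nonempty.2 hne) ?_
        have h8 := Finset.sum_sdiff_eq_sub (f := fun i : Fin (Nat.card (F ≃+* F) + 1) => l ^ (i : ℕ) * x)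
          (Finset.inter_subset_left (s₁ := s) (s₂ := t))
        have h9 := Finset.sum_sdiff_eq_sub (f := fun i : Fin (Nat.card (F ≃+* F) + 1) => l ^ (i : ℕ) * x)
          (Finset.inter_subset_right (s₁ := s) (s₂ := t))
        rw [Finset.sdiff_inter_self_left] at h8
        rw [Finset.sdiff_inter_self_right] at h9
        rw [symmDiff_def, Finset.sup_eq_union, Finset.sum_union disjoint_sdiff_sdiff, h8, h9, show ∑ i ∈ s, _ = _ from e,
          CharTwo.add_self_eq_zero]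
    rw [Nat.card_eq_fintype_card, Fintype.card_finset, Fintype.card_fin, ← two_pow_card_aut F, pow_succ] at h7
    have := Nat.one_le_two_pow (n := Nat.card (F ≃+* F))
    omega
  let S : AddSubgroup F := ⨅ v : C, (δ ((ξ ^ k) v) - δ v).ker
  have hS : ∀ t, t ∈ S ↔ ∀ v ∈ C, δ ((ξ ^ k) v) t = δ v t := fun t => by
    simp [S, AddSubgroup.mem_iInf, sub_eq_zero]
  have h6 : S = ⊤ := hl.eq_top (fun t ht => (hS _).2 fun v hv => by
    obtain ⟨v, hv', rfl⟩ := hT' v hv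
    rw [← MulAut.mul_apply, ← pow_succ, pow_succ', MulAut.mul_apply, he _ (h4 k v hv').1, he v hv', (hS t).1 ht v hv'])
    ((hS _).2 fun v hv => by
      have h7 := (h4 k v hv).2 (l ^ i * x)
      rw [← mul_assoc, ← pow_add, add_comm k] at h7
      rw [h7]
      rcases h3 i v hv with e | e
      · rw [e, (h5 v hv).1 e, mul_zero]
      · rw [e, (h3 (i + k) v hv).resolve_left fun e' => h0 i (e.symm.trans ((h5 v hv).2 e')), pow_add]
        ring) (h0 (i + k))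
  exact ⟨k, hk, hik, fun v hv t => (hS t).1 (h6 ▸ AddSubgroup.mem_top t) v hv⟩

end Cfsg.Agent.Chev.Sh
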