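import Mathlib
import Cfsg.Agent.Chev.ShHig

/-!
# Shaw's theorem on Suzuki 2-groups: the order of the automorphism
-/

set_option autoImplicit false
set_option linter.unusedSectionVars false

namespace Cfsg.Agent.Chev.Sh

open scoped commutatorElement
open Cfsg.Agent.Chev.Sz2

variable {G : Type*} [Group G] [Finite G] {F : Type*} [Field F] [Finite F] [CharP F 2]

theorem odd_card_sub_one : Odd (Nat.card F - 1) := by
  rw [← two_pow_card_aut F]
  exact Nat.Even.sub_odd Nat.one_le_two_pow (Nat.even_pow.mpr ⟨even_two, Nat.card_pos.ne'⟩) odd_one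

theorem card_img {E : Type*} [Field E] {K : Subgroup G} {f : G → E} (hf : AddOn K f) {N : Subgroup G} (hN : N ≤ K)
    (h : ∀ x ∈ K, f x = 0 ↔ x ∈ N) : Nat.card N * Nat.card (Hg.img hf) = Nat.card K := by
  let φ : K →* Multiplicative E := MonoidHom.mk' (fun x => Multiplicative.ofAdd (f x)) fun x y => hf _ x.2 _ y.2
  have h1 : φ.ker = N.subgroupOf K := Subgroup.ext fun x => h x x.2
  have h2 := φ.ker.card_mul_index
  rw [Subgroup.index_ker, h1, Nat.card_congr (Subgroup.subgroupOfEquivOfLe hN).toEquiv] at h2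
  rw [← h2]
  exact congrArg _ (Nat.card_congr (Equiv.subtypeEquivRight fun t =>
    ⟨fun ⟨x, hx, e⟩ => ⟨⟨x, hx⟩, e⟩, fun ⟨x, e⟩ => ⟨x, x.2, e⟩⟩))

namespace Hg

variable (S : Hg G F)

theorem card_Om : Nat.card S.Om = Nat.card F :=
  Nat.card_congr (Equiv.ofBijective (fun z => S.ι z) ⟨fun z w h => Subtype.ext (ι_inj z.2 w.2 h),
    fun t => by obtain ⟨z, hz, h⟩ := S.ι_surj t; exact ⟨⟨z, hz⟩, h⟩⟩)

theorem ξ_pow : S.ξ ^ (Nat.card F - 1) = 1 := by
  classical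
  obtain ⟨t, ht⟩ := S.ξ_pow'
  have ho : Odd ((Nat.card F - 1) ^ t) := odd_card_sub_one.pow
  have hOm : ∀ z ∈ S.Om, (S.ξ ^ (Nat.card F - 1)) z = z := fun z hz =>
    ι_inj (S.inv_Om.pow _ hz) hz (by rw [ι_pow _ hz, pow_card_sub_one S.gen.1, one_mul])
  have hκ : (S.ξ ^ (Nat.card F - 1)) ^ (Nat.card F - 1) ^ t = 1 := by rw [← pow_mul, mul_comm, pow_mul, ht, one_pow]
  have hc : ∀ x, (S.ξ ^ (Nat.card F - 1)) (S.ξ x) = S.ξ ((S.ξ ^ (Nat.card F - 1)) x) := fun x => by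
    rw [← MulAut.mul_apply, ← pow_succ, pow_succ', MulAut.mul_apply]
  have hI : ∀ {A : Subgroup G}, S.Inv A → ∀ x ∈ A, (S.ξ ^ (Nat.card F - 1)) x ∈ A := fun h x hx => h.pow _ hx
  have hu : ∀ {E : Type} [Field E] {u : E} {g : G → E}, (∀ x, g (S.ξ x) = u * g x) →
      ∀ (k : ℕ) x, g ((S.ξ ^ k) x) = u ^ k * g x := fun {E} _ {u g} h k x => by
    induction k with
    | zero => simp
    | succ k ih => rw [pow_succ', MulAut.mul_apply, h, ih, pow_succ', mul_assoc]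
  by_contra hne
  obtain ⟨T, -, ⟨hT, x₀, hx₀, hx₀'⟩, hmin⟩ := Finite.exists_le_minimal
    (p := fun T : Subgroup G => S.Inv T ∧ ∃ x ∈ T, (S.ξ ^ (Nat.card F - 1)) x ≠ x) (a := ⊤)
    ⟨S.inv_top, by_contra fun h => hne (MulEquiv.ext fun x => by_contra fun e => h ⟨x, trivial, e⟩)⟩
  generalize hκ' : S.ξ ^ (Nat.card F - 1) = κ at hOm hκ hc hI hx₀' hmin
  have ha : ∀ U, S.Inv U → U ≤ T → U ≠ T → ∀ x ∈ U, κ x = x := fun U h1 h2 h3 x hx =>
    by_contra fun e => h3 (le_antisymm h2 (hmin ⟨h1, x, hx, e⟩ h2))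
  have hb : ∀ U, S.Inv U → U ≤ T → (∀ x ∈ T, x⁻¹ * κ x ∈ U) → U = T := fun U h1 h2 h3 => by
    by_contra e
    have h4 := ha U h1 h2 e _ (h3 x₀ hx₀)
    have h5 : ∀ j : ℕ, (κ ^ j) x₀ = x₀ * (x₀⁻¹ * κ x₀) ^ j := fun j => by
      induction j with
      | zero => simp
      | succ j ih => rw [pow_succ', MulAut.mul_apply, ih, map_mul, map_pow, h4, pow_succ', ← mul_assoc,
          mul_inv_cancel_left]
    have h6 := h5 ((Nat.card F - 1) ^ t)
    rw [hκ, MulAut.one_apply] at h6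
    replace h6 := left_eq_mul.1 h6
    obtain ⟨j, hj⟩ := S.pgroup (x₀⁻¹ * κ x₀)
    have h7 := (pow_gcd_eq_one (a := x₀⁻¹ * κ x₀)).2 ⟨h6, hj⟩
    rw [(Nat.Coprime.pow_right j (Nat.coprime_two_right.2 ho)).gcd_eq_one, pow_one] at h7
    exact hx₀' (inv_mul_eq_one.1 h7).symm
  have h0 : T ≠ ⊥ := fun e => hx₀' (by rw [show x₀ = 1 from Subgroup.mem_bot.1 (e ▸ hx₀), map_one])
  have hN : S.Om ≤ T := hT.Om_le h0
  have hN' : S.Om < T := lt_of_le_of_ne hN fun e => hx₀' (hOm _ (e ▸ hx₀))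
  have h1 : Sz2.sq T ≠ T := fun e => by
    obtain ⟨M, -, hM⟩ := GT.PG.exists_index_eq_prime_of_ne_top (S.pgroup.to_subgroup T) (H := ⊥)
      (fun h => hx₀' (by rw [show x₀ = 1 from congrArg Subtype.val (Subgroup.mem_bot.1 (h.ge (Subgroup.mem_top ⟨x₀, hx₀⟩))), map_one]))
    have h3 : T ≤ M.map T.subtype := e.ge.trans
      (sq_le_iff.mpr fun c hc => ⟨_, Subgroup.mul_self_mem_of_index_two hM ⟨c, hc⟩, rfl⟩)
    rw [(Subgroup.eq_top_iff' M).mpr fun x => (Subgroup.mem_map_iff_mem T.subtype_injective).mp (h3 x.2),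
      Subgroup.index_top] at hM
    omega
  have h2 := ha _ hT.sq (sq_le T) h1
  have h3 : ∀ x ∈ T, ∀ s ∈ Sz2.sq T, s * x = x * s := fun x hx => by
    refine ((hb (T ⊓ Subgroup.centralizer (Sz2.sq T)) (hT.inf fun y hy s hs => ?_) inf_le_left
      fun y hy => Subgroup.mem_inf.2 ⟨mul_mem (inv_mem hy) (hI hT y hy), fun s hs => ?_⟩).ge hx).2
    · obtain ⟨s, hs', rfl⟩ := (Finite.surjective_of_injective (f := fun x : Sz2.sq T => (⟨S.ξ x, hT.sq _ x.2⟩ : Sz2.sq T))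
        (fun x y hxy => Subtype.ext (S.ξ.injective (congrArg Subtype.val hxy))) ⟨s, hs⟩).imp fun x h =>
          And.intro x.2 (congrArg Subtype.val h)
      rw [← map_mul, ← map_mul, hy s hs']
    · have h4 := h2 _ (map_mem_sq (MulAut.conj y).toMonoidHom (fun z hz => mul_mem (mul_mem hy hz) (inv_mem hy)) s hs)
      simp only [MulEquiv.toMonoidHom_eq_coe, MonoidHom.coe_coe, MulAut.conj_apply, map_mul, map_inv, h2 s hs] at h4
      calc _ = y⁻¹ * (y * s * y⁻¹) * κ y := by group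
        _ = _ := by rw [← h4]; group
  have h4 : ∀ x ∈ T, ∀ y ∈ T, ⁅x, y⁆ ∈ S.Om := fun x hx y hy => by
    have h5 := h3 y hy _ (mul_self_mem_sq hx)
    have h6 := h3 x hx _ (commutator_mem_sq hx hy)
    rw [mem_Om]
    calc _ = ⁅x, y⁆ * x * (y * x⁻¹ * y⁻¹) := by rw [commutatorElement_def x y]; group
      _ = (x * x * y) * (x⁻¹ * x⁻¹ * y⁻¹) := by rw [h6, commutatorElement_def]; group
      _ = 1 := by rw [h5]; group
  have h5 : ∀ x ∈ T, ∀ y ∈ T, x * y * (x * y) = x * x * (y * y) * ⁅y, x⁆ := fun x hx y hy => by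
    rw [← S.central _ (h4 y hy x hx), ← mul_assoc ⁅y, x⁆, ← mul_assoc ⁅y, x⁆, S.central _ (h4 y hy x hx),
      commutatorElement_def]
    group
  let U : Subgroup G :=
    { carrier := {x | x ∈ T ∧ x * x ∈ S.Om}
      one_mem' := ⟨one_mem _, by simp⟩
      mul_mem' := fun {x y} hx hy => ⟨mul_mem hx.1 hy.1, by
        rw [h5 x hx.1 y hy.1]; exact mul_mem (mul_mem hx.2 hy.2) (h4 y hy.1 x hx.1)⟩
      inv_mem' := fun {x} hx => ⟨inv_mem hx.1, by rw [← mul_inv_rev]; exact inv_mem hx.2⟩ }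
  have h6 : ∀ x ∈ T, x * x ∈ S.Om := fun x hx => ((hb U (fun y hy => ⟨hT y hy.1, by
    rw [← map_mul]; exact S.inv_Om _ hy.2⟩) (fun y hy => hy.1) fun y hy => ⟨mul_mem (inv_mem hy) (hI hT y hy), by
      rw [h5 _ (inv_mem hy) _ (hI hT y hy), ← map_mul, h2 _ (mul_self_mem_sq hy), ← mul_inv_rev, inv_mul_cancel, one_mul]
      exact h4 _ (hI hT y hy) _ (inv_mem hy)⟩).ge hx).2
  have h7 : Nat.card T ≤ Nat.card F ^ 3 := by
    have := (GT.PG.card_le_cube_of_class_two (S.pgroup.to_subgroup T)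
      (Subgroup.commutator_le.2 fun x _ y _ => Subgroup.mem_center_iff.2 fun g =>
        Subtype.ext (S.central _ (h4 x x.2 y y.2) g).symm)
      (fun x => Subtype.ext (by simpa [pow_succ, mul_assoc, mem_Om] using h6 x x.2))
      fun x y hx hy => Subtype.ext (by
        simpa [pow_two] using S.mul_invol (z := x) (w := y) (by simpa [pow_two] using congrArg Subtype.val hx)
          (by simpa [pow_two] using congrArg Subtype.val hy))).1
    refine this.trans (Nat.pow_le_pow_left ?_ _)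
    rw [← S.card_Om]
    exact Nat.card_le_card_of_injective
      (fun x => (⟨x.1, by simpa [pow_two, mem_Om] using congrArg Subtype.val x.2⟩ : S.Om))
      fun x y e => Subtype.ext (Subtype.ext (congrArg (Subtype.val (p := (· ∈ S.Om))) e))
  have hpos : 0 < Nat.totient ((Nat.card F - 1) ^ t) := Nat.totient_pos.2 ho.pos
  obtain ⟨u, g, hu0, hg, hg0, hgξ⟩ := exists_eigen (F := GaloisField 2 (Nat.totient ((Nat.card F - 1) ^ t)))
    (S.pgroup.to_subgroup T) hN' S.ξ (by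
      rw [GaloisField.card 2 _ hpos.ne']
      obtain ⟨c, e⟩ := (Nat.modEq_iff_dvd' Nat.one_le_two_pow).1 (Nat.ModEq.pow_totient (Nat.coprime_two_left.2 ho)).symm
      rw [e, pow_mul, ht, one_pow]) hT S.inv_Om fun H k1 k2 k3 => by
      by_contra! e
      obtain ⟨B, b1, b2, b3, b4, b5⟩ := maschke S.ξ ho ht h6 k1 k2 S.inv_Om k3 hT
      obtain ⟨a, a1, b, a2, e'⟩ := b5 x₀ hx₀
      refine hx₀' ?_
      rw [e', map_mul, ha H k3 k2 e.2 a a1, ha B b3 b2 (fun e' => e.1 (le_antisymm (fun x hx => b4 ⟨hx, e' ▸ k2 hx⟩) k1)) b a2]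
  have h8 := pow_card_addSubgroup hu0 (img hg) (by rintro _ ⟨y, hy, rfl⟩; exact ⟨_, hT y hy, hgξ y⟩)
  have h9 := card_img hg hN hg0
  obtain ⟨a, ha'⟩ := IsPGroup.iff_card.1 (S.pgroup.to_subgroup T)
  obtain ⟨k, -, hk⟩ := (Nat.dvd_prime_pow Nat.prime_two).1 (ha' ▸ Dvd.intro_left _ h9)
  obtain ⟨x, hx, hx'⟩ := SetLike.exists_of_lt hN'
  have hgx : g x ≠ 0 := mt (hg0 x hx).1 hx'
  have h10 : u ^ (2 ^ k - 1) = 1 := mul_right_cancel₀ hu0 (by
    rw [← pow_succ, Nat.sub_add_cancel Nat.one_le_two_pow, ← hk, h8, one_mul])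
  have h11 : ∀ j, u ^ j = 1 → ∀ y ∈ T, y⁻¹ * (S.ξ ^ j) y ∈ S.Om := fun j hj y hy =>
    (hg0 _ (mul_mem (inv_mem hy) (hT.pow j hy))).1 (by
      rw [hg _ (inv_mem hy) _ (hT.pow j hy), hg.neg hy, hu hgξ, hj, one_mul, neg_add_cancel])
  have h12 : S.l ^ 2 ^ k = S.l := by
    have h13 := h11 _ h10 x hx
    have h14 := ι_pow (S := S) (2 ^ k - 1) (h6 x hx)
    rw [map_mul, ← mul_inv_cancel_left x ((S.ξ ^ _) x), mul_assoc x, ← mul_assoc (x⁻¹ * _), S.central _ h13,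
      mul_assoc x, S.mem_Om.1 h13, mul_one] at h14
    have h15 : S.ι (x * x) ≠ 0 := fun e => hx' (S.ι_eq_zero _ (h6 x hx) e)
    rw [← Nat.sub_add_cancel (Nat.one_le_two_pow (n := k)), pow_succ, (mul_eq_right₀ h15).1 h14.symm, one_mul]
  obtain ⟨c, rfl⟩ := S.gen.dvd_of_pow h12
  have hq := two_pow_card_aut F
  have h13 : u ^ ((Nat.card F - 1) * (Nat.card F + 1)) = 1 := by
    rw [← h9, S.card_Om, hk, pow_mul, hq, pow_succ' _ 2] at h7
    have h14 := (Nat.pow_le_pow_iff_right (Finite.one_lt_card (α := F))).1 (Nat.le_of_mul_le_mul_left h7 Nat.card_pos)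
    rw [pow_mul, hq] at h10 hk
    interval_cases c
    · have h15 : g x ∈ img hg := ⟨x, hx, rfl⟩
      rw [AddSubgroup.card_eq_one.1 hk] at h15
      exact absurd h15 hgx
    · rw [pow_one] at h10
      rw [pow_mul, h10, one_pow]
    · rw [← h10, mul_comm, ← Nat.sq_sub_sq, one_pow]
  have h14 : u ^ (Nat.card F - 1) ^ t = 1 := by
    have := hu hgξ ((Nat.card F - 1) ^ t) x
    rw [ht, MulAut.one_apply] at this
    exact (mul_eq_right₀ hgx).1 this.symm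
  have h15 : u ^ (Nat.card F - 1) = 1 := by
    rw [← orderOf_dvd_iff_pow_eq_one] at h13 h14 ⊢
    refine Nat.Coprime.dvd_of_dvd_mul_right (Nat.Coprime.coprime_dvd_left h14 (Nat.Coprime.pow_left _ ?_)) h13
    have h16 := Finite.one_lt_card (α := F)
    rw [show Nat.card F + 1 = 2 + (Nat.card F - 1) by omega, Nat.coprime_add_self_right]
    exact Nat.coprime_two_right.2 odd_card_sub_one
  exact hN'.ne (hb _ S.inv_Om hN (hκ' ▸ h11 _ h15))

theorem Cover.exists_eigen {S : Hg G F} {A C : Subgroup G} (hA : S.Inv A) (h : Cover S A C) :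
    ∃ (u : F) (g : G → F), u ≠ 0 ∧ AddOn C g ∧ (∀ x ∈ C, g x = 0 ↔ x ∈ A) ∧
      ∀ x, g (S.ξ x) = u * g x :=
  Sz2.exists_eigen (S.pgroup.to_subgroup C) h.lt S.ξ S.ξ_pow h.inv hA h.irr

end Hg

end Cfsg.Agent.Chev.Sh
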