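import Mathlib
import Cfsg.Agent.Chev.ShPow

/-!
# Shaw's theorem on Suzuki 2-groups: the exponent is four

Port of `Chev/Sz2Hig2`.
-/

set_option autoImplicit false
set_option linter.unusedSectionVars false

namespace Cfsg.Agent.Chev.Sh

open scoped commutatorElement
open Cfsg.Agent.Chev.Sz2

variable {G : Type*} [Group G] [Finite G] {F : Type*} [Field F] [Finite F] [CharP F 2]

namespace Hg

variable {S : Hg G F} {A C : Subgroup G} {e : ℕ}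

theorem Inv.exists_ξ (h : S.Inv A) {a : G} (ha : a ∈ A) : ∃ b ∈ A, S.ξ b = a := by
  obtain ⟨b, hb⟩ := Finite.surjective_of_injective (f := fun x : A => (⟨S.ξ x, h _ x.2⟩ : A))
    (fun x y hxy => Subtype.ext (S.ξ.injective (congrArg Subtype.val hxy))) ⟨a, ha⟩
  exact ⟨b, b.2, congrArg Subtype.val hb⟩

theorem HasExp.ne_bot (h : HasExp A e) : A ≠ ⊥ := by
  rintro rfl
  obtain ⟨a, ha, h1⟩ := h.2
  exact h1 (by rw [Subgroup.mem_bot.mp ha, one_pow])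

theorem fe_commutator_ξ (h : HasExp A e) {x y : G} (hxy : ⁅x, y⁆ ∈ A) :
    S.fe e ⁅S.ξ x, S.ξ y⁆ = S.l * S.fe e ⁅x, y⁆ := by
  rw [← map_commutatorElement, fe_ξ h hxy]

theorem Cover.not_hasExp [A.Normal] (hI : S.Inv A) (hA : Ab A) (hC : Cover S A C)
    (h1 : ∀ c ∈ C, c * c ∈ Sz2.sq A) : ¬ HasExp A (e + 2) := by
  intro h
  have h' := h.sq hA
  have hA' := hA.mono (sq_le A)
  have hD : ∀ u, AddOn A fun a => S.fe (e + 1) ⁅a, u⁆ :=
    fun u => hI.sq.addOn_left hA' h' fun a ha => hI.commutator_mem_sq hA ha u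
  have hD' : ∀ a ∈ A, AddOn ⊤ fun u => S.fe (e + 1) ⁅a, u⁆ :=
    fun a ha => hI.sq.addOn_right hA' h' fun u _ => hI.commutator_mem_sq hA ha u
  choose s hs hs' using hI.fe_surj hA h
  have e1 : ∀ u, ∀ a ∈ A, S.fe (e + 1) ⁅s (S.fe (e + 2) a), u⁆ = S.fe (e + 1) ⁅a, u⁆ :=
    fun u a ha => (addOn_fe hA h).congr (hD u)
      (fun x hx h0 => (hD u).sq ((hI.fe_eq_zero hA h hx).mp h0)) (hs _) ha (hs' _)
  let δ : G → F →+ F := fun u => AddMonoidHom.mk' (fun t => S.fe (e + 1) ⁅s t, u⁆) fun t t' => by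
    have := e1 u _ (mul_mem (hs t) (hs t'))
    rw [addOn_fe hA h _ (hs t) _ (hs t'), hs', hs'] at this
    exact this.trans (hD u _ (hs t) _ (hs t'))
  have hδ : ∀ u t, δ u t = S.fe (e + 1) ⁅s t, u⁆ := fun _ _ => rfl
  have h2 : ∀ u v t, δ (u * v) t = δ u t + δ v t := fun u v t => hD' _ (hs t) u trivial v trivial
  have h3 : ∀ u ∈ C, (∀ t, δ u t = 0) → u ∈ A := fun u hu h0 =>
    hI.mem_of_commutator hA (HasExp.ne_bot h) (h1 u hu) fun a ha =>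
      (hI.sq.fe_eq_zero hA' h' (hI.commutator_mem_sq hA ha u)).mp (by rw [← e1 u a ha, ← hδ, h0])
  obtain ⟨k, k0, kn, h4⟩ : ∃ k, 0 < k ∧ k ≤ Nat.card (F ≃+* F) ∧ ∀ v ∈ C, ∀ t, δ ((S.ξ ^ k) v) t = δ v t := by
    refine idem_period δ S.gen (fun u _ v _ => h2 u v) (fun u hu t => ?_) S.ξ hC.inv
      (fun u hu => hC.inv.exists_ξ hu) (fun v hv t => ?_)
    · obtain ⟨b, hb, h5⟩ := hA.mem_sq.mp (hI.commutator_mem_sq hA (hs t) u)
      obtain ⟨c, hc, h6⟩ := hA.mem_sq.mp (hI.commutator_mem_sq hA hb u)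
      rw [hδ u t, ← h5, fe_mul_self, hδ, e1 u b hb, ← h6, fe_mul_self]
      have h7 : ⁅s t, u * u⁆ = 1 :=
        commutatorElement_eq_one_iff_commute.mpr (hA _ (hs t) _ (hC.sq u hu))
      have h8 : u * b * u⁻¹ = (c * c)⁻¹ * b := by simp [h6, commutatorElement_def, mul_assoc]
      rw [show ⁅s t, u * u⁆ = ⁅s t, u⁆ * (u * ⁅s t, u⁆ * u⁻¹) by
          simp [commutatorElement_def, mul_assoc], ← h5,
        show u * (b * b) * u⁻¹ = (u * b * u⁻¹) * (u * b * u⁻¹) by group, h8] at h7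
      have h9 : (c⁻¹ * b) ^ 4 = 1 := by
        have hcb := hA _ (inv_mem hc) _ hb
        rw [← h7, mul_inv_rev, ← pow_two, ← pow_two, ← pow_two, hcb.mul_pow,
          (hcb.pow_left 2).mul_pow, ← mul_assoc, ← pow_mul, ← (hcb.pow_pow _ _).eq]
        group
      have h10 := addOn_fe (S := S) hA h _ (inv_mem hc) _ hb
      rw [(addOn_fe hA h).inv hc, fe, pow_add, mul_comm (2 ^ e), pow_mul, show 2 ^ 2 = 4 from rfl,
        h9, one_pow, S.ι_one] at h10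
      grind
    · rw [hδ v, ← fe_commutator_ξ h' (hI.commutator_mem_sq hA (hs t) v), ← e1 _ _ (hI _ (hs t)),
        fe_ξ h (hs t), hs', hδ]
  obtain ⟨u, hu, hu'⟩ := SetLike.exists_of_lt hC.lt
  refine hu' (hI.mem_of_inv_mul' (S.gen.pow_ne_one S.two_lt k0 kn)
    (h3 _ (mul_mem (inv_mem hu) (hC.inv.pow k hu)) fun t => ?_))
  rw [h2, h4 u hu, ← h2, inv_mul_cancel, hδ, commutatorElement_one_right, fe, one_pow, S.ι_one]

theorem Cover.mul_self_eq_one [A.Normal] (hI : S.Inv A) (hA : Ab A) (h0 : A ≠ ⊥) (hC : Cover S A C)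
    (hna : ¬ Ab C) {c₀ : G} (hc₀ : c₀ ∈ C) (h2 : c₀ * c₀ ∉ Sz2.sq A) : HasExp A 0 := by
  have := hC.normal
  obtain ⟨u, g, hu, hg, hgA, hgξ⟩ := hC.exists_eigen hI
  have h3 : Sz2.sq C = A := by
    by_contra h3
    exact h2 (hI.le_sq hA hC.inv.sq (sq_le_iff.mpr hC.sq) h3 (mul_self_mem_sq hc₀))
  have h4 : ⁅C, C⁆ ≤ A := Subgroup.commutator_le.mpr fun c hc d _ => hC.comm c hc d
  obtain ⟨e', h'⟩ := exists_hasExp S.pgroup (A := ⁅C, C⁆) fun h => hna fun a ha b hb =>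
    commutatorElement_eq_one_iff_commute.mp
      (Subgroup.mem_bot.mp (h ▸ Subgroup.commutator_mem_commutator ha hb))
  have hI' := hC.inv.commutator hC.inv
  have hA' := hA.mono h4
  have hl : ∀ y ∈ C, AddOn C fun x => S.fe e' ⁅x, y⁆ :=
    fun y hy => hI'.addOn_left hA' h' fun x hx => Subgroup.commutator_mem_commutator hx hy
  have hr : ∀ x ∈ C, AddOn C fun y => S.fe e' ⁅x, y⁆ :=
    fun x hx => hI'.addOn_right hA' h' fun y hy => Subgroup.commutator_mem_commutator hx hy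
  obtain ⟨x, hx, y, hy, h5⟩ : ∃ x ∈ C, ∃ y ∈ C, S.fe e' ⁅x, y⁆ ≠ 0 := by
    by_contra h5
    push Not at h5
    obtain ⟨a, ha, h6⟩ := hI'.fe_surj hA' h' 1
    have : ⁅C, C⁆ ≤ (addOn_fe (S := S) hA' h').ker := Subgroup.commutator_le.mpr fun c hc d hd =>
      ⟨Subgroup.commutator_mem_commutator hc hd, h5 c hc d hd⟩
    exact one_ne_zero (h6.symm.trans (this ha).2)
  obtain ⟨σ, τ, hστ, h6⟩ := exists_of_alt (B := fun x y => S.fe e' ⁅x, y⁆)
    ⟨hg, hg, hl, hr, fun x hx y hy h => (hl y hy).sq (h3 ▸ (hgA x hx).mp h),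
      fun x hx y hy h => (hr x hx).sq (h3 ▸ (hgA y hy).mp h), hC.inv, hC.inv, hu, hu, S.gen.1,
      fun x _ => hgξ x, fun x _ => hgξ x,
      fun x hx y hy => fe_commutator_ξ h' (Subgroup.commutator_mem_commutator hx hy)⟩ S.gen
    (fun x _ => by simp [fe, S.ι_one]) hx hy h5
  have hgen := S.gen.of_aut_two h6
  obtain ⟨e, h⟩ := exists_hasExp S.pgroup h0
  have h7 := mt (hI.fe_eq_zero hA h (hC.sq _ hc₀)).mp h2
  obtain ⟨x, hx, y, hy, h8⟩ : ∃ x ∈ C, ∃ y ∈ C, S.fe e ⁅x, y⁆ ≠ 0 := by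
    by_contra h8
    push Not at h8
    obtain ⟨ρ, hρ⟩ := exists_of_ne_zero_one (h := fun c => S.fe e (c * c)) hg
      (fun x hx y hy => by
        simp only
        rw [hI.fe_mul_sq hA h (hC.sq x hx) (hC.sq y hy) (hC.comm y hy x), h8 y hy x hx, add_zero])
      (fun x hx h0 => (addOn_fe hA h).mul_self ((hgA x hx).mp h0)) hC.inv hu S.gen.1
      (fun x _ => hgξ x) (fun x hx => by rw [← map_mul, fe_ξ h (hC.sq x hx)]) hc₀ h7
    exact hστ (hgen.one_two (hρ.trans h6.symm))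
  rcases e with _ | e
  · exact h
  exfalso
  have h' := h.sq hA
  have hA' := hA.mono (sq_le A)
  have hD : ∀ u, AddOn A fun a => S.fe e ⁅a, u⁆ :=
    fun u => hI.sq.addOn_left hA' h' fun a ha => hI.commutator_mem_sq hA ha u
  have hB : Biadd A C (S.fe (e + 1)) g S.ξ S.ξ S.l u S.l fun a c => S.fe e ⁅a, c⁆ :=
    ⟨addOn_fe hA h, hg, fun y _ => hD y,
      fun a ha => hI.sq.addOn_right hA' h' fun u _ => hI.commutator_mem_sq hA ha u,
      fun a ha y _ h0 => (hD y).sq ((hI.fe_eq_zero hA h ha).mp h0),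
      fun a ha y hy h0 => by
        simp [fe, commutatorElement_eq_one_iff_commute.mpr (hA a ha y ((hgA y hy).mp h0)), S.ι_one],
      hI, hC.inv, S.gen.1, hu, S.gen.1, fun _ => fe_ξ h, fun x _ => hgξ x,
      fun a ha y _ => fe_commutator_ξ h' (hI.commutator_mem_sq hA ha y)⟩
  have key := fun (ρ π : F ≃+* F) (h9 : ρ S.l * π u = S.l) => Big.key h6 h9
  have h9 : ∀ a ∈ A, ∀ c ∈ C, S.fe e ⁅a, c⁆ = 0 := by
    intro a ha c hc
    by_contra h9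
    obtain ⟨ρ, π, h10⟩ := hB.exists_of_ne_zero ha hc h9
    obtain ⟨d, hd⟩ := hB.exists_single ρ π fun ρ' π' h11 => by
      simpa using (hgen.aut σ).three_unique S.two_lt (key _ _ h10) (key _ _ h11)
    have h11 := hd _ (hC.sq _ hc₀) _ hc₀
    rw [commutatorElement_eq_one_iff_commute.mpr ((Commute.refl c₀).mul_left (Commute.refl c₀)), fe,
      one_pow, S.ι_one] at h11
    have h12 : g c₀ ≠ 0 := fun h0 => h2 (mul_self_mem_sq ((hgA _ hc₀).mp h0))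
    rw [hd a ha c hc] at h9
    exact mul_ne_zero (left_ne_zero_of_mul h9) (by simp [h7, h12]) h11.symm
  have h10 := hC.comm x hx y
  have h11 := h9 _ (hC.sq x hx) y hy
  rw [show ⁅x * x, y⁆ = ⁅⁅x, y⁆, x⁆⁻¹ * (⁅x, y⁆ * ⁅x, y⁆) by simp [commutatorElement_def, mul_assoc],
    addOn_fe hA' h' _ (inv_mem (hI.commutator_mem_sq hA h10 x)) _ (mul_self_mem_sq h10),
    (addOn_fe hA' h').inv (hI.commutator_mem_sq hA h10 x), h9 _ h10 x hx, zero_add,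
    fe_mul_self] at h11
  exact h8 h11

theorem ab_Om : Ab S.Om := fun a ha b _ => S.central a ha b

theorem hasExp_Om : HasExp S.Om 0 := by
  refine ⟨fun a ha => by simpa [mem_Om] using ha, ?_⟩
  obtain ⟨z, hz, h⟩ := S.ι_surj 1
  refine ⟨z, hz, fun h1 => ?_⟩
  rw [show z = 1 by simpa using h1, S.ι_one] at h
  exact zero_ne_one h

theorem fe_zero (a : G) : S.fe 0 a = S.ι a := by simp [fe]

theorem biadd_Om {B : Subgroup G} (hB : S.Inv B) (hsq : ∀ b ∈ B, b * b ∈ S.Om) {u : F}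
    {g : G → F} (hu : u ≠ 0) (hg : AddOn B g) (hk : ∀ x ∈ B, g x = 0 → x ∈ S.Om)
    (hξ : ∀ x ∈ B, g (S.ξ x) = u * g x) :
    Biadd B B g g S.ξ S.ξ u u S.l fun x y => S.fe 0 ⁅x, y⁆ := by
  have h1 : ∀ x ∈ B, ∀ y ∈ B, ⁅x, y⁆ ∈ S.Om :=
    fun x hx y hy => sq_le_iff.mpr hsq (commutator_mem_sq hx hy)
  exact ⟨hg, hg, fun y hy => S.inv_Om.addOn_left ab_Om hasExp_Om fun x hx => h1 x hx y hy,
    fun x hx => S.inv_Om.addOn_right ab_Om hasExp_Om fun y hy => h1 x hx y hy,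
    fun x hx y _ h0 => by
      simp [fe, commutatorElement_eq_one_iff_mul_comm.mpr (S.central x (hk x hx h0) y), S.ι_one],
    fun x _ y hy h0 => by
      simp [fe, commutatorElement_eq_one_iff_mul_comm.mpr (S.central y (hk y hy h0) x).symm, S.ι_one],
    hB, hB, hu, hu, S.gen.1, hξ, hξ, fun x hx y hy => fe_commutator_ξ hasExp_Om (h1 x hx y hy)⟩

theorem exists_weight {B : Subgroup G} (hB : S.Inv B) (hsq : ∀ b ∈ B, b * b ∈ S.Om) {u : F}
    {g : G → F} (hu : u ≠ 0) (hg : AddOn B g) (hk : ∀ x ∈ B, g x = 0 → x ∈ S.Om)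
    (hξ : ∀ x ∈ B, g (S.ξ x) = u * g x) {b : G} (hb : b ∈ B) (hb' : b ∉ S.Om) :
    ∃ σ τ : F ≃+* F, σ u * τ u = S.l := by
  by_cases h : ∀ x ∈ B, ∀ y ∈ B, S.fe 0 ⁅x, y⁆ = 0
  · obtain ⟨ρ, hρ⟩ := exists_of_ne_zero_one (h := fun c => S.fe 0 (c * c)) hg
      (fun x hx y hy => by
        simp only
        rw [S.inv_Om.fe_mul_sq ab_Om hasExp_Om (hsq x hx) (hsq y hy)
          (sq_le_iff.mpr hsq (commutator_mem_sq hy hx)), h y hy x hx, add_zero])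
      (fun x hx h0 => by rw [show x * x = 1 from hk x hx h0, fe_zero, S.ι_one]) hB hu S.gen.1 hξ
      (fun x hx => by rw [← map_mul, fe_ξ hasExp_Om (hsq x hx)]) hb
      (fun h0 => hb' (S.ι_eq_zero _ (hsq b hb) (by rwa [← fe_zero])))
    refine ⟨(frob F)⁻¹ * ρ, (frob F)⁻¹ * ρ, ?_⟩
    rw [← pow_two, RingAut.mul_apply, hρ]
    exact (frob F).apply_symm_apply _
  · push Not at h
    obtain ⟨x, hx, y, hy, h⟩ := h
    exact (biadd_Om hB hsq hu hg hk hξ).exists_of_ne_zero hx hy h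

/-- A maximal normal abelian invariant subgroup. -/
structure MaxAb (S : Hg G F) (A : Subgroup G) : Prop where
  normal : A.Normal
  inv : S.Inv A
  ab : Ab A
  ne_bot : A ≠ ⊥
  max : ∀ C, Cover S A C → ¬ Ab C

theorem exists_maxAb (S : Hg G F) : ∃ A, MaxAb S A := by
  obtain ⟨A, h1, ⟨h2, h3, h4⟩, h5⟩ := Finite.exists_le_maximal
    (p := fun A : Subgroup G => A.Normal ∧ S.Inv A ∧ Ab A) ⟨inferInstance, S.inv_Om, ab_Om⟩
  exact ⟨A, h2, h3, h4, fun h => HasExp.ne_bot hasExp_Om (le_bot_iff.mp (h ▸ h1)),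
    fun C hC h => hC.lt.not_ge (h5 ⟨hC.normal, hC.inv, h⟩ hC.lt.le)⟩

theorem MaxAb.hasExp (h : MaxAb S A) (hne : A ≠ ⊤) : HasExp A 0 ∨ HasExp A 1 := by
  have := h.normal
  obtain ⟨C, -, hC⟩ := h.inv.exists_cover S.inv_top hne.lt_top
  by_cases h1 : ∀ c ∈ C, c * c ∈ Sz2.sq A
  · obtain ⟨e, he⟩ := exists_hasExp S.pgroup h.ne_bot
    rcases e with _ | _ | e
    · exact Or.inl he
    · exact Or.inr he
    · exact absurd he (hC.not_hasExp h.inv h.ab h1)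
  · push Not at h1
    obtain ⟨c, hc, h1⟩ := h1
    exact Or.inl (hC.mul_self_eq_one h.inv h.ab h.ne_bot (h.max C hC) hc h1)

theorem commute_mul_self {c g : G} (h : ⁅c, g⁆ ∈ S.Om) : Commute c (g * g) := by
  rw [← commutatorElement_eq_one_iff_commute, show ⁅c, g * g⁆ = ⁅c, g⁆ * (g * ⁅c, g⁆ * g⁻¹) by
    simp [commutatorElement_def, mul_assoc], ← S.central _ h, mul_inv_cancel_right]
  exact h

theorem MaxAb.sq_le (h : MaxAb S A) (hne : A ≠ ⊤) : Sz2.sq ⊤ ≤ A := by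
  have := h.normal
  have h1 : Sz2.sq A ≤ S.Om := sq_le_iff.mpr fun a ha => by
    rcases h.hasExp hne with h2 | h2
    · rw [show a * a = 1 by simpa using h2.1 a ha]
      exact one_mem _
    · simpa [pow_two, mem_Om] using h2.1 a ha
  have key : ∀ c, (∀ g, ⁅c, g⁆ ∈ S.Om) → Sz2.sq ⊤ ≤ Subgroup.centralizer {c} := fun c hc =>
    sq_le_iff.mpr fun g _ => Subgroup.mem_centralizer_singleton_iff.mpr (commute_mul_self (hc g)).symm
  by_contra hc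
  obtain ⟨C, hCD, hC⟩ := h.inv.exists_cover (S.inv_top.sq.sup h.inv)
    (lt_of_le_of_ne le_sup_right fun h => hc (h ▸ le_sup_left))
  have h2 : ∀ a ∈ A, ∀ c ∈ C, c * a = a * c := fun a ha c hc =>
    Subgroup.mem_centralizer_singleton_iff.mp (sup_le
      (key a fun g => h1 (h.inv.commutator_mem_sq h.ab ha g))
      (fun b hb => Subgroup.mem_centralizer_singleton_iff.mpr (h.ab b hb a ha)) (hCD hc))
  by_cases h3 : ∀ c ∈ C, c * c ∈ Sz2.sq A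
  · obtain ⟨u, hu, hu'⟩ := SetLike.exists_of_lt hC.lt
    refine hu' (h.inv.mem_of_commutator h.ab h.ne_bot (h3 u hu) fun a ha => ?_)
    rw [commutatorElement_eq_one_iff_mul_comm.mpr (h2 a ha u hu).symm]
    exact one_mem _
  · push Not at h3
    obtain ⟨c, hc, h3⟩ := h3
    have h4 := hC.mul_self_eq_one h.inv h.ab h.ne_bot (h.max C hC) hc h3
    refine h.max C hC fun c hc d hd => Subgroup.mem_centralizer_singleton_iff.mp (sup_le
      (key d fun g => by simpa [mem_Om] using h4.1 _ (hC.comm d hd g))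
      (fun b hb => Subgroup.mem_centralizer_singleton_iff.mpr (h2 b hb d hd).symm) (hCD hc))

theorem MaxAb.commutator_mem_Om (h : MaxAb S A) (he : HasExp A 1) (hC : Cover S A C)
    (hsq : ∀ c ∈ C, c * c ∈ S.Om) {c₀ : G} (hc₀ : c₀ ∈ C) (y₀ : G) : S.fe 1 ⁅c₀, y₀⁆ = 0 := by
  have := h.normal
  by_contra h0
  have hA' := h.ab.mono (Sz2.sq_le A)
  have he' := he.sq h.ab
  have h1 : Sz2.sq A ≤ S.Om := sq_le_iff.mpr fun a ha => by simpa [pow_two, mem_Om] using he.1 a ha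
  obtain ⟨u, g, hu, hg, hgA, hgξ⟩ := hC.exists_eigen h.inv
  obtain ⟨B, -, hB1, hB2, hB3, hB4⟩ := maschke S.ξ odd_card_sub_one S.ξ_pow hsq
    (h.inv.Om_le h.ne_bot) hC.lt.le S.inv_Om h.inv hC.inv
  obtain ⟨c₁, hc₁, hc₁'⟩ := SetLike.exists_of_lt hC.lt
  obtain ⟨a, ha, b, hb, rfl⟩ := hB4 c₁ hc₁
  obtain ⟨σ, τ, h6⟩ := exists_weight hB2 (fun b hb => hsq b (hB1 hb)) hu (hg.mono hB1)
    (fun x hx h0 => hB3 ⟨(hgA x (hB1 hx)).mp h0, hx⟩) (fun x _ => hgξ x) hb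
    (fun h2 => hc₁' (mul_mem ha (h.inv.Om_le h.ne_bot h2)))
  have hgen := S.gen.of_aut_two h6
  have hD : ∀ u, AddOn A fun a => S.fe 0 ⁅a, u⁆ :=
    fun u => h.inv.sq.addOn_left hA' he' fun a ha => h.inv.commutator_mem_sq h.ab ha u
  have hB : Biadd A C (S.fe 1) g S.ξ S.ξ S.l u S.l fun a c => S.fe 0 ⁅a, c⁆ :=
    ⟨addOn_fe h.ab he, hg, fun y _ => hD y,
      fun a ha => h.inv.sq.addOn_right hA' he' fun u _ => h.inv.commutator_mem_sq h.ab ha u,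
      fun a ha y _ h0 => (hD y).sq ((h.inv.fe_eq_zero h.ab he ha).mp h0),
      fun a ha y hy h0 => by
        simp [fe, commutatorElement_eq_one_iff_commute.mpr (h.ab a ha y ((hgA y hy).mp h0)), S.ι_one],
      h.inv, hC.inv, S.gen.1, hu, S.gen.1, fun _ => fe_ξ he, fun x _ => hgξ x,
      fun a ha y _ => fe_commutator_ξ he' (h.inv.commutator_mem_sq h.ab ha y)⟩
  have key := fun (ρ π : F ≃+* F) (h9 : ρ S.l * π u = S.l) => Big.key h6 h9
  have h2 : ∀ c ∈ C, ∀ y, S.fe 0 ⁅⁅c, y⁆, c⁆ = S.fe 1 ⁅c, y⁆ := by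
    intro c hc y
    have h3 : ⁅c * c, y⁆ = 1 := commutatorElement_eq_one_iff_mul_comm.mpr (S.central _ (hsq c hc) y)
    rw [show ⁅c * c, y⁆ = ⁅⁅c, y⁆, c⁆⁻¹ * (⁅c, y⁆ * ⁅c, y⁆) by
      simp [commutatorElement_def, mul_assoc], inv_mul_eq_one] at h3
    rw [h3, fe_mul_self]
  obtain ⟨ρ, π, h10⟩ := hB.exists_of_ne_zero (hC.comm c₀ hc₀ y₀) hc₀ (by rwa [h2 c₀ hc₀])
  obtain ⟨d, hd⟩ := hB.exists_single ρ π fun ρ' π' h11 => by
    simpa using (hgen.aut σ).three_unique S.two_lt (key _ _ h10) (key _ _ h11)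
  have h3 : ∀ c ∈ C, ∀ y, S.fe 1 ⁅c, y⁆ = d * (ρ (S.fe 1 ⁅c, y⁆) * π (g c)) :=
    fun c hc y => by rw [← hd _ (hC.comm c hc y) c hc, h2 c hc]
  have hl : ∀ y, AddOn C fun c => S.fe 1 ⁅c, y⁆ :=
    fun y => h.inv.addOn_left h.ab he fun c hc => hC.comm c hc y
  have hr : ∀ c ∈ C, AddOn ⊤ fun y => S.fe 1 ⁅c, y⁆ :=
    fun c hc => h.inv.addOn_right h.ab he fun y _ => hC.comm c hc y
  have h4 : ∀ y, ∀ c ∈ C, ∀ c' ∈ C, S.fe 1 ⁅c, y⁆ ≠ 0 → S.fe 1 ⁅c', y⁆ = 0 → c' ∈ A := by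
    intro y c hc c' hc' h4 h5
    have h6 := h3 _ (mul_mem hc hc') y
    rw [show S.fe 1 ⁅c * c', y⁆ = S.fe 1 ⁅c, y⁆ + S.fe 1 ⁅c', y⁆ from hl y c hc c' hc', h5, add_zero, hg c hc c' hc', map_add,
      mul_add, mul_add, ← h3 c hc y, left_eq_add] at h6
    rw [h3 c hc y] at h4
    simpa [left_ne_zero_of_mul h4, left_ne_zero_of_mul (right_ne_zero_of_mul h4), hgA c' hc'] using h6
  have h5 : c₀ ∉ A := fun h5 => h0 ((addOn_fe h.ab he).sq (h.inv.commutator_mem_sq h.ab h5 y₀))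
  let R : Subgroup G := ⨅ c : C, (hr c c.2).ker
  have hR : ∀ y, y ∈ R ↔ S.fe 1 ⁅c₀, y⁆ = 0 := fun y => by
    simp only [R, Subgroup.mem_iInf, AddOn.mem_ker, Subgroup.mem_top, true_and]
    exact ⟨fun h => h ⟨c₀, hc₀⟩, fun h c => by_contra fun h' => h5 (h4 y c c.2 c₀ hc₀ h' h)⟩
  have hRξ : ∀ y, S.ξ y ∈ R ↔ y ∈ R := fun y => by
    have h7 : ∀ c ∈ C, S.fe 1 ⁅S.ξ c, S.ξ y⁆ = 0 ↔ S.fe 1 ⁅c, y⁆ = 0 := fun c hc => by
      simp [fe_commutator_ξ he (hC.comm c hc y), S.gen.1]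
    simp only [R, Subgroup.mem_iInf, AddOn.mem_ker, Subgroup.mem_top, true_and]
    refine ⟨fun h c => (h7 c c.2).mp (h ⟨_, hC.inv c c.2⟩), fun h c => ?_⟩
    obtain ⟨c', hc', h8⟩ := hC.inv.exists_ξ c.2
    rw [← h8, h7 c' hc']
    exact h ⟨c', hc'⟩
  have h7 : S.fe 1 ⁅c₀, S.ξ y₀⁆ ≠ 0 := by rwa [Ne, ← hR, hRξ, hR]
  refine h0 ((hR y₀).mp (Inv.mem_of_inv_mul (fun y => (hRξ y).mpr) ((hR _).mpr ?_)))
  rw [show S.fe 1 ⁅c₀, y₀⁻¹ * S.ξ y₀⁆ = S.fe 1 ⁅c₀, y₀⁻¹⁆ + S.fe 1 ⁅c₀, S.ξ y₀⁆ from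
      hr c₀ hc₀ _ trivial _ trivial,
    show S.fe 1 ⁅c₀, y₀⁻¹⁆ = S.fe 1 ⁅c₀, y₀⁆ from (hr c₀ hc₀).inv trivial]
  have h8 := h3 c₀ hc₀ y₀
  have h9 := h3 c₀ hc₀ (S.ξ y₀)
  generalize S.fe 1 ⁅c₀, y₀⁆ = b at h0 h8
  generalize S.fe 1 ⁅c₀, S.ξ y₀⁆ = b' at h7 h9
  have h11 : ρ (b / b') = b / b' := by
    have h11 : ρ b' ≠ 0 := by simpa using h7
    rw [map_div₀, div_eq_div_iff h11 h7]
    linear_combination ρ b * h9 - ρ b' * h8
  rcases (hgen.aut σ).three_fix S.two_lt (key _ _ h10) h11 with h12 | h12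
  · exact absurd h12 (div_ne_zero h0 h7)
  · rw [(div_eq_one_iff_eq h7).mp h12, CharTwo.add_self_eq_zero]

/-- **Higman**: a non-abelian group has exponent four. -/
theorem mul_self_mem_Om (S : Hg G F) (hna : ∃ x y : G, x * y ≠ y * x) (g : G) : g * g ∈ S.Om := by
  obtain ⟨A, h⟩ := S.exists_maxAb
  have := h.normal
  have hne : A ≠ ⊤ := by
    rintro rfl
    obtain ⟨x, y, hxy⟩ := hna
    exact hxy (h.ab x trivial y trivial)
  have h1 := sq_le_iff.mp (h.sq_le hne)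
  rcases h.hasExp hne with he | he
  · simpa [mem_Om] using he.1 _ (h1 g trivial)
  have h2 : Sz2.sq A = S.Om := le_antisymm
    (sq_le_iff.mpr fun a ha => by simpa [pow_two, mem_Om] using he.1 a ha)
    (h.inv.sq.Om_le (HasExp.ne_bot (he.sq h.ab)))
  have h3 : ∀ x y, ⁅x, y⁆ ∈ A := fun x y => h.sq_le hne (commutator_mem_sq trivial trivial)
  have hl : ∀ y, AddOn ⊤ fun c => S.fe 1 ⁅c, y⁆ :=
    fun y => h.inv.addOn_left h.ab he fun c _ => h3 c y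
  have h4 : AddOn (⨅ y, (hl y).ker) fun x => S.fe 1 (x * x) := fun x hx y _ => by
    simp only
    rw [h.inv.fe_mul_sq h.ab he (h1 x trivial) (h1 y trivial) (h3 y x),
      fe_commutator_symm h.ab he (h3 x y), 
      show S.fe 1 ⁅x, y⁆ = 0 from (Subgroup.mem_iInf.mp hx y).2, add_zero]
  have h5 : ∀ x, x ∈ h4.ker ↔ (∀ y, S.fe 1 ⁅x, y⁆ = 0) ∧ x * x ∈ S.Om := fun x => by
    simp [AddOn.mem_ker, Subgroup.mem_iInf, h.inv.fe_eq_zero h.ab he (h1 x trivial), h2]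
  have h6 : A ≤ h4.ker := fun a ha => (h5 a).mpr ⟨fun y =>
    (addOn_fe h.ab he).sq (h.inv.commutator_mem_sq h.ab ha y), h2 ▸ mul_self_mem_sq ha⟩
  obtain ⟨B, hB0, -, hB2, hB3, hB4⟩ := maschke S.ξ odd_card_sub_one S.ξ_pow h1 h6 le_top h.inv
    (fun x hx => (h5 _).mpr ⟨fun y => by
      obtain ⟨y, rfl⟩ := S.ξ.surjective y
      rw [fe_commutator_ξ he (h3 x y), ((h5 x).mp hx).1, mul_zero], by
      rw [← map_mul]; exact S.inv_Om _ ((h5 x).mp hx).2⟩) S.inv_top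
  by_cases h7 : A = B
  · subst h7
    obtain ⟨x, hx, b, hb, rfl⟩ := hB4 g trivial
    exact ((h5 _).mp (mul_mem hx (h6 hb))).2
  have : B.Normal := ⟨fun x hx g => by
    rw [show g * x * g⁻¹ = ⁅g, x⁆ * x by simp [commutatorElement_def]]
    exact mul_mem (hB0 (h3 g x)) hx⟩
  obtain ⟨C, hCB, hC⟩ := h.inv.exists_cover hB2 (lt_of_le_of_ne hB0 h7)
  have h8 : ∀ c ∈ C, c * c ∈ S.Om := fun c hc => by
    by_contra h8
    obtain ⟨a, ha, h9⟩ := he.2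
    exact h9 (by simpa [pow_two] using
      (hC.mul_self_eq_one h.inv h.ab h.ne_bot (h.max C hC) hc (h2 ▸ h8)).1 a ha)
  obtain ⟨c, hc, hc'⟩ := SetLike.exists_of_lt hC.lt
  exact absurd (hB3 ⟨(h5 c).mpr ⟨h.commutator_mem_Om he hC h8 hc, h8 c hc⟩, hCB hc⟩) hc'

variable (S)

theorem inv_center : S.Inv (Subgroup.center G) := fun x hx => Subgroup.mem_center_iff.mpr fun g => by
  obtain ⟨g, rfl⟩ := S.ξ.surjective g
  rw [← map_mul, ← map_mul, Subgroup.mem_center_iff.mp hx]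

theorem center_eq (hna : ∃ x y : G, x * y ≠ y * x) : Subgroup.center G = S.Om := by
  have h1 : S.Om ≤ Subgroup.center G :=
    fun z hz => Subgroup.mem_center_iff.mpr fun g => (S.central z hz g).symm
  refine le_antisymm (fun z hz => ?_) h1
  by_contra hc
  have hA : Ab (Subgroup.center G) := fun a _ b hb => Subgroup.mem_center_iff.mp hb a
  have h2 := S.inv_center.sq.Om_le fun h => hc (Subgroup.mem_bot.mp (h ▸ mul_self_mem_sq hz))
  obtain ⟨x, y, hxy⟩ := id hna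
  obtain ⟨w, hw, h3⟩ := hA.mem_sq.mp (h2 (S.mul_self_mem_Om hna x))
  have h4 : x * w⁻¹ ∈ S.Om := by
    rw [mem_Om, mul_assoc, ← mul_assoc w⁻¹, ← Subgroup.mem_center_iff.mp (inv_mem hw) x, mul_assoc,
      ← mul_assoc, ← h3]
    group
  exact hxy (Subgroup.mem_center_iff.mp (by simpa using mul_mem (h1 h4) hw) y).symm

theorem commutator_mem_Om (hna : ∃ x y : G, x * y ≠ y * x) (x y : G) : ⁅x, y⁆ ∈ S.Om :=
  sq_le_iff.mpr (fun g _ => S.mul_self_mem_Om hna g)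
    (commutator_mem_sq (Subgroup.mem_top x) (Subgroup.mem_top y))

theorem sq_top_eq (hna : ∃ x y : G, x * y ≠ y * x) : Sz2.sq ⊤ = S.Om := by
  refine le_antisymm (sq_le_iff.mpr fun g _ => S.mul_self_mem_Om hna g) (S.inv_top.sq.Om_le fun h => ?_)
  obtain ⟨x, y, hxy⟩ := hna
  exact hxy (commutatorElement_eq_one_iff_mul_comm.mp
    (Subgroup.mem_bot.mp (h ▸ commutator_mem_sq (Subgroup.mem_top x) (Subgroup.mem_top y))))

theorem commutator_eq (hna : ∃ x y : G, x * y ≠ y * x) : commutator G = S.Om := by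
  refine le_antisymm (Subgroup.commutator_le.mpr fun x _ y _ => S.commutator_mem_Om hna x y)
    ((S.inv_top.commutator S.inv_top).Om_le fun h => ?_)
  obtain ⟨x, y, hxy⟩ := hna
  exact hxy (commutatorElement_eq_one_iff_mul_comm.mp (Subgroup.mem_bot.mp
    (h ▸ Subgroup.commutator_mem_commutator (Subgroup.mem_top x) (Subgroup.mem_top y))))

end Hg

end Cfsg.Agent.Chev.Sh
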