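import Mathlib
import Cfsg.Agent.Chev.Sz2Main
import Cfsg.Agent.S3360

/-!
# Suzuki 2-groups with a soluble group of automorphisms: the set-up
-/

set_option autoImplicit false

namespace Cfsg.Agent.Chev.Sh

open Cfsg.Agent.Chev.Sz2

theorem exists_coprime_part (c : ℕ) {o : ℕ} (ho : o ≠ 0) :
    ∃ j t, j.Coprime c ∧ o ∣ j * c ^ t := by
  induction o using Nat.strong_induction_on with
  | _ o ih =>
    by_cases h : o.Coprime c
    · exact ⟨o, 0, h, by simp⟩
    · have h1 : 0 < o.gcd c := Nat.gcd_pos_of_pos_left _ (Nat.pos_of_ne_zero ho)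
      obtain ⟨k, hk⟩ := Nat.gcd_dvd_left o c
      have h2 : k ≠ 0 := by
        rintro rfl
        exact ho (by simpa using hk)
      obtain ⟨j, t, h3, h4⟩ := ih k (by
        have : 2 ≤ o.gcd c := by
          have : o.gcd c ≠ 1 := h
          omega
        nlinarith [Nat.pos_of_ne_zero h2]) h2
      refine ⟨j, t + 1, h3, ?_⟩
      rw [hk, pow_succ, ← mul_assoc, mul_comm]
      exact mul_dvd_mul h4 (Nat.gcd_dvd_right _ _)

/-- A transitive one-dimensional semilinear group contains a scalar of small index. -/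
theorem exists_scalar {Y : Type*} [Group Y] [Finite Y] {F : Type*} [Field F] [Finite F] [CharP F 2]
    (T : Y → F → F) (hT : ∀ y y' x, T (y * y') x = T y (T y' x)) (h1 : ∀ x, T 1 x = x)
    (hs : ∀ y, ∃ (a : Fˣ) (σ : F ≃+* F), ∀ x, T y x = a * σ x)
    (htr : ∀ x, x ≠ 0 → ∃ y, T y 1 = x) :
    ∃ (y : Y) (l : Fˣ), (∀ x, T y x = l * x) ∧
      ∃ d, d ∣ Nat.card (F ≃+* F) ∧ orderOf l * d + 1 = Nat.card F := by
  choose a σ h using hs
  have h2 : ∀ y y', a (y * y') = a y * Units.map (σ y : F →* F) (a y') ∧ σ (y * y') = σ y * σ y' :=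
    fun y y' => TA.aut_inj_x fun x => by rw [← h, hT, h, h]; simp [mul_assoc]
  have h3 : a 1 = 1 ∧ σ 1 = 1 := TA.aut_inj_x fun x => by rw [← h, h1]; simp
  let π : Y →* (F ≃+* F) := MonoidHom.mk' σ fun y y' => (h2 y y').2
  let α : π.ker →* Fˣ := MonoidHom.mk' (fun y => a y) fun y y' => by
    rw [Subgroup.coe_mul, (h2 _ _).1, show σ y = 1 from y.2]
    rfl
  have h4 : ∀ (τ : F ≃+* F) (u : Fˣ), u ∈ α.range ↔ Units.map (τ : F →* F) u ∈ α.range := by
    have key : ∀ (τ : F ≃+* F) (u : Fˣ), u ∈ α.range → Units.map (τ : F →* F) u ∈ α.range :=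
      fun τ u hu => by
        obtain ⟨i, hi⟩ := exists_pow τ
        rw [show Units.map (τ : F →* F) u = u ^ 2 ^ i from Units.ext (by simpa using hi u)]
        exact pow_mem hu _
    refine fun τ u => ⟨key τ u, fun hu => ?_⟩
    have := key τ.symm _ hu
    rwa [show Units.map (τ.symm : F →* F) (Units.map (τ : F →* F) u) = u from Units.ext (by simp)]
      at this
  let B : Subgroup Y :=
    { carrier := {y | a y ∈ α.range}
      one_mem' := by
        rw [Set.mem_ofPred_eq, h3.1]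
        exact one_mem _
      mul_mem' := fun {y y'} hy hy' => by
        rw [Set.mem_ofPred_eq, (h2 _ _).1]
        exact mul_mem hy ((h4 _ _).1 hy')
      inv_mem' := fun {y} hy => by
        have h5 := (h2 y y⁻¹).1
        rw [mul_inv_cancel, h3.1] at h5
        rw [Set.mem_ofPred_eq, h4 (σ y), ← inv_mem_iff, ← eq_inv_of_mul_eq_one_left h5.symm]
        exact hy }
  have h5 : B.index = α.range.index := by
    refine Nat.card_congr ((Quotient.congrRight fun y y' => ?_).trans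
      (Setoid.quotientKerEquivOfSurjective (fun y => (a y : Fˣ ⧸ α.range)) fun u => ?_))
    · have h6 := (h2 y (y⁻¹ * y')).1
      rw [mul_inv_cancel_left] at h6
      rw [QuotientGroup.leftRel_apply, Setoid.ker_def, QuotientGroup.eq, h6, inv_mul_cancel_left,
        ← h4]
      rfl
    · obtain ⟨u, rfl⟩ := QuotientGroup.mk_surjective u
      obtain ⟨y, hy⟩ := htr u u.ne_zero
      exact ⟨y, congrArg _ (Units.ext (by simpa [h] using hy))⟩
  obtain ⟨⟨l, y, rfl⟩, hl⟩ := IsCyclic.exists_generator (α := α.range)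
  refine ⟨y, α y, fun x => by rw [h, show σ y = 1 from y.2]; rfl, α.range.index, ?_, ?_⟩
  · rw [← h5]
    refine (Subgroup.index_dvd_of_le (H := π.ker) (K := B) fun z hz =>
      show a z ∈ α.range from ⟨⟨z, hz⟩, rfl⟩).trans ?_
    rw [Subgroup.index_ker]
    exact Subgroup.card_subgroup_dvd_card _
  · have h6 := orderOf_eq_card_of_forall_mem_zpowers hl
    rw [← Subgroup.orderOf_coe] at h6
    rw [h6, Subgroup.card_mul_index, Nat.card_units]
    have := Nat.card_pos (α := F)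
    omega

open scoped IsMulCommutative in
theorem exists_setup {G : Type*} [Group G] [Finite G] (hG : IsPGroup 2 G)
    (htwo : ∃ x y : G, x ≠ y ∧ x ≠ 1 ∧ x ^ 2 = 1 ∧ y ≠ 1 ∧ y ^ 2 = 1)
    (hY : ∃ Y : Subgroup (MulAut G), Group.IsSolvable Y ∧
      ∀ x y : G, x ≠ 1 → x ^ 2 = 1 → y ≠ 1 → y ^ 2 = 1 → ∃ a ∈ Y, a x = y) :
    ∃ (F : Type) (_ : Field F) (_ : Finite F) (_ : CharP F 2) (ξ : MulAut G) (l : F) (ι : G → F),
      l ≠ 0 ∧ (∃ d, d ∣ Nat.card (F ≃+* F) ∧ orderOf l * d + 1 = Nat.card F) ∧ 2 < Nat.card F ∧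
      (∃ t, ξ ^ (Nat.card F - 1) ^ t = 1) ∧ (∀ z : G, z * z = 1 → ∀ g, z * g = g * z) ∧
      (∀ z w, z * z = 1 → w * w = 1 → ι (z * w) = ι z + ι w) ∧
      (∀ z, z * z = 1 → ι z = 0 → z = 1) ∧ (∀ x, ∃ z, z * z = 1 ∧ ι z = x) ∧
      ∀ z, z * z = 1 → ι (ξ z) = l * ι z := by
  classical
  obtain ⟨x, y, hxy, hx1, hx, hy1, hy⟩ := htwo
  obtain ⟨Y, hsol, htr⟩ := hY
  simp only [pow_two] at hx hy htr
  have : Nontrivial G := ⟨x, y, hxy⟩
  have : Finite (MulAut G) := Finite.of_injective _ DFunLike.coe_injective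
  have hc : ∀ z : G, z * z = 1 → ∀ g, z * g = g * z := by
    obtain ⟨⟨w, hw⟩, hw1⟩ := @exists_ne _ hG.center_nontrivial 1
    obtain ⟨k, h1, h2⟩ := exists_pow_invol hG (x := w) fun h => hw1 (Subtype.ext h)
    intro z hz g
    by_cases h3 : z = 1
    · simp [h3]
    obtain ⟨b, -, rfl⟩ := htr _ z h1 h2 h3 hz
    obtain ⟨g, rfl⟩ := b.surjective g
    rw [← map_mul, ← map_mul, Subgroup.mem_center_iff.mp (pow_mem hw _)]
  let Om : Subgroup G :=
    { carrier := {z | z * z = 1}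
      one_mem' := mul_one _
      mul_mem' := fun {z w} (hz : z * z = 1) (hw : w * w = 1) => by
        rw [Set.mem_ofPred_eq, mul_assoc, ← mul_assoc w, ← hc z hz w, mul_assoc, hw, mul_one, hz]
      inv_mem' := fun {z} (hz : z * z = 1) => by
        rw [Set.mem_ofPred_eq, ← mul_inv_rev, hz, inv_one] }
  have hξ : ∀ (b : MulAut G), ∀ z ∈ Om, b z ∈ Om := fun b z (hz : z * z = 1) =>
    show b z * b z = 1 by rw [← map_mul, hz, map_one]
  have h3 : 2 < Nat.card Om := by
    rw [← Set.ncard_univ, Set.two_lt_ncard_iff (Set.toFinite _)]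
    exact ⟨1, ⟨x, hx⟩, ⟨y, hy⟩, trivial, trivial, trivial, fun h => hx1 (congrArg Subtype.val h).symm,
      fun h => hy1 (congrArg Subtype.val h).symm, fun h => hxy (congrArg Subtype.val h)⟩
  have : IsMulCommutative Om := ⟨⟨fun a b => Subtype.ext (hc a a.2 b)⟩⟩
  have : Nontrivial Om := Finite.one_lt_card_iff_nontrivial.1 (by omega)
  let _ : Module (ZMod 2) (Additive Om) := AddCommGroup.zmodModule fun v => by
    rw [two_nsmul]
    exact congrArg Additive.ofMul (Subtype.ext v.toMul.2 : v.toMul * v.toMul = 1)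
  let r : MulAut G → Additive Om →+ Additive Om := fun b => AddMonoidHom.mk'
    (fun v => Additive.ofMul ⟨b v.toMul, hξ b _ v.toMul.2⟩) fun v w =>
      congrArg Additive.ofMul (Subtype.ext (map_mul b _ _))
  let ρ : Y →* (Additive Om ≃ₗ[ZMod 2] Additive Om) := MonoidHom.mk' (fun b =>
    { (r b).toZModLinearMap 2 with
      invFun := r (b : MulAut G)⁻¹
      left_inv := fun v => congrArg Additive.ofMul (Subtype.ext ((b : MulAut G).symm_apply_apply _))
      right_inv := fun v => congrArg Additive.ofMul (Subtype.ext ((b : MulAut G).apply_symm_apply _)) })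
    fun _ _ => LinearEquiv.ext fun _ => rfl
  have hρ : ∀ (b : Y) (z : G) (hz : z ∈ Om),
      ρ b (Additive.ofMul ⟨z, hz⟩) = Additive.ofMul ⟨(b : MulAut G) z, hξ b z hz⟩ := fun _ _ _ => rfl
  have h4 : ∀ v w : Additive Om, v ≠ 0 → w ≠ 0 → ∃ b, ρ b v = w := fun v w hv hw => by
    obtain ⟨b, hb, h5⟩ := htr v.toMul w.toMul (fun h => hv (congrArg Additive.ofMul (Subtype.ext h)))
      v.toMul.2 (fun h => hw (congrArg Additive.ofMul (Subtype.ext h))) w.toMul.2
    exact ⟨⟨b, hb⟩, congrArg Additive.ofMul (Subtype.ext h5)⟩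
  have : Group.IsSolvable ρ.range := Group.isSolvable_of_surjective ρ.rangeRestrict_surjective
  obtain ⟨n, hn⟩ := IsPGroup.iff_card.mp (hG.to_subgroup Om)
  obtain ⟨A, _, _, hA⟩ := (Perm.huppert (ρ := ρ.range.subtype) Subtype.val_injective
    fun v w hv hw => let ⟨b, hb⟩ := h4 v w hv hw; ⟨⟨_, b, rfl⟩, hb⟩).resolve_right fun h => by
      have h5 : 2 ∣ Nat.card (Additive Om) := by
        rw [show Nat.card (Additive Om) = 2 ^ n from hn]
        exact dvd_pow_self 2 (by rintro rfl; omega)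
      simp only [Set.mem_insert_iff, Set.mem_singleton_iff] at h
      omega
  obtain ⟨k, e, -, he⟩ := hA.exists_semilinear
  obtain ⟨b, l, h5, d, h6, h7⟩ := exists_scalar (F := GaloisField 2 k)
    (fun (b : Y) t => e (ρ b (e.symm t))) (fun _ _ _ => by simp) (fun _ => by simp)
    (fun b => by
      obtain ⟨a, σ, h⟩ := he ⟨_, b, rfl⟩
      exact ⟨a, σ, fun t => by simpa using h (e.symm t)⟩)
    (fun t ht => by
      obtain ⟨b, hb⟩ := h4 (e.symm 1) (e.symm t) (by simp) (by simpa using ht)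
      exact ⟨b, by simp [hb]⟩)
  obtain ⟨j, t, h8, h9⟩ := exists_coprime_part (Nat.card (GaloisField 2 k) - 1)
    (orderOf_pos (b : MulAut G)).ne'
  let ι : G → GaloisField 2 k := fun z => if h : z ∈ Om then e (Additive.ofMul ⟨z, h⟩) else 0
  have hι : ∀ {z} (h : z ∈ Om), ι z = e (Additive.ofMul ⟨z, h⟩) := fun h => dif_pos h
  have h10 : ∀ i, ∀ z ∈ Om, ι (((b : MulAut G) ^ i) z) = l ^ i * ι z := fun i z hz => by
    induction i with
    | zero => simp
    | succ i ih =>
      rw [pow_succ', MulAut.mul_apply, hι (hξ _ _ (hξ _ _ hz)), ← hρ b _ (hξ _ _ hz), pow_succ',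
        mul_assoc, ← ih, ← h5, hι (hξ _ _ hz), e.symm_apply_apply]
  refine ⟨GaloisField 2 k, inferInstance, inferInstance, inferInstance, (b : MulAut G) ^ j, l ^ j, ι,
    pow_ne_zero _ l.ne_zero, ⟨d, h6, ?_⟩, ?_, ⟨t, ?_⟩, hc, fun z w hz hw => ?_, fun z hz h0 => ?_,
    fun u => ?_, h10 j⟩
  · rw [← Units.val_pow_eq_pow_val, orderOf_units, Nat.Coprime.orderOf_pow, h7]
    exact (h8.coprime_dvd_right (Dvd.intro d (by omega))).symm
  · rwa [← Nat.card_congr e.toEquiv]
  · rw [← pow_mul]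
    exact orderOf_dvd_iff_pow_eq_one.1 h9
  · rw [hι (mul_mem hz hw : z * w ∈ Om), hι hz, hι hw, ← map_add]
    rfl
  · rw [hι hz, e.map_eq_zero_iff] at h0
    exact congrArg Subtype.val (congrArg Additive.toMul h0)
  · exact ⟨(e.symm u).toMul, (e.symm u).toMul.2, (hι _).trans (e.apply_symm_apply u)⟩

end Cfsg.Agent.Chev.Sh
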