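import Mathlib
import Cfsg.Agent.Chev.StData2
import Cfsg.Agent.Ch.MultSL2

/-!
# The lifting property for `B₂`, `D₄`, `F₄` over the fields with three and four elements
-/

set_option autoImplicit false
set_option maxRecDepth 100000
set_option synthInstance.maxSize 100000

namespace Cfsg.Agent.Chev

open Cfsg.Lie Cfsg.Lie.ChevalleyDatum

universe u v

namespace StRoot

variable {ι Nd M : Type} [AddCommGroup M] [Fintype Nd] {K : Type*} [Field K]
  {G : Type*} [Group G] {E : Type*} [Group E] {R : StRoot ι Nd M} {x : ι → K → G} {p : E →* G}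

theorem IsModel.lc_of_swap (h₀ : R.IsModel x) (hp : IsCE p) (hK : ∀ t : K, ∃ n : ℕ, t = n)
    (h2 : (2 : K) ≠ 0) {k : G} {w : Equiv.Perm ι} {c : ι → K} (hk : R.Mono x k w c) {a b : ι}
    (hab : w a = b) (hba : w b = a) (hsq : k * k * x a 1 * (k * k)⁻¹ = x a 1)
    (hc : ∀ t u, Commute (x a t) (x b u)) (t u : K) : hp.lc (x a t) (x b u) = 1 := by
  refine hp.lc_of_swap (h₀.add a) (h₀.add b) hc hK h2 (k := k) (c := c a) (c' := c b)
    (fun t => by rw [hk.conj, hab]) (fun t => by rw [hk.conj, hba]) ?_ t u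
  rw [(hk.mul hk).conj, Equiv.Perm.mul_apply, hab, hba] at hsq
  rw [mul_comm, ← mul_one (c b * c a)]
  exact h₀.x_inj a hsq

theorem IsSt.nn_one_sq (h : R.IsSt x) (r : ι) : R.nn x r 1 * R.nn x r 1 = (R.hh x r (-1))⁻¹ := by
  rw [nn_mul_nn (h.add _) (h.add _), hh_one (h.add _) (h.add _), one_mul]

theorem IsSt.conj_hh_neg_one (h : R.IsSt x) (r s : ι) (u : K) :
    (R.hh x r (-1))⁻¹ * x s u * R.hh x r (-1) = x s ((-1) ^ R.A r s * u) := by
  have := (h.mono_hh r (t := -1) (by simp)).conj_inv s u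
  rw [Equiv.Perm.one_apply] at this
  rw [this, ← inv_zpow, inv_neg, inv_one]

theorem IsModel.lc_of_refl (h₀ : R.IsModel x) (hp : IsCE p) (hK : ∀ t : K, ∃ n : ℕ, t = n)
    (h2 : (2 : K) ≠ 0) {a b : ι} (δ : ι) (hab : R.refl δ a = b) (hA : Even (R.A δ a))
    (hc : ∀ t u, Commute (x a t) (x b u)) (t u : K) : hp.lc (x a t) (x b u) = 1 :=
  h₀.lc_of_swap hp hK h2 (h₀.mono_nn δ one_ne_zero) hab (by rw [← hab, R.refl_refl]) (by
    rw [h₀.toIsSt.nn_one_sq, inv_inv, h₀.toIsSt.conj_hh_neg_one, hA.neg_one_zpow, one_mul]) hc t u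

theorem IsModel.lc_of_refl_two (h₀ : R.IsModel x) (hL : R.SL) (hp : IsCE p)
    (hK : ∀ t : K, ∃ n : ℕ, t = n) (h2 : (2 : K) ≠ 0) {a b : ι} (γ δ : ι) (h0 : R.A γ δ = 0)
    (hab : R.refl γ (R.refl δ a) = b) (hA : Even (R.A γ a + R.A δ a)) (hab0 : R.A a b = 0) (t u : K) :
    hp.lc (x a t) (x b u) = 1 := by
  have hc : ∀ r s, R.A r s = 0 → ∀ t u, Commute (x r t) (x s u) := fun r s h =>
    h₀.toIsAB.commute_of_nonneg hL h.ge
  have hn : ∀ s, R.A γ s = 0 → ∀ u, Commute (R.nn x γ 1) (x s u) := fun s h u =>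
    ((hc _ _ h _ _).mul_left (hc _ _ (by rw [R.A_ng_left, h, neg_zero]) _ _)).mul_left (hc _ _ h _ _)
  have hnn : Commute (R.nn x γ 1) (R.nn x δ 1) :=
    ((hn _ h0 _).mul_right (hn _ (by rw [R.A_ng_right, h0, neg_zero]) _)).mul_right (hn _ h0 _)
  have hw : R.refl γ * R.refl δ = R.refl δ * R.refl γ := by
    have := (R.isAut_refl γ).conj_refl δ
    rw [R.refl_eq_self h0] at this
    exact mul_inv_eq_iff_eq_mul.1 this
  refine h₀.lc_of_swap hp hK h2 ((h₀.mono_nn γ one_ne_zero).mul (h₀.mono_nn δ one_ne_zero)) hab ?_ ?_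
    (hc _ _ hab0) t u
  · rw [← hab, hw]
    simp [R.refl_refl]
  · rw [show R.nn x γ 1 * R.nn x δ 1 * (R.nn x γ 1 * R.nn x δ 1) =
      (R.nn x γ 1 * R.nn x γ 1) * (R.nn x δ 1 * R.nn x δ 1) by
        rw [mul_assoc, ← mul_assoc (R.nn x δ 1), ← hnn.eq]; group,
      h₀.toIsSt.nn_one_sq, h₀.toIsSt.nn_one_sq, mul_inv_rev, inv_inv, inv_inv]
    calc _ = (R.hh x γ (-1))⁻¹ * ((R.hh x δ (-1))⁻¹ * x a 1 * R.hh x δ (-1)) * R.hh x γ (-1) := by group
      _ = _ := by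
        rw [h₀.toIsSt.conj_hh_neg_one, h₀.toIsSt.conj_hh_neg_one, ← mul_assoc,
          ← zpow_add₀ (by simp), hA.neg_one_zpow, one_mul]

theorem IsSt.sep_of_odd (h : R.IsSt x) (h2 : (2 : K) ≠ 0) {a b : ι} (γ : ι) (ha : Odd (R.A γ a))
    (hb : Even (R.A γ b)) : R.Sep x a b :=
  h.sep_of_hh γ (v := -1) (by simp)
    (by rw [ha.neg_one_zpow]; exact fun e => h2 (by linear_combination -e)) hb.neg_one_zpow

theorem IsSt.sep_of_zero (h : R.IsSt x) (h2 : ∀ r s, R.A r s ≤ 2) {v : K} (h0 : v ≠ 0) (hv : v ^ 2 ≠ 1)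
    {a b : ι} (γ : ι) (ha : R.A γ a ≠ 0) (hb : R.A γ b = 0) : R.Sep x a b := by
  refine h.sep_of_hh γ h0 (fun e => hv ?_) (by rw [hb, zpow_zero])
  have e1 := h2 γ a
  have e2 := h2 γ (R.ng a)
  rw [R.A_ng_right] at e2
  obtain h | h | h | h : R.A γ a = 1 ∨ R.A γ a = -1 ∨ R.A γ a = 2 ∨ R.A γ a = -2 := by omega
  all_goals rw [h] at e
  · rw [zpow_one] at e; rw [e, one_pow]
  · rw [zpow_neg, zpow_one, inv_eq_one] at e; rw [e, one_pow]
  · exact (zpow_ofNat v 2).symm.trans e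
  · rw [zpow_neg, inv_eq_one] at e; exact (zpow_ofNat v 2).symm.trans e

end StRoot

end Cfsg.Agent.Chev

namespace Cfsg.Lie.ChevalleyDatum

open Cfsg.Agent.Chev

universe u v

variable (D : ChevalleyDatum) [hG : D.Good] {K : Type u} [Field K]

theorem stRoot_refl_eq {δ a b : D.Rt}
    (h : ∀ i < D.rank, D.cartan i b = D.cartan i a - D.pairing δ a * D.cartan i δ) :
    D.stRoot.refl δ a = b := by
  apply D.stRoot.wt_inj
  rw [StRoot.wt_refl', stRoot_A]
  funext i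
  exact (h i i.2).symm

theorem ne_neg_of_ne_ng {a b : D.Rt} (h : b ≠ D.stRoot.ng a) : (b : ℕ) ≠ D.neg a :=
  fun e => h (Fin.ext e)

/-- every pair of roots is separated by a root orthogonal to the second one -/
def OrthSep : Prop := ∀ a < D.nroots, ∀ b < D.nroots, b ≠ a → b ≠ D.neg a →
  ∃ g < D.nroots, D.pairing g b = 0 ∧ D.pairing g a ≠ 0

theorem liftable_of_orthSep (hO : D.OrthSep) (h2 : ∀ r s, D.stRoot.A r s ≤ 2) {v : K} (h0 : v ≠ 0)
    (hv : v ^ 2 ≠ 1) (hself : ∀ (E : Type v) [Group E] (p : E →* D.group K) (hp : IsCE p) (r : D.Rt) (t u : K),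
      hp.lc (D.XG K r t) (D.XG K r u) = 1) : Liftable.{u, v} D K := fun E _ p hp =>
  (D.isModel_XG K).exists_isAB_of_sep (D.hmul_XG K) hp
    (fun a => (D.isModel_XG K).toIsSt.moved_of_hh a h0 (by rwa [StRoot.A_self, zpow_ofNat]))
    (hself E p hp) fun a b h1 h1' => by
      obtain ⟨g, hg, e1, e2⟩ := hO a a.2 b b.2 (fun e => h1 (Fin.ext e)) (D.ne_neg_of_ne_ng h1')
      exact Or.inl ((D.isModel_XG K).toIsSt.sep_of_zero h2 h0 hv ⟨g, hg⟩
        (by rwa [stRoot_A]) (by rwa [stRoot_A]))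

end Cfsg.Lie.ChevalleyDatum

namespace Cfsg.Agent.Chev

open Cfsg.Lie Cfsg.Lie.ChevalleyDatum

universe u v

theorem orthSepB2 : chevB2.OrthSep := by unfold OrthSep; decide +kernel
theorem orthSepD4 : chevD4.OrthSep := by unfold OrthSep; decide +kernel
theorem orthSepF4 : chevF4.OrthSep := by unfold OrthSep; decide +kernel

theorem tabF4_three : ∀ a < chevF4.nroots, ∀ b < chevF4.nroots, b ≠ a → b ≠ chevF4.neg a →
    (∃ g < chevF4.nroots, chevF4.pairing g a % 2 = 1 ∧ chevF4.pairing g b % 2 = 0) ∨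
    (chevF4.commTerms a b = [] ∧ ∃ g < chevF4.nroots, chevF4.pairing g a % 2 = 0 ∧ ∀ i < chevF4.rank,
      chevF4.cartan i b = chevF4.cartan i a - chevF4.pairing g a * chevF4.cartan i g) := by
  decide +kernel

theorem tabD4_three : ∀ a < chevD4.nroots, ∀ b < chevD4.nroots, b ≠ a → b ≠ chevD4.neg a →
    chevD4.pairing b a % 2 = 1 ∨ (chevD4.pairing a b = 0 ∧ ∃ d < chevD4.nroots, chevD4.pairing d a = 1 ∧
      chevD4.pairing d b = -1 ∧
      ∃ c < chevD4.nroots, (∀ i < chevD4.rank, chevD4.cartan i c = chevD4.cartan i a - chevD4.cartan i d) ∧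
      ∃ g < chevD4.nroots, chevD4.pairing g d = 0 ∧ chevD4.pairing g a = 1 ∧
        ∀ i < chevD4.rank, chevD4.cartan i b = chevD4.cartan i c - chevD4.pairing g c * chevD4.cartan i g) := by
  decide +kernel

variable {K : Type u} [Field K]

theorem liftableF4_three (hK : ∀ t : K, ∃ n : ℕ, t = n) (h2 : (2 : K) ≠ 0) : Liftable.{u, v} chevF4 K :=
  fun _ _ _ hp => by
  have h₀ := chevF4.isModel_XG K
  refine h₀.exists_isAB_of_sep (chevF4.hmul_XG K) hp (fun a => ?_)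
    (lc_self_of_mem (by simp) h₀.toIsAB hp) fun a b h1 h1' => ?_
  · obtain ⟨g, hg, -⟩ := exists_A2_F4 a
    exact h₀.toIsSt.moved_of_hh g (v := -1) (by simp)
      (by rw [hg, zpow_one]; exact fun e => h2 (by linear_combination -e))
  rcases tabF4_three a a.2 b b.2 (fun e => h1 (Fin.ext e)) (chevF4.ne_neg_of_ne_ng h1') with
    ⟨g, hg, e1, e2⟩ | ⟨e0, g, hg, e1, e2⟩
  · exact Or.inl (h₀.toIsSt.sep_of_odd h2 ⟨g, hg⟩ (by rwa [stRoot_A, Int.odd_iff])
      (by rwa [stRoot_A, Int.even_iff]))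
  · exact Or.inr (Or.inr fun t u => hp.lc_symm (h₀.lc_of_refl hp hK h2 ⟨g, hg⟩
      (chevF4.stRoot_refl_eq e2) (by rwa [stRoot_A, Int.even_iff])
      ((h₀.comm a b h1 h1').commute_of_nil (chevF4.stRoot_terms_eq e0)) t u))

theorem liftableD4_three (hK : ∀ t : K, ∃ n : ℕ, t = n) (h2 : (2 : K) ≠ 0) : Liftable.{u, v} chevD4 K :=
  fun _ _ _ hp => by
  have h₀ := chevD4.isModel_XG K
  refine h₀.exists_isAB_of_sep (chevD4.hmul_XG K) hp (fun a => ?_)
    (lc_self_of_mem (by simp) h₀.toIsAB hp) fun a b h1 h1' => ?_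
  · obtain ⟨g, hg, -⟩ := exists_A2_D4 a
    exact h₀.toIsSt.moved_of_hh g (v := -1) (by simp)
      (by rw [hg, zpow_one]; exact fun e => h2 (by linear_combination -e))
  rcases tabD4_three a a.2 b b.2 (fun e => h1 (Fin.ext e)) (chevD4.ne_neg_of_ne_ng h1') with
    e1 | ⟨e0, d, hd, e1, -, c, hc, e2, g, hg, e3, e4, e5⟩
  · exact Or.inl (h₀.toIsSt.sep_of_odd h2 b (by rwa [stRoot_A, Int.odd_iff])
      (by rw [StRoot.A_self]; exact even_two))
  · refine Or.inr (Or.inr fun t u => hp.lc_symm (h₀.lc_of_refl_two slD4 hp hK h2 ⟨g, hg⟩ ⟨d, hd⟩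
      (by rwa [stRoot_A]) ?_ ?_ (by rwa [stRoot_A]) t u))
    · rw [chevD4.stRoot_refl_eq (δ := ⟨d, hd⟩) (b := ⟨c, hc⟩) fun i hi => by rw [e2 i hi, e1, one_mul]]
      exact chevD4.stRoot_refl_eq e5
    · rw [stRoot_A, stRoot_A, e1, e4]; exact even_two

theorem liftableF4_four {v : K} (h0 : v ≠ 0) (hv : v ^ 2 ≠ 1) : Liftable.{u, v} chevF4 K :=
  chevF4.liftable_of_orthSep orthSepF4 A_le_two_F4 h0 hv fun _ _ _ hp =>
    lc_self_of_mem (by simp) (chevF4.isModel_XG K).toIsAB hp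

theorem liftableD4_four {v : K} (h0 : v ≠ 0) (hv : v ^ 2 ≠ 1) : Liftable.{u, v} chevD4 K :=
  chevD4.liftable_of_orthSep orthSepD4 slD4.le_two h0 hv fun _ _ _ hp =>
    lc_self_of_mem (by simp) (chevD4.isModel_XG K).toIsAB hp

/-! ### Type `B₂` -/

theorem liftableB2_four (h2 : (2 : K) = 0) {v : K} (h0 : v ≠ 0) (hv : v ^ 2 ≠ 1) :
    Liftable.{u, v} chevB2 K :=
  chevB2.liftable_of_orthSep orthSepB2 A_le_two_B2 h0 hv fun _ _ _ hp => by
    have h := (chevB2.isModel_XG K).toIsSt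
    have h1 : v ≠ 1 := fun e => hv (by rw [e, one_pow])
    refine lc_self_B2 h hp h0 h1 fun t u => ?_
    refine h.toIsAB.lc_of_term hp (a := rB2 6) (b := rB2 3) (by decide) (ne_ng_B2 (by decide))
      (C := -1) (i := 1) (j := 1) (by rw [terms_B2_long]; simp) (Or.inr rfl) (Or.inr rfl)
      (fun s => ?_) (commute_B2 h.toIsAB (by decide) (by decide) (by decide +kernel) t) (by
        rw [terms_B2_long]
        intro c hc hne
        simp only [List.mem_cons, List.not_mem_nil, or_false] at hc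
        rcases hc with rfl | rfl
        exacts [absurd rfl hne, fun s => hp.lc_symm (lc_B2_seven_five h hp h0 h1 t s)]) u
    have := (h.comm (rB2 5) (rB2 6) (by decide) (ne_ng_B2 (by decide))).eq_single (γ := rB2 7) (C := 2)
      (chevB2.stRoot_terms_eq (by decide +kernel)) t s
    rw [Int.cast_ofNat, h2, zero_mul, zero_mul, (h.add _).zero] at this
    exact (cm_eq_one_iff.1 this).symm

/-- the short roots of `B₂` -/
def shortB2 (r : Fin 8) : Prop := r = 1 ∨ r = 2 ∨ r = 5 ∨ r = 6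

instance instDecidableShortB2 (r : Fin 8) : Decidable (shortB2 r) := inferInstanceAs (Decidable (_ ∨ _))

/-- a long root of `B₂` is the sum `decB2a r + decB2b r` of two short roots -/
def decB2a (r : Fin 8) : Fin 8 := ![1, 0, 0, 5, 6, 0, 0, 5] r

/-- a long root of `B₂` is the sum `decB2a r + decB2b r` of two short roots -/
def decB2b (r : Fin 8) : Fin 8 := ![2, 0, 0, 1, 2, 0, 0, 6] r

theorem tabB2_dec : ∀ r : Fin 8, ¬ shortB2 r → shortB2 (decB2a r) ∧ shortB2 (decB2b r) ∧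
    decB2b r ≠ decB2a r ∧ (decB2b r : ℕ) ≠ 7 - decB2a r ∧
    chevB2.commTerms (decB2a r) (decB2b r) = [((r : ℕ), 2, 1, 1)] := by decide +kernel

theorem tabB2_sl : ∀ a b : Fin 8, shortB2 a → ¬ shortB2 b → chevB2.pairing b a % 2 = 1 := by
  decide +kernel

theorem tabB2_comm : ∀ r : Fin 8, ¬ shortB2 r → chevB2.commTerms r (decB2a r) = [] ∧
    chevB2.commTerms r (decB2b r) = [] ∧ (decB2a r : ℕ) ≠ 7 - r ∧ (decB2b r : ℕ) ≠ 7 - r := by
  decide +kernel

theorem tabB2_ll : ∀ a b : Fin 8, ¬ shortB2 a → ¬ shortB2 b → b ≠ a → (b : ℕ) ≠ 7 - a →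
    chevB2.commTerms a b = [] ∧ ∃ g : Fin 8, chevB2.pairing g a % 2 = 0 ∧ ∀ i < chevB2.rank,
      chevB2.cartan i b = chevB2.cartan i a - chevB2.pairing g a * chevB2.cartan i g := by
  decide +kernel

theorem tabB2_ss : ∀ a b : Fin 8, shortB2 a → shortB2 b → b ≠ a → (b : ℕ) ≠ 7 - a →
    ∃ r : Fin 8, ¬ shortB2 r ∧ (a = decB2a r ∧ b = decB2b r ∨ a = decB2b r ∧ b = decB2a r) := by
  decide +kernel

theorem liftableB2_three (hK : ∀ t : K, ∃ n : ℕ, t = n) (h2 : (2 : K) ≠ 0) : Liftable.{u, v} chevB2 K :=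
  fun E _ p hp => by
  have h₀ := chevB2.isModel_XG K
  set x : chevB2.Rt → K → chevB2.group K := fun r => chevB2.XG K r with hx
  have h := h₀.toIsSt
  have hself : ∀ a t u, hp.lc (x a t) (x a u) = 1 := fun a => hp.lc_self_of_prime (h.add a) hK
  have hsep : ∀ a b : Fin 8, shortB2 a → ¬ shortB2 b → chevB2.stRoot.Sep x (rB2 a) (rB2 b) :=
    fun a b ha hb => h.sep_of_odd h2 (rB2 b) (by rw [A_B2, Int.odd_iff]; exact tabB2_sl a b ha hb)
      (by rw [StRoot.A_self]; exact even_two)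
  have hshort : ∀ a : Fin 8, shortB2 a → ∃ y : K → E, (∀ t, p (y t) = x (rB2 a) t) ∧
      (∀ t u, y (t + u) = y t * y u) ∧ ∀ e, p e ∈ chevB2.stRoot.HH x → ∀ c,
        chevB2.stRoot.Mono x (p e) 1 c → ∀ t, e * y t * e⁻¹ = y (c (rB2 a) * t) := fun a ha =>
    h.exists_lift_of_moved (chevB2.hmul_XG K) hp (hsep a 0 ha (by decide)).moved (hself _)
  -- the lifted commutators of two orthogonal short root elements
  have hcm : ∀ r : Fin 8, ¬ shortB2 r → ∀ t u,
      cm (x (rB2 (decB2b r)) u) (x (rB2 (decB2a r)) t) = x (rB2 r) (2 * -t * u) := fun r hr t u => by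
    obtain ⟨-, -, e1, e2, e3⟩ := tabB2_dec r hr
    have := (h.comm (rB2 _) (rB2 _) e1 (ne_ng_B2 e2)).eq_single (γ := rB2 r) (C := 2)
      (chevB2.stRoot_terms_eq e3) t u
    rwa [Int.cast_ofNat] at this
  have hlc : ∀ r s : Fin 8, ¬ shortB2 r → shortB2 s → chevB2.commTerms r s = [] → (s : ℕ) ≠ 7 - r →
      ∀ t u, hp.lc (x (rB2 r) t) (x (rB2 s) u) = 1 := fun r s hr hs e1 e2 t u =>
    h.lc_of_sep hp (hsep s r hs hr) (fun t u => commute_B2 h.toIsAB (by rintro rfl; exact hr hs) e2 e1 u t) u t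
  set F : Fin 8 → K → K → E := fun r t u => hp.lc (x (rB2 (decB2b r)) u) (x (rB2 (decB2a r)) t) with hF
  have hFp : ∀ r : Fin 8, ¬ shortB2 r → ∀ t u, p (F r t u) = x (rB2 r) (2 * -t * u) := fun r hr t u => by
    rw [hF, hp.map_lc, hcm r hr]
  have hF1 : ∀ r : Fin 8, ¬ shortB2 r → ∀ t t' u, F r (t + t') u = F r t u * F r t' u := fun r hr t t' u => by
    simp only [hF]
    rw [add_comm, h.add, hp.lc_mul_right', mul_assoc (hp.sec _)⁻¹,
      (hp.commute_of_lc' (hFp r hr t' u) (hp.map_sec _)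
        (hlc r _ hr (tabB2_dec r hr).1 (tabB2_comm r hr).1 (tabB2_comm r hr).2.2.1 _ _)).eq,
      inv_mul_cancel_left]
  have hF2 : ∀ r : Fin 8, ¬ shortB2 r → ∀ t u u', F r t (u + u') = F r t u * F r t u' := fun r hr t u u' => by
    simp only [hF]
    rw [h.add, ← hp.cm_eq_lc' (a := hp.sec (x (rB2 (decB2b r)) u) * hp.sec (x (rB2 (decB2b r)) u'))
      (by simp) (hp.map_sec _), cm_mul_left, mul_assoc (hp.sec _)⁻¹]
    change _ * (F r t u * _) * F r t u' = _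
    rw [(hp.commute_of_lc' (hFp r hr t u) (hp.map_sec _)
        (hlc r _ hr (tabB2_dec r hr).2.1 (tabB2_comm r hr).2.1 (tabB2_comm r hr).2.2.2 _ _)).eq,
      inv_mul_cancel_left]
  have hF3 : ∀ r : Fin 8, ¬ shortB2 r → ∀ t u, F r t u = F r (t * u) 1 := fun r hr t u => by
    obtain ⟨n, rfl⟩ := hK u
    rw [mul_comm, IsCE.add_nat_mul (a := fun t => F r t 1) (fun t t' => hF1 r hr t t' 1),
      ← IsCE.add_nat_mul (a := F r t) (hF2 r hr t), mul_one]
  have hlong : ∀ a : Fin 8, ¬ shortB2 a → ∃ y : K → E, (∀ t, p (y t) = x (rB2 a) t) ∧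
      (∀ t u, y (t + u) = y t * y u) ∧ (∀ e, p e ∈ chevB2.stRoot.HH x → ∀ c,
        chevB2.stRoot.Mono x (p e) 1 c → ∀ t, e * y t * e⁻¹ = y (c (rB2 a) * t)) ∧
        ∀ t u, F a t u = y (2 * -t * u) := fun a ha => by
    refine ⟨fun s => F a (-(2⁻¹ * s)) 1, fun s => ?_, fun s s' => ?_, fun e he c hc s => ?_, fun t u => ?_⟩
    · rw [hFp a ha, neg_neg, mul_one, mul_inv_cancel_left₀ h2]
    · beta_reduce
      rw [mul_add, neg_add, hF1 a ha]
    · have e1 : ∀ t u, e * F a t u * e⁻¹ = F a (c (rB2 (decB2a a)) * t) (c (rB2 (decB2b a)) * u) :=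
        fun t u => by simp only [hF]; rw [hp.conj_lc, hc.conj, hc.conj]; rfl
      have e2 := congrArg p (e1 (-1) 1)
      rw [map_mul, map_mul, map_inv, hFp a ha, hFp a ha, hc.conj] at e2
      have e3 : c (rB2 a) = c (rB2 (decB2a a)) * c (rB2 (decB2b a)) :=
        mul_left_cancel₀ h2 (by linear_combination h₀.x_inj _ e2)
      rw [e1, hF3 a ha, e3]
      congr 1
      ring
    · rw [hF3 a ha]
      congr 1
      field_simp
  have hall : ∀ a : Fin 8, ∃ y : K → E, (∀ t, p (y t) = x (rB2 a) t) ∧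
      (∀ t u, y (t + u) = y t * y u) ∧ (∀ e, p e ∈ chevB2.stRoot.HH x → ∀ c,
        chevB2.stRoot.Mono x (p e) 1 c → ∀ t, e * y t * e⁻¹ = y (c (rB2 a) * t)) ∧
        (¬ shortB2 a → ∀ t u, F a t u = y (2 * -t * u)) := fun a => by
    by_cases ha : shortB2 a
    · obtain ⟨y, h1, h2, h3⟩ := hshort a ha
      exact ⟨y, h1, h2, h3, fun h => absurd ha h⟩
    · obtain ⟨y, h1, h2, h3, h4⟩ := hlong a ha
      exact ⟨y, h1, h2, h3, fun _ => h4⟩
  choose y hy hadd hH hyF using hall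
  refine ⟨y, hy, h₀.isAB_of_hequiv hp hy hadd (fun e he c hc r => hH r e he c hc) ?_⟩
  intro (a : Fin 8) (b : Fin 8) h1 h1'
  have h3 : (b : ℕ) ≠ 7 - a := fun e => h1' (Fin.ext (e.trans (goodB2.neg_eq a a.2).symm))
  by_cases ha : shortB2 a <;> by_cases hb : shortB2 b
  · refine Or.inr (Or.inr fun t u => ?_)
    obtain ⟨r, hr, e⟩ := tabB2_ss a b ha hb h1 h3
    obtain ⟨-, -, e1, e2, e3⟩ := tabB2_dec r hr
    have hm : rB2 r ∈ chevB2.stRoot.mid (rB2 (decB2a r)) (rB2 (decB2b r)) :=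
      chevB2.stRoot.mem_mid_of_mem_terms e1 (ne_ng_B2 e2) (c := (rB2 r, 2, 1, 1))
        (by rw [chevB2.stRoot_terms_eq (l := [(rB2 r, 2, 1, 1)]) e3]; simp)
    have key : ∀ t u, cm (y (decB2b r) u) (y (decB2a r) t) ∈
        XS y (chevB2.stRoot.mid (rB2 (decB2a r)) (rB2 (decB2b r))) := fun t u => by
      rw [hp.cm_eq_lc' (hy _ _) (hy _ _)]
      change F r t u ∈ _
      rw [hyF r hr]
      exact x_mem_XS (ι := chevB2.Rt) y hm _
    rcases e with ⟨rfl, rfl⟩ | ⟨rfl, rfl⟩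
    · exact key t u
    · have := inv_mem (key u t)
      rwa [cm_inv, chevB2.stRoot.mid_comm] at this
  · exact Or.inl (hsep a b ha hb)
  · exact Or.inr (Or.inl (hsep b a hb ha))
  · obtain ⟨e0, g, e1, e2⟩ := tabB2_ll a b ha hb h1 h3
    refine Or.inr (Or.inr fun t u => ?_)
    rw [hp.cm_eq_lc' (hy _ _) (hy _ _), hp.lc_symm (h₀.lc_of_refl hp hK h2 (a := rB2 a) (b := rB2 b) (rB2 g)
      (chevB2.stRoot_refl_eq e2) (by rwa [A_B2, Int.even_iff]) (commute_B2 h.toIsAB h1 h3 e0) t u)]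
    exact one_mem _

/-- `B₂`, `D₄`, `F₄` over a finite field with more than two elements -/
theorem liftable_of_three_le [Finite K] {D : ChevalleyDatum} [D.Good] (hD : D ∈ [chevB2, chevD4, chevF4])
    (hK : Nat.card K ≠ 2) : Liftable.{u, v} D K := by
  have := Fintype.ofFinite K
  by_cases h5 : 4 < Nat.card K
  · refine liftable_of_mem ?_ ⟨Finset.univ, by rwa [Finset.card_univ, ← Nat.card_eq_fintype_card]⟩
    simp only [List.mem_cons, List.not_mem_nil, or_false] at hD ⊢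
    tauto
  have h1 : 1 < Nat.card K := Finite.one_lt_card
  have h6 := FiniteField.cast_card_eq_zero K
  rw [← Nat.card_eq_fintype_card] at h6
  simp only [List.mem_cons, List.not_mem_nil, or_false] at hD
  by_cases h3 : Nat.card K = 3
  · have hp := Ch.exists_natCast_of_card_prime (K := K) (h3 ▸ Nat.prime_three)
    have h2 : (2 : K) ≠ 0 := fun h =>
      one_ne_zero (α := K) (by rw [h3] at h6; push_cast at h6; linear_combination h6 - h)
    rcases hD with rfl | rfl | rfl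
    exacts [liftableB2_three hp h2, liftableD4_three hp h2, liftableF4_three hp h2]
  · obtain ⟨v, h0, hv⟩ := Ch.exists_sq_ne_one_of_card (F := K) (by omega)
    have h2 : (2 : K) = 0 := by
      rw [show Nat.card K = 2 ^ 2 by omega] at h6
      exact pow_eq_zero_iff two_ne_zero |>.1 (by exact_mod_cast h6)
    rcases hD with rfl | rfl | rfl
    exacts [liftableB2_four h2 h0 hv, liftableD4_four h0 hv, liftableF4_four h0 hv]

end Cfsg.Agent.Chev
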